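import Cfsg.Agent.Lib.helper23.MinMax
import Cfsg.Agent.Lib.helper23.GalConj

set_option autoImplicit false

namespace Cfsg.Agent.Lib.helper23

open Cfsg Cfsg.Agent.Lib.helper24 Cfsg.Agent.Lib.helper5
open scoped ComplexConjugate

universe u

theorem card_blocks_defect_le {G : Type u} [Group G] [Finite G] (p : ℕ) [Fact p.Prime]
    (M : Ideal AlgInt) (hM : IsPModular p M) (σ : ℕ) :
    Nat.card {B : Set (IrrCharacter G) // IsPBlock M B ∧ blockDefect p B = σ}
      ≤ Nat.card {C : ConjClasses G // ∃ g : G, ConjClasses.mk g = C ∧ ¬ p ∣ orderOf g ∧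
          (Nat.card (Subgroup.centralizer ({g} : Set G))).factorization p = σ} := by
  classical
  have := Fintype.ofFinite G
  have := Fintype.ofFinite (IrrCharacter G)
  have hMp := isPModular_isPrime hM
  have hfB : Fintype {B : Set (IrrCharacter G) // IsPBlock M B ∧ blockDefect p B = σ} :=
    Fintype.ofFinite _
  have hfC : Fintype {C : ConjClasses G // ∃ g : G, ConjClasses.mk g = C ∧ ¬ p ∣ orderOf g ∧
      (Nat.card (Subgroup.centralizer ({g} : Set G))).factorization p = σ} := Fintype.ofFinite _
  rw [Nat.card_eq_fintype_card, Nat.card_eq_fintype_card]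
  choose rep hrep using
    fun B : {B : Set (IrrCharacter G) // IsPBlock M B ∧ blockDefect p B = σ} => B.2.1
  let A : Matrix {B : Set (IrrCharacter G) // IsPBlock M B ∧ blockDefect p B = σ}
      {C : ConjClasses G // ∃ g : G, ConjClasses.mk g = C ∧ ¬ p ∣ orderOf g ∧
        (Nat.card (Subgroup.centralizer ({g} : Set G))).factorization p = σ} ℂ :=
    fun B C => blockCoeff B.1 (Quotient.out C.1)
  let Ω : Matrix {C : ConjClasses G // ∃ g : G, ConjClasses.mk g = C ∧ ¬ p ∣ orderOf g ∧
        (Nat.card (Subgroup.centralizer ({g} : Set G))).factorization p = σ}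
      {B : Set (IrrCharacter G) // IsPBlock M B ∧ blockDefect p B = σ} ℂ :=
    fun C B => centralChar (rep B).1 (Quotient.out C.1)
  have hdet : (A * Ω).det ≠ 0 := by
    apply det_ne_zero_of_sub_one hMp
    intro B B'
    have hB := hrep B
    have hB' := hrep B'
    have hfull : ∑ c : ConjClasses G, blockCoeff B.1 (Quotient.out c)
        * centralChar (rep B').1 (Quotient.out c)
        = (1 : Matrix {B : Set (IrrCharacter G) // IsPBlock M B ∧ blockDefect p B = σ}
            {B : Set (IrrCharacter G) // IsPBlock M B ∧ blockDefect p B = σ} ℂ) B B' := by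
      have h1 := coord_eq_sum_conjClasses (B.1.indicator (fun _ => (1 : ℂ))) (rep B')
      simp only [coef_indicator] at h1
      rw [← h1, Matrix.one_apply]
      by_cases hBB : B = B'
      · rw [if_pos hBB]
        have : rep B' ∈ B.1 := by
          rw [hBB, hB']
          exact mem_blockOf_self hMp.ne_top _
        rw [Set.indicator_of_mem this]
      · rw [if_neg hBB]
        have : rep B' ∉ B.1 := by
          intro hmem
          apply hBB
          apply Subtype.ext
          rw [hB] at hmem
          rw [hB, hB']
          exact (blockOf_eq_of_mem hMp hmem).symm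
        rw [Set.indicator_of_notMem this]
    have hsplit : (A * Ω) B B' = ∑ c ∈ Finset.univ.filter (fun c : ConjClasses G =>
        ∃ g : G, ConjClasses.mk g = c ∧ ¬ p ∣ orderOf g ∧
          (Nat.card (Subgroup.centralizer ({g} : Set G))).factorization p = σ),
        blockCoeff B.1 (Quotient.out c) * centralChar (rep B').1 (Quotient.out c) := by
      rw [Matrix.mul_apply]
      symm
      exact Finset.sum_subtype _ (fun c => by simp) _
    rw [hsplit, ← hfull, ← Finset.sum_filter_add_sum_filter_not Finset.univ
      (fun c : ConjClasses G => ∃ g : G, ConjClasses.mk g = c ∧ ¬ p ∣ orderOf g ∧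
          (Nat.card (Subgroup.centralizer ({g} : Set G))).factorization p = σ), sub_add_cancel_left]
    apply memLocalIdeal_neg
    apply memLocalIdeal_sum hMp
    intro c hc
    have hcP := (Finset.mem_filter.mp hc).2
    have hR : MemLocalRing M (blockCoeff B.1 (Quotient.out c)) := by
      rw [hB]
      exact memLocalRing_blockCoeff hM _ _
    by_cases ha : MemLocalIdeal M (blockCoeff B.1 (Quotient.out c))
    · exact memLocalIdeal_mul_right hMp ha (memLocalRing_centralChar hMp _ _)
    · by_cases hω : MemLocalIdeal M (centralChar (rep B').1 (Quotient.out c))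
      · exact memLocalIdeal_mul_left hMp hR hω
      · exfalso
        apply hcP
        rw [hB] at ha
        have hreg := regular_of_blockCoeff hM (rep B) _ ha
        have hle := factorization_le_blockDefect hM (rep B) _ ha
        have hge := blockDefect_le_factorization hM (rep B') _ hω
        rw [← hB, B.2.2] at hle
        rw [← hB', B'.2.2] at hge
        exact ⟨Quotient.out c, conjClasses_mk_out c, hreg, le_antisymm hle hge⟩
  have hunit : IsUnit (A * Ω) :=
    (Matrix.isUnit_iff_isUnit_det _).mpr (isUnit_iff_ne_zero.mpr hdet)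
  have hrank : (A * Ω).rank
      = Fintype.card {B : Set (IrrCharacter G) // IsPBlock M B ∧ blockDefect p B = σ} :=
    Matrix.rank_of_isUnit _ hunit
  calc Fintype.card {B : Set (IrrCharacter G) // IsPBlock M B ∧ blockDefect p B = σ}
      = (A * Ω).rank := hrank.symm
    _ ≤ A.rank := Matrix.rank_mul_le_left A Ω
    _ ≤ _ := Matrix.rank_le_card_width A

end Cfsg.Agent.Lib.helper23
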