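import Mathlib
import Cfsg.Agent.Lib.helper23.BlockCount
import Cfsg.Agent.Lib.helper24.CharPerm

set_option autoImplicit false

namespace Cfsg.Agent.Lib.helper23

open Cfsg Cfsg.Agent.Lib.helper24

universe u

theorem card_blocks_defect_ge_le {G : Type u} [Group G] [Finite G] (p : ℕ) [Fact p.Prime]
    (M : Ideal AlgInt) (hM : IsPModular p M) (d : ℕ) :
    Nat.card {B : Set (IrrCharacter G) // IsPBlock M B ∧ d ≤ blockDefect p B}
      ≤ Nat.card {C : ConjClasses G // ∃ g : G, ConjClasses.mk g = C ∧ IsPRegular p g ∧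
          d ≤ (Nat.card (Subgroup.centralizer ({g} : Set G))).factorization p} := by
  classical
  have := Fintype.ofFinite G
  have := Fintype.ofFinite (IrrCharacter G)
  have hemb : ∀ σ : ℕ, Nonempty
      ({B : Set (IrrCharacter G) // IsPBlock M B ∧ blockDefect p B = σ} ↪
        {C : ConjClasses G // ∃ g : G, ConjClasses.mk g = C ∧ ¬ p ∣ orderOf g ∧
          (Nat.card (Subgroup.centralizer ({g} : Set G))).factorization p = σ}) := by
    intro σ
    have h := card_blocks_defect_le (G := G) p M hM σ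
    haveI : Fintype {B : Set (IrrCharacter G) // IsPBlock M B ∧ blockDefect p B = σ} :=
      Fintype.ofFinite _
    haveI : Fintype {C : ConjClasses G // ∃ g : G, ConjClasses.mk g = C ∧ ¬ p ∣ orderOf g ∧
          (Nat.card (Subgroup.centralizer ({g} : Set G))).factorization p = σ} :=
      Fintype.ofFinite _
    rw [Nat.card_eq_fintype_card, Nat.card_eq_fintype_card] at h
    exact Function.Embedding.nonempty_of_card_le h
  have φ : ∀ σ : ℕ, ({B : Set (IrrCharacter G) // IsPBlock M B ∧ blockDefect p B = σ} ↪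
        {C : ConjClasses G // ∃ g : G, ConjClasses.mk g = C ∧ ¬ p ∣ orderOf g ∧
          (Nat.card (Subgroup.centralizer ({g} : Set G))).factorization p = σ}) :=
    fun σ => (hemb σ).some
  apply Nat.card_le_card_of_injective
    (fun B : {B : Set (IrrCharacter G) // IsPBlock M B ∧ d ≤ blockDefect p B} =>
      (⟨(φ (blockDefect p B.1) ⟨B.1, B.2.1, rfl⟩).1, by
        obtain ⟨g, hg1, hg2, hg3⟩ := (φ (blockDefect p B.1) ⟨B.1, B.2.1, rfl⟩).2
        exact ⟨g, hg1, hg2, by rw [hg3]; exact B.2.2⟩⟩ :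
        {C : ConjClasses G // ∃ g : G, ConjClasses.mk g = C ∧ IsPRegular p g ∧
          d ≤ (Nat.card (Subgroup.centralizer ({g} : Set G))).factorization p}))
  intro B B' hBB
  have hval : (φ (blockDefect p B.1) ⟨B.1, B.2.1, rfl⟩).1
      = (φ (blockDefect p B'.1) ⟨B'.1, B'.2.1, rfl⟩).1 := congrArg Subtype.val hBB
  obtain ⟨g, hg1, -, hg3⟩ := (φ (blockDefect p B.1) ⟨B.1, B.2.1, rfl⟩).2
  obtain ⟨g', hg1', -, hg3'⟩ := (φ (blockDefect p B'.1) ⟨B'.1, B'.2.1, rfl⟩).2
  have hconj : IsConj g g' := by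
    rw [← ConjClasses.mk_eq_mk_iff_isConj, hg1, hg1', hval]
  have hσ : blockDefect p B.1 = blockDefect p B'.1 := by
    rw [← hg3, ← hg3', card_centralizer_eq_of_isConj hconj]
  obtain ⟨B, hB1, hB2⟩ := B
  obtain ⟨B', hB1', hB2'⟩ := B'
  simp only at hσ hval ⊢
  have key : ∀ (σ σ' : ℕ) (h : σ = σ') (X X' : Set (IrrCharacter G)) (hX : IsPBlock M X)
      (hX' : IsPBlock M X') (e : blockDefect p X = σ) (e' : blockDefect p X' = σ'),
      (φ σ ⟨X, hX, e⟩).1 = (φ σ' ⟨X', hX', e'⟩).1 → X = X' := by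
    intro σ σ' h X X' hX hX' e e' hv
    subst h
    have h2 := (φ σ).injective (Subtype.ext hv)
    exact congrArg Subtype.val h2
  have := key _ _ hσ B B' hB1 hB1' rfl rfl hval
  exact Subtype.ext this

end Cfsg.Agent.Lib.helper23
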