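import Cfsg.Agent.Lib.helper23.RepGen
import Cfsg.Agent.Lib.helper5.BlockReg
import Cfsg.Prelude.Def_BlockRank

set_option autoImplicit false

namespace Cfsg.Agent.Lib.helper23

open Cfsg Cfsg.Agent.Lib.helper24 Cfsg.Agent.Lib.helper5
open scoped ComplexConjugate

universe u

variable {G : Type u} [Group G]

theorem isCharacter_mem_adjoin {χ : G → ℂ} (hχ : IsCharacter G χ) (m : ℕ) (hm : m ≠ 0) (x : G)
    (hx : x ^ m = 1) :
    χ x ∈ IntermediateField.adjoin ℚ
      ({Complex.exp (2 * Real.pi * Complex.I / (m : ℂ))} : Set ℂ) := by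
  obtain ⟨n, ρ, rfl⟩ := hχ
  rw [genrep_char_eq_sum_roots]
  apply multiset_sum_mem
  intro μ hμ
  have h1 := genrep_charpoly_root_pow ρ x m hx μ (Polynomial.mem_roots'.mp hμ).2
  have hprim := Complex.isPrimitiveRoot_exp m hm
  haveI : NeZero m := ⟨hm⟩
  obtain ⟨i, _, hi⟩ := hprim.eq_pow_of_pow_eq_one h1
  rw [← hi]
  exact pow_mem (IntermediateField.mem_adjoin_simple_self ℚ _) i

theorem pow_pprime_part_eq_one [Finite G] (p : ℕ) [hp : Fact p.Prime] (g : G)
    (hg : ¬ p ∣ orderOf g) : g ^ (Nat.card G / p ^ (Nat.card G).factorization p) = 1 := by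
  apply orderOf_dvd_iff_pow_eq_one.mp
  have h1 : orderOf g ∣ p ^ (Nat.card G).factorization p
      * (Nat.card G / p ^ (Nat.card G).factorization p) := by
    rw [Nat.mul_div_cancel' (Nat.ordProj_dvd _ _)]
    exact orderOf_dvd_natCard g
  have h2 : Nat.Coprime (orderOf g) (p ^ (Nat.card G).factorization p) := by
    apply Nat.Coprime.pow_right
    exact ((Nat.Prime.coprime_iff_not_dvd hp.out).mpr hg).symm
  exact h2.dvd_of_dvd_mul_left h1

theorem blockCoeff_mem_cyclotomic [Fintype G] (p : ℕ) [Fact p.Prime] (M : Ideal AlgInt)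
    (hM : IsPModular p M) (B : Set (IrrCharacter G)) (hB : IsPBlock M B) (g : G) :
    blockCoeff B g ∈ IntermediateField.adjoin ℚ
      ({Complex.exp (2 * Real.pi * Complex.I
        / ((Nat.card G / p ^ (Nat.card G).factorization p : ℕ) : ℂ))} : Set ℂ) := by
  classical
  have := Fintype.ofFinite (IrrCharacter G)
  obtain ⟨χ₀, rfl⟩ := hB
  by_cases hg : p ∣ orderOf g
  · have hMp := isPModular_isPrime hM
    rw [← coef_indicator, coef_eq_zero_of_singular hM (indicator_mem_osimaRing hMp χ₀)
      (indicator_mul_self _) g hg]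
    exact zero_mem _
  · have hm0 : Nat.card G / p ^ (Nat.card G).factorization p ≠ 0 :=
      (Nat.div_pos (Nat.ordProj_le p Nat.card_pos.ne') (Nat.ordProj_pos _ _)).ne'
    have hgm := pow_pprime_part_eq_one p g hg
    unfold blockCoeff
    apply mul_mem
    · apply inv_mem
      exact natCast_mem _ _
    · apply finsum_mem_induction
      · exact zero_mem _
      · intro x y hx hy
        exact add_mem hx hy
      · intro χ _
        apply mul_mem
        · exact isCharacter_mem_adjoin (isCharacter_of_isIrrCharacter χ.2) _ hm0 1 (one_pow _)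
        · rw [← isCharacter_inv (isCharacter_of_isIrrCharacter χ.2)]
          apply isCharacter_mem_adjoin (isCharacter_of_isIrrCharacter χ.2) _ hm0
          rw [inv_pow, hgm, inv_one]

end Cfsg.Agent.Lib.helper23
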