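import Cfsg.Agent.S0906
import Cfsg.Agent.Lib.helper24.CharPerm

set_option autoImplicit false

namespace Cfsg.Agent.Lib.helper23

open Cfsg Cfsg.Agent.Lib.helper24 Cfsg.Agent.Lib.helper5
open scoped ComplexConjugate Pointwise

universe u

variable {G : Type u} [Group G]

theorem index_centralizer_conj [Finite G] (g x : G) :
    (Subgroup.centralizer ({x * g * x⁻¹} : Set G)).index
      = (Subgroup.centralizer ({g} : Set G)).index := by
  have h : IsConj g (x * g * x⁻¹) := isConj_iff.mpr ⟨x, rfl⟩
  have h1 := card_centralizer_eq_of_isConj h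
  have h2 := Subgroup.card_mul_index (Subgroup.centralizer ({x * g * x⁻¹} : Set G))
  have h3 := Subgroup.card_mul_index (Subgroup.centralizer ({g} : Set G))
  rw [← h1, ← h3] at h2
  exact Nat.eq_of_mul_eq_mul_left Nat.card_pos h2

theorem blockCoeff_conj (B : Set (IrrCharacter G)) (g x : G) :
    blockCoeff B (x * g * x⁻¹) = blockCoeff B g := by
  unfold blockCoeff
  congr 1
  apply finsum_mem_congr rfl
  intro χ _
  rw [isCharacter_conj_class (isCharacter_of_isIrrCharacter χ.2) g x]

theorem centralChar_conj [Finite G] (χ : IrrCharacter G) (g x : G) :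
    centralChar χ.1 (x * g * x⁻¹) = centralChar χ.1 g := by
  unfold centralChar
  rw [index_centralizer_conj, isCharacter_conj_class (isCharacter_of_isIrrCharacter χ.2) g x]

theorem isDefectClass_conj [Finite G] {M : Ideal AlgInt} {B : Set (IrrCharacter G)} {g : G}
    (hg : IsDefectClass M B g) (x : G) : IsDefectClass M B (x * g * x⁻¹) := by
  refine ⟨?_, ?_, ?_⟩
  · rw [blockCoeff_conj]
    exact hg.1
  · rw [blockCoeff_conj]
    exact hg.2.1
  · intro χ hχ
    rw [centralChar_conj]
    exact hg.2.2 χ hχ

theorem not_dvd_index_of_defectClass_principal [Finite G] {p : ℕ} {M : Ideal AlgInt}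
    (hM : IsPModular p M) {g : G} (hg : IsDefectClass M (principalBlock M G) g) :
    ¬ p ∣ (Subgroup.centralizer ({g} : Set G)).index := by
  have h1 := hg.2.2 (trivIrr G) (mem_blockOf_self (isPModular_ne_top hM) (trivIrr G))
  intro hdvd
  apply h1
  have : centralChar (trivIrr G).1 g = ((Subgroup.centralizer ({g} : Set G)).index : ℂ) := by
    unfold centralChar
    simp [trivIrr]
  rw [this]
  exact (memLocalIdeal_natCast_iff hM _).mpr hdvd

theorem defectGroup_principal_iff [Finite G] (p : ℕ) [Fact p.Prime] (M : Ideal AlgInt)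
    (hM : IsPModular p M) (D : Subgroup G) :
    IsDefectGroup p M (principalBlock M G) D ↔ ∃ S : Sylow p G, (S : Subgroup G) = D := by
  have hp : p.Prime := Fact.out
  constructor
  · rintro ⟨g, hg, P, rfl⟩
    have hidx := not_dvd_index_of_defectClass_principal hM hg
    have hP : IsPGroup p ((P : Subgroup (Subgroup.centralizer ({g} : Set G))).map
        (Subgroup.centralizer ({g} : Set G)).subtype) := P.2.map _
    have hnd : ¬ p ∣ ((P : Subgroup (Subgroup.centralizer ({g} : Set G))).map
        (Subgroup.centralizer ({g} : Set G)).subtype).index := by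
      rw [Subgroup.index_map_subtype]
      exact Nat.Prime.not_dvd_mul hp P.not_dvd_index hidx
    exact ⟨hP.toSylow hnd, IsPGroup.toSylow_coe hP hnd⟩
  · rintro ⟨S, rfl⟩
    obtain ⟨g₀, hg₀⟩ := Cfsg.Agent.S0906.result p M hM (principalBlock M G)
      ⟨trivIrr G, rfl⟩
    have hidx := not_dvd_index_of_defectClass_principal hM hg₀
    obtain ⟨P₀⟩ : Nonempty (Sylow p (Subgroup.centralizer ({g₀} : Set G))) := inferInstance
    have hP : IsPGroup p ((P₀ : Subgroup (Subgroup.centralizer ({g₀} : Set G))).map
        (Subgroup.centralizer ({g₀} : Set G)).subtype) := P₀.2.map _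
    have hnd : ¬ p ∣ ((P₀ : Subgroup (Subgroup.centralizer ({g₀} : Set G))).map
        (Subgroup.centralizer ({g₀} : Set G)).subtype).index := by
      rw [Subgroup.index_map_subtype]
      exact Nat.Prime.not_dvd_mul hp P₀.not_dvd_index hidx
    set Q : Sylow p G := hP.toSylow hnd with hQ
    obtain ⟨x, hx⟩ := MulAction.exists_smul_eq G Q S
    have hg := isDefectClass_conj hg₀ x
    have hSle : (S : Subgroup G) ≤ Subgroup.centralizer ({x * g₀ * x⁻¹} : Set G) := by
      intro s hs
      rw [← hx, Sylow.coe_subgroup_smul, Subgroup.mem_pointwise_smul_iff_inv_smul_mem] at hs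
      have hs' : (MulAut.conj x)⁻¹ • s ∈ (Q : Subgroup G) := hs
      rw [hQ, IsPGroup.toSylow_coe, Subgroup.mem_map] at hs'
      obtain ⟨c, _, hc⟩ := hs'
      have hc' : x⁻¹ * s * x = (c : G) := by
        rw [← MulAut.conj_inv_apply]
        exact hc.symm
      have hcomm := Subgroup.mem_centralizer_iff.mp c.2 g₀ rfl
      rw [Subgroup.mem_centralizer_iff]
      intro y hy
      rw [Set.mem_singleton_iff] at hy
      rw [hy]
      have hs2 : s = x * (c : G) * x⁻¹ := by
        rw [← hc']
        group
      rw [hs2]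
      calc x * g₀ * x⁻¹ * (x * (c : G) * x⁻¹) = x * (g₀ * (c : G)) * x⁻¹ := by group
        _ = x * ((c : G) * g₀) * x⁻¹ := by rw [hcomm]
        _ = x * (c : G) * x⁻¹ * (x * g₀ * x⁻¹) := by group
    have hP' : IsPGroup p ((S : Subgroup G).subgroupOf
        (Subgroup.centralizer ({x * g₀ * x⁻¹} : Set G))) := S.2.comap_subtype
    have hnd' : ¬ p ∣ ((S : Subgroup G).subgroupOf
        (Subgroup.centralizer ({x * g₀ * x⁻¹} : Set G))).index := by
      intro hdvd
      apply S.not_dvd_index
      rw [← Subgroup.relIndex_mul_index hSle]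
      exact dvd_mul_of_dvd_left hdvd _
    refine ⟨x * g₀ * x⁻¹, hg, hP'.toSylow hnd', ?_⟩
    rw [IsPGroup.toSylow_coe, Subgroup.subgroupOf_map_subtype]
    exact (inf_eq_left.mpr hSle).symm

end Cfsg.Agent.Lib.helper23
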