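import Mathlib

set_option autoImplicit false

namespace Cfsg.Agent.Lib.helper23

/-- lifting step: `x ≡ 1 (mod M)` and `ℓ ∣ M` give `x ^ ℓ ≡ 1 (mod ℓ M)`. -/
theorem dp_lift {x M ℓ : ℕ} (hx : x ≡ 1 [MOD M]) (hℓ : ℓ ∣ M) : x ^ ℓ ≡ 1 [MOD ℓ * M] := by
  have h1 : (M : ℤ) ∣ (x : ℤ) - 1 := by
    have := Nat.modEq_iff_dvd.mp hx.symm
    simpa using this
  have h2 : ℓ ∣ ∑ i ∈ Finset.range ℓ, x ^ i := by
    rw [← ZMod.natCast_eq_zero_iff]
    have hx1 : (x : ZMod ℓ) = 1 := by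
      have := (ZMod.natCast_eq_natCast_iff x 1 ℓ).mpr (hx.of_dvd hℓ)
      simpa using this
    simp [hx1]
  have h3 : ((ℓ * M : ℕ) : ℤ) ∣ (x : ℤ) ^ ℓ - 1 := by
    rw [← geom_sum_mul]
    push_cast
    exact mul_dvd_mul (by exact_mod_cast h2) h1
  refine (Nat.modEq_iff_dvd.mpr ?_).symm
  simpa using h3

/-- the main induction. -/
theorem dp_main (x M K : ℕ) (hx : x ≡ 1 [MOD M]) :
    ∀ n : ℕ, 0 < n → Nat.Coprime x n →
      (∀ ℓ : ℕ, ℓ.Prime → ℓ ∣ n → ¬ ℓ ∣ M → (ℓ - 1) ∣ K) →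
      ∃ j, j ∣ n ∧ (∀ ℓ : ℕ, ℓ.Prime → ℓ ∣ n → ¬ ℓ ∣ M → ℓ * j ∣ n) ∧
        x ^ (j * K) ≡ 1 [MOD n * M] := by
  intro n
  induction n using Nat.strong_induction_on with
  | _ n ih =>
    intro hn hcop hK
    by_cases hn1 : n = 1
    · subst hn1
      refine ⟨1, dvd_rfl, ?_, ?_⟩
      · intro ℓ hℓ hd; exact absurd (Nat.dvd_one.mp hd) hℓ.ne_one
      · simpa using hx.pow K
    · obtain ⟨ℓ, hℓ, n₁, rfl⟩ : ∃ ℓ, ℓ.Prime ∧ ∃ n₁, n = ℓ * n₁ :=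
        ⟨n.minFac, Nat.minFac_prime hn1, Nat.minFac_dvd n⟩
      have hn₁pos : 0 < n₁ := by
        rcases Nat.eq_zero_or_pos n₁ with h | h
        · rw [h, mul_zero] at hn; omega
        · exact h
      have hn₁lt : n₁ < ℓ * n₁ := by
        have := hℓ.two_le
        nlinarith
      have hcop₁ : Nat.Coprime x n₁ := Nat.Coprime.coprime_dvd_right ⟨ℓ, by ring⟩ hcop
      have hK₁ : ∀ ℓ' : ℕ, ℓ'.Prime → ℓ' ∣ n₁ → ¬ ℓ' ∣ M → (ℓ' - 1) ∣ K := by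
        intro ℓ' h1 h2 h3
        exact hK ℓ' h1 (Dvd.dvd.mul_left h2 ℓ) h3
      obtain ⟨j₁, hj₁, hbad₁, hcong₁⟩ := ih n₁ hn₁lt hn₁pos hcop₁ hK₁
      by_cases hcase : ℓ ∣ n₁ * M
      · refine ⟨ℓ * j₁, mul_dvd_mul_left ℓ hj₁, ?_, ?_⟩
        · intro ℓ' h1 h2 h3
          by_cases h4 : ℓ' ∣ n₁
          · have := hbad₁ ℓ' h1 h4 h3
            calc ℓ' * (ℓ * j₁) = ℓ * (ℓ' * j₁) := by ring
              _ ∣ ℓ * n₁ := mul_dvd_mul_left ℓ this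
          · exfalso
            have h5 : ℓ' ∣ ℓ := ((Nat.Prime.dvd_mul h1).mp h2).resolve_right h4
            have h6 : ℓ' = ℓ := (Nat.prime_dvd_prime_iff_eq h1 hℓ).mp h5
            rw [h6] at h3 h4
            exact h4 (((Nat.Prime.dvd_mul hℓ).mp hcase).resolve_right h3)
        · have := dp_lift hcong₁ hcase
          have e1 : x ^ (ℓ * j₁ * K) = (x ^ (j₁ * K)) ^ ℓ := by rw [← pow_mul]; ring_nf
          have e2 : ℓ * n₁ * M = ℓ * (n₁ * M) := by ring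
          rw [e1, e2]; exact this
      · have hℓM : ¬ ℓ ∣ M := fun h => hcase (Dvd.dvd.mul_left h n₁)
        refine ⟨j₁, Dvd.dvd.mul_left hj₁ ℓ, ?_, ?_⟩
        · intro ℓ' h1 h2 h3
          by_cases h4 : ℓ' ∣ n₁
          · exact Dvd.dvd.mul_left (hbad₁ ℓ' h1 h4 h3) ℓ
          · have h5 : ℓ' ∣ ℓ := ((Nat.Prime.dvd_mul h1).mp h2).resolve_right h4
            have h6 : ℓ' = ℓ := (Nat.prime_dvd_prime_iff_eq h1 hℓ).mp h5
            rw [h6]; exact mul_dvd_mul_left ℓ hj₁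
        · have hKℓ : (ℓ - 1) ∣ K := hK ℓ hℓ (Dvd.intro n₁ rfl) hℓM
          have hcopℓ : Nat.Coprime x ℓ := Nat.Coprime.coprime_dvd_right (Dvd.intro n₁ rfl) hcop
          have hmodℓ : x ^ (j₁ * K) ≡ 1 [MOD ℓ] := by
            obtain ⟨t, ht⟩ := hKℓ
            have h1 : x ^ (ℓ - 1) ≡ 1 [MOD ℓ] := by
              have := Nat.ModEq.pow_totient hcopℓ
              rwa [Nat.totient_prime hℓ] at this
            have e : x ^ (j₁ * K) = (x ^ (ℓ - 1)) ^ (t * j₁) := by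
              rw [← pow_mul, ht]; ring_nf
            rw [e]
            simpa using h1.pow (t * j₁)
          have hcopm : Nat.Coprime ℓ (n₁ * M) := (Nat.Prime.coprime_iff_not_dvd hℓ).mpr hcase
          have := (Nat.modEq_and_modEq_iff_modEq_mul hcopm).mp ⟨hmodℓ, hcong₁⟩
          have e2 : ℓ * n₁ * M = ℓ * (n₁ * M) := by ring
          rw [e2]; exact this

/-- if `n` is the exact order, every exponent is a multiple of `n`. -/
theorem dp_order {q n m : ℕ} (hn : 0 < n) (R1 : q ^ n ≡ 1 [MOD m])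
    (R2 : ∀ i, 0 < i → i < n → ¬ q ^ i ≡ 1 [MOD m]) (e : ℕ) (he : q ^ e ≡ 1 [MOD m]) :
    n ∣ e := by
  have key : ∀ k, (q : ZMod m) ^ k = 1 ↔ q ^ k ≡ 1 [MOD m] := by
    intro k
    rw [← ZMod.natCast_eq_natCast_iff]; push_cast; rfl
  have ho : orderOf (q : ZMod m) ∣ n := orderOf_dvd_of_pow_eq_one ((key n).mpr R1)
  have ho' : orderOf (q : ZMod m) = n := by
    have hpos : 0 < orderOf (q : ZMod m) := Nat.pos_of_dvd_of_pos ho hn
    have hle := Nat.le_of_dvd hn ho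
    by_contra hne
    exact R2 _ hpos (lt_of_le_of_ne hle hne) ((key _).mp (pow_orderOf_eq_one _))
  rw [← ho']
  exact orderOf_dvd_of_pow_eq_one ((key e).mpr he)

end Cfsg.Agent.Lib.helper23
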