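import Cfsg.Agent.Lib.helper23.DicksonPair

set_option autoImplicit false

namespace Cfsg.Agent.Lib.helper23

/-- the valuation obstruction. -/
theorem dp_not_dvd {q n r : ℕ} (hq : 2 ≤ q) (hn : 0 < n) (hr : r.Prime) (hrn : r ∣ n)
    (hrq : r ∣ q - 1) (h4 : 4 ∣ n → 4 ∣ q - 1) : ¬ (n * (q - 1)) ∣ q ^ (n / r) - 1 := by
  intro hdvd
  obtain ⟨j, rfl⟩ := hrn
  have hj : 0 < j := by
    rcases Nat.eq_zero_or_pos j with h | h
    · simp [h] at hn
    · exact h
  rw [Nat.mul_div_cancel_left j hr.pos] at hdvd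
  have hq1 : q - 1 ≠ 0 := by omega
  have hone : 1 ≤ q ^ j := Nat.one_le_pow _ _ (by omega)
  have hne : q ^ j - 1 ≠ 0 := by
    have h1 : q ^ 1 ≤ q ^ j := Nat.pow_le_pow_right (by omega) hj
    rw [pow_one] at h1
    omega
  have hrq' : ¬ r ∣ q := by
    intro h
    have h1 : r ∣ q - (q - 1) := Nat.dvd_sub h hrq
    rw [show q - (q - 1) = 1 by omega] at h1
    exact hr.one_lt.ne' (Nat.dvd_one.mp h1)
  haveI : Fact r.Prime := ⟨hr⟩
  have hval : padicValNat r (r * j * (q - 1)) ≤ padicValNat r (q ^ j - 1) := by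
    have h1 : r ^ padicValNat r (r * j * (q - 1)) ∣ r * j * (q - 1) := pow_padicValNat_dvd
    exact (padicValNat_dvd_iff_le hne).mp (h1.trans hdvd)
  have hmul : padicValNat r (r * j * (q - 1)) = 1 + padicValNat r j + padicValNat r (q - 1) := by
    rw [padicValNat.mul (mul_ne_zero hr.ne_zero hj.ne') hq1, padicValNat.mul hr.ne_zero hj.ne',
      padicValNat_self]
  rcases hr.eq_two_or_odd' with h2 | hodd
  · subst h2
    rcases Nat.even_or_odd j with hje | hjo
    · have h4n : 4 ∣ 2 * j := by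
        obtain ⟨t, ht⟩ := hje
        exact ⟨t, by omega⟩
      have h4q := h4 h4n
      have hlte := padicValNat.pow_two_sub_one (show 1 < q by omega) hrq' hj.ne' hje
      have hq1v : padicValNat 2 (q + 1) = 1 := by
        have ha : 1 ≤ padicValNat 2 (q + 1) :=
          (padicValNat_dvd_iff_le (by omega)).mp (show 2 ^ 1 ∣ q + 1 by omega)
        have hb : ¬ 2 ≤ padicValNat 2 (q + 1) := by
          intro h
          have h' := (padicValNat_dvd_iff_le (show q + 1 ≠ 0 by omega)).mpr h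
          norm_num at h'
          omega
        omega
      omega
    · -- `j` odd: `q ^ j - 1 = g * (q - 1)` with `g` odd
      have hgeom := geom_sum_mul_add (q - 1) j
      rw [show q - 1 + 1 = q by omega] at hgeom
      have hg : q ^ j - 1 = (∑ i ∈ Finset.range j, q ^ i) * (q - 1) := by omega
      rw [hg] at hdvd
      have h2g : 2 * j ∣ ∑ i ∈ Finset.range j, q ^ i :=
        Nat.dvd_of_mul_dvd_mul_right (Nat.pos_of_ne_zero hq1) hdvd
      have h2g' : 2 ∣ ∑ i ∈ Finset.range j, q ^ i := (Dvd.intro j rfl).trans h2g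
      have hqodd : Odd q := by
        rw [Nat.odd_iff]; omega
      have hsum : Odd (∑ i ∈ Finset.range j, q ^ i) := by
        rw [Finset.odd_sum_iff_odd_card_odd]
        have : (Finset.range j).filter (fun i => Odd (q ^ i)) = Finset.range j := by
          apply Finset.filter_true_of_mem
          intro i _
          exact hqodd.pow
        rw [this, Finset.card_range]
        exact hjo
      rw [Nat.odd_iff] at hsum
      omega
  · have hlte := padicValNat.pow_sub_pow hodd (show 1 < q by omega) hrq hrq' hj.ne'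
    rw [one_pow] at hlte
    omega

/-- the Dickson pair condition. -/
theorem dickson_pair_iff (q n : ℕ) (hq : IsPrimePow q) (hn : 1 < n) :
    ((∀ r : ℕ, r.Prime → r ∣ n → r ∣ q - 1) ∧ (4 ∣ n → 4 ∣ q - 1)) ↔
      (q ^ n ≡ 1 [MOD n * (q - 1)] ∧
        ∀ i : ℕ, 0 < i → i < n → ¬ q ^ i ≡ 1 [MOD n * (q - 1)]) := by
  have hq2 : 2 ≤ q := hq.two_le
  have hx : q ≡ 1 [MOD q - 1] :=
    ((Nat.modEq_iff_dvd' (show 1 ≤ q by omega)).mpr (dvd_refl _)).symm
  have hone : ∀ k, 1 ≤ q ^ k := fun k => Nat.one_le_pow _ _ (by omega)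
  constructor
  · rintro ⟨hpr, h4⟩
    have hcop : Nat.Coprime q n := by
      apply Nat.coprime_of_dvd
      intro k hk hkq hkn
      have h1 := hpr k hk hkn
      have h2 : k ∣ q - (q - 1) := Nat.dvd_sub hkq h1
      rw [show q - (q - 1) = 1 by omega] at h2
      exact hk.one_lt.ne' (Nat.dvd_one.mp h2)
    have R1 : q ^ n ≡ 1 [MOD n * (q - 1)] := by
      obtain ⟨j, hj, -, hcong⟩ := dp_main q (q - 1) 1 hx n (by omega) hcop
        (fun ℓ h1 h2 h3 => absurd (hpr ℓ h1 h2) h3)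
      obtain ⟨t, rfl⟩ := hj
      rw [mul_one] at hcong
      rw [pow_mul]
      simpa using hcong.pow t
    refine ⟨R1, ?_⟩
    intro i hi hin hcong
    have key : ∀ k, (q : ZMod (n * (q - 1))) ^ k = 1 ↔ q ^ k ≡ 1 [MOD n * (q - 1)] := by
      intro k
      rw [← ZMod.natCast_eq_natCast_iff]; push_cast; rfl
    obtain ⟨o, ho⟩ : ∃ o, o = orderOf (q : ZMod (n * (q - 1))) := ⟨_, rfl⟩
    have ho_i : o ∣ i := by rw [ho]; exact orderOf_dvd_of_pow_eq_one ((key i).mpr hcong)
    have ho_n : o ∣ n := by rw [ho]; exact orderOf_dvd_of_pow_eq_one ((key n).mpr R1)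
    have hqo : q ^ o ≡ 1 [MOD n * (q - 1)] := by
      rw [← key, ho]; exact pow_orderOf_eq_one _
    obtain ⟨k, hk⟩ := ho_n
    have hole : o ≤ i := Nat.le_of_dvd hi ho_i
    have hk1 : k ≠ 1 := by
      rintro rfl; rw [mul_one] at hk; omega
    obtain ⟨r, hr, k', hk'⟩ : ∃ r, r.Prime ∧ ∃ k', k = r * k' :=
      ⟨k.minFac, Nat.minFac_prime hk1, Nat.minFac_dvd k⟩
    have hrn : r ∣ n := ⟨o * k', by rw [hk, hk']; ring⟩
    have hdiv : n / r = o * k' := by
      rw [hk, hk', show o * (r * k') = r * (o * k') by ring]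
      exact Nat.mul_div_cancel_left _ hr.pos
    have hcong' : q ^ (n / r) ≡ 1 [MOD n * (q - 1)] := by
      rw [hdiv, pow_mul]
      simpa using hqo.pow k'
    exact dp_not_dvd hq2 (by omega) hr hrn (hpr _ hr hrn) h4
      ((Nat.modEq_iff_dvd' (hone _)).mp hcong'.symm)
  · rintro ⟨R1, R2⟩
    have hdvd1 : n * (q - 1) ∣ q ^ n - 1 := (Nat.modEq_iff_dvd' (hone n)).mp R1.symm
    have hcop : Nat.Coprime q n := by
      apply Nat.coprime_of_dvd
      intro k hk hkq hkn
      have h1 : k ∣ q ^ n - 1 := (Dvd.dvd.mul_right hkn _).trans hdvd1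
      have h2 : k ∣ q ^ n := Dvd.dvd.pow hkq (by omega)
      have h3 : k ∣ q ^ n - (q ^ n - 1) := Nat.dvd_sub h2 h1
      rw [show q ^ n - (q ^ n - 1) = 1 by have := hone n; omega] at h3
      exact hk.one_lt.ne' (Nat.dvd_one.mp h3)
    have hord := dp_order (by omega : 0 < n) R1 R2
    have hpr : ∀ r : ℕ, r.Prime → r ∣ n → r ∣ q - 1 := by
      by_contra hcon
      push Not at hcon
      classical
      obtain ⟨r₀, hr₀, hr₀n, hr₀q⟩ := hcon
      obtain ⟨S, hS⟩ : ∃ S : Finset ℕ, ∀ r, r ∈ S ↔ (r.Prime ∧ r ∣ n ∧ ¬ r ∣ q - 1) := by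
        refine ⟨(Finset.range (n + 1)).filter (fun r => r.Prime ∧ r ∣ n ∧ ¬ r ∣ q - 1), ?_⟩
        intro r
        simp only [Finset.mem_filter, Finset.mem_range, and_iff_right_iff_imp]
        rintro ⟨-, h2, -⟩
        exact Nat.lt_succ_of_le (Nat.le_of_dvd (by omega) h2)
      have hSne : S.Nonempty := ⟨r₀, (hS r₀).mpr ⟨hr₀, hr₀n, hr₀q⟩⟩
      obtain ⟨r, hrS, hrmax⟩ := Finset.exists_max_image S id hSne
      obtain ⟨hr, hrn, hrq⟩ := (hS r).mp hrS
      have hrmax' : ∀ ℓ : ℕ, ℓ.Prime → ℓ ∣ n → ¬ ℓ ∣ q - 1 → ℓ ≤ r :=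
        fun ℓ h1 h2 h3 => hrmax ℓ ((hS ℓ).mpr ⟨h1, h2, h3⟩)
      obtain ⟨j, hj, hbad, hcong⟩ := dp_main q (q - 1) (r - 1).factorial hx n (by omega) hcop
        (fun ℓ h1 h2 h3 => Nat.dvd_factorial (by have := h1.two_le; omega)
          (Nat.sub_le_sub_right (hrmax' ℓ h1 h2 h3) 1))
      have h1 := hord _ hcong
      have h2 := hbad r hr hrn hrq
      have h3 : r * j ∣ j * (r - 1).factorial := h2.trans h1
      have hjpos : 0 < j := Nat.pos_of_dvd_of_pos hj (by omega)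
      have h4 : r ∣ (r - 1).factorial := by
        rw [mul_comm] at h3; exact Nat.dvd_of_mul_dvd_mul_left hjpos h3
      have h5 := (Nat.Prime.dvd_factorial hr).mp h4
      have := hr.two_le
      omega
    refine ⟨hpr, ?_⟩
    intro h4n
    by_contra h4q
    have h2q : 2 ∣ q - 1 := hpr 2 Nat.prime_two (dvd_trans (by norm_num) h4n)
    have h4q1 : 4 ∣ q + 1 := by omega
    have hx2 : q ^ 2 ≡ 1 [MOD 4 * (q - 1)] := by
      refine ((Nat.modEq_iff_dvd' (hone 2)).mpr ?_).symm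
      have e : q ^ 2 - 1 = (q + 1) * (q - 1) := by
        have := Nat.pow_two_sub_pow_two q 1
        simpa using this
      rw [e]; exact mul_dvd_mul_right h4q1 _
    obtain ⟨n', rfl⟩ := h4n
    have hcop' : Nat.Coprime (q ^ 2) n' :=
      Nat.Coprime.pow_left 2 (Nat.Coprime.coprime_dvd_right ⟨4, by ring⟩ hcop)
    obtain ⟨j, hj, -, hcong⟩ := dp_main (q ^ 2) (4 * (q - 1)) 1 hx2 n' (by omega) hcop'
      (fun ℓ h1 h2 h3 => absurd (Dvd.dvd.mul_left (hpr ℓ h1 (Dvd.dvd.mul_left h2 4)) 4) h3)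
    have hcong' : q ^ (2 * j) ≡ 1 [MOD 4 * n' * (q - 1)] := by
      have e1 : q ^ (2 * j) = (q ^ 2) ^ (j * 1) := by rw [← pow_mul, mul_one]
      have e2 : 4 * n' * (q - 1) = n' * (4 * (q - 1)) := by ring
      rw [e1, e2]; exact hcong
    have h1 := hord _ hcong'
    have hjpos : 0 < j := Nat.pos_of_dvd_of_pos hj (by omega)
    have h2 := Nat.le_of_dvd (by omega) h1
    have h3 := Nat.le_of_dvd (by omega) hj
    omega

end Cfsg.Agent.Lib.helper23
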