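import Mathlib
import Cfsg.Agent.Lib.helper4.UPerp
import Cfsg.Agent.Lib.helper4.USU

set_option autoImplicit false

/-!
# Conjugating unitary matrices with a common orthogonal eigenframe (piece K4 of S5999)
-/

namespace Cfsg.Agent.Lib.helper23.E27k4

open Matrix Cfsg.Agent.Lib.helper4

variable {F : Type*} [Field F] [Fintype F] {q : ℕ}

theorem span_top (W : Fin 3 → (Fin 3 → F)) (hW : LinearIndependent F W) :
    Submodule.span F (Set.range W) = ⊤ :=
  hW.span_eq_top_of_card_eq_finrank' (by simp)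

theorem mat_ext (M N : Matrix (Fin 3) (Fin 3) F) (U : Fin 3 → (Fin 3 → F))
    (hU : LinearIndependent F U) (h : ∀ i, M *ᵥ U i = N *ᵥ U i) : M = N := by
  apply Matrix.toLin'.injective
  apply LinearMap.ext_on_range (span_top U hU)
  intro i
  rw [Matrix.toLin'_apply, Matrix.toLin'_apply]
  exact h i

theorem aniso (hF : Fintype.card F = q ^ 2) (W : Fin 3 → (Fin 3 → F))
    (hW : LinearIndependent F W)
    (hWo : ∀ i j, i ≠ j → Cfsg.hermForm 3 F q (W i) (W j) = 0) (i : Fin 3) :
    Cfsg.hermForm 3 F q (W i) (W i) ≠ 0 := by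
  intro h0
  apply hW.ne_zero i
  apply herm_nondeg hF
  intro y
  have key : uB hF 3 (W i) = 0 := by
    apply LinearMap.ext_on_range (span_top W hW)
    intro j
    rw [uB_apply, LinearMap.zero_apply]
    by_cases hji : j = i
    · rw [hji]; exact h0
    · exact hWo j i hji
  have h1 : Cfsg.hermForm 3 F q y (W i) = 0 := by
    have h2 : uB hF 3 (W i) y = 0 := by rw [key]; rfl
    rwa [uB_apply] at h2
  have hq := uq_ge_two hF
  rw [← herm_symm hF, h1, zero_pow (by omega)]

theorem uconj (hF : Fintype.card F = q ^ 2) (x w : GL (Fin 3) F) (l : Fin 3 → F)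
    (W U : Fin 3 → (Fin 3 → F)) (hW : LinearIndependent F W) (hU : LinearIndependent F U)
    (hWo : ∀ i j, i ≠ j → Cfsg.hermForm 3 F q (W i) (W j) = 0)
    (hUo : ∀ i j, i ≠ j → Cfsg.hermForm 3 F q (U i) (U j) = 0)
    (hxW : ∀ i, (x : Matrix (Fin 3) (Fin 3) F) *ᵥ W i = l i • W i)
    (hwU : ∀ i, (w : Matrix (Fin 3) (Fin 3) F) *ᵥ U i = l i • U i) :
    ∃ g ∈ Cfsg.GU 3 F q ⊓ Cfsg.Geo.specialLinear (Fin 3) F, g⁻¹ * x * g = w := by
  classical
  have hq := uq_ge_two hF
  have hnW := aniso hF W hW hWo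
  have hnU := aniso hF U hU hUo
  -- scalars
  have hc : ∀ i, ∃ c : F, c ^ (q + 1) =
      Cfsg.hermForm 3 F q (U i) (U i) / Cfsg.hermForm 3 F q (W i) (W i) := by
    intro i
    apply unorm_surj hF
    rw [div_pow, herm_self_fixed hF, herm_self_fixed hF]
  choose c hc using hc
  have hc0 : ∀ i, c i ≠ 0 := by
    intro i h0
    have h1 := hc i
    rw [h0, zero_pow (by omega)] at h1
    exact div_ne_zero (hnU i) (hnW i) h1.symm
  -- the frame c i • W i
  have hW' : LinearIndependent F (fun i => c i • W i) := by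
    have := hW.units_smul (fun i => Units.mk0 (c i) (hc0 i))
    exact this
  have hiso : ∀ i j, Cfsg.hermForm 3 F q (c i • W i) (c j • W j) =
      Cfsg.hermForm 3 F q (U i) (U j) := by
    intro i j
    rw [herm_smul_left, herm_smul_right]
    by_cases hij : i = j
    · subst hij
      rw [← mul_assoc, ← unorm_eq, hc i, div_mul_cancel₀ _ (hnW i)]
    · rw [hWo i j hij, hUo i j hij, mul_zero, mul_zero]
  obtain ⟨A, hA, hAU⟩ := u_witt_frames hF U (fun i => c i • W i) hU hW' hiso
  -- the quasi-reflection correcting the determinant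
  have hdA : (Matrix.GeneralLinearGroup.det A) ^ (q + 1) = 1 :=
    Cfsg.Agent.S0783.det_pow_of_mem hF 3 A hA
  obtain ⟨δ, hδ⟩ : ∃ δ : F, δ = ((Matrix.GeneralLinearGroup.det A : Fˣ) : F)⁻¹ := ⟨_, rfl⟩
  have hdetA : ((Matrix.GeneralLinearGroup.det A : Fˣ) : F) = (A : Matrix (Fin 3) (Fin 3) F).det :=
    rfl
  have hδ1 : δ ^ (q + 1) = 1 := by
    rw [hδ, inv_pow, ← Units.val_pow_eq_pow_val, hdA, Units.val_one, inv_one]
  obtain ⟨r, hr, hrv, hrdet⟩ := exists_gu_refl hF (U 0) (hnU 0) δ hδ1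
  -- r acts diagonally on U
  have hrU : ∀ i, (r : Matrix (Fin 3) (Fin 3) F) *ᵥ U i = (if i = 0 then δ else 1) • U i := by
    intro i
    rw [hrv]
    by_cases hi : i = 0
    · subst hi
      rw [if_pos rfl, div_mul_cancel₀ _ (hnU 0)]
      rw [sub_smul, one_smul]; abel
    · rw [if_neg hi, hUo i 0 hi, mul_zero, zero_smul, add_zero, one_smul]
  refine ⟨A * r, ?_, ?_⟩
  · refine ⟨Subgroup.mul_mem _ hA hr, ?_⟩
    show A * r ∈ (Matrix.GeneralLinearGroup.det : GL (Fin 3) F →* Fˣ).ker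
    rw [MonoidHom.mem_ker, map_mul]
    apply Units.ext
    rw [Units.val_mul, Units.val_one]
    have : ((Matrix.GeneralLinearGroup.det r : Fˣ) : F) = δ := hrdet
    rw [this, hδ]
    exact mul_inv_cancel₀ (Units.ne_zero _)
  · -- x * (A * r) = (A * r) * w
    have key : x * (A * r) = (A * r) * w := by
      apply Units.ext
      apply mat_ext _ _ U hU
      intro i
      simp only [Units.val_mul]
      rw [← Matrix.mulVec_mulVec, ← Matrix.mulVec_mulVec, ← Matrix.mulVec_mulVec,
        ← Matrix.mulVec_mulVec]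
      simp only [hwU i, hrU i, Matrix.mulVec_smul, hAU i, hxW i, smul_smul]
      congr 1
      ring
    rw [mul_assoc, key, ← mul_assoc, inv_mul_cancel, one_mul]

end Cfsg.Agent.Lib.helper23.E27k4
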