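import Cfsg.Agent.Lib.helper23.GenInt
import Cfsg.Agent.Lib.helper24.CharReg

set_option autoImplicit false

namespace Cfsg.Agent.Lib.helper23

open Cfsg Cfsg.Agent.Lib.helper24

universe u

section faithfulp

theorem nilpotent_normal_inf_center_ne_bot {G : Type*} [Group G] [Group.IsNilpotent G]
    (N : Subgroup G) [N.Normal] (hN : N ≠ ⊥) : N ⊓ Subgroup.center G ≠ ⊥ := by
  classical
  obtain ⟨c, hc⟩ := Group.IsNilpotent.nilpotent G
  have hex : ∃ n, N ⊓ Subgroup.upperCentralSeries G n ≠ ⊥ := ⟨c, by rw [hc, inf_top_eq]; exact hN⟩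
  let i := Nat.find hex
  have hi : N ⊓ Subgroup.upperCentralSeries G i ≠ ⊥ := Nat.find_spec hex
  have hi0 : i ≠ 0 := by
    intro h0
    apply hi
    rw [h0, Subgroup.upperCentralSeries_zero, inf_bot_eq]
  obtain ⟨j, hj⟩ := Nat.exists_eq_succ_of_ne_zero hi0
  have hjlt : j < i := by omega
  have hjbot : N ⊓ Subgroup.upperCentralSeries G j = ⊥ := by
    by_contra hne
    exact Nat.find_min hex hjlt hne
  have hi' : ∃ x ∈ N ⊓ Subgroup.upperCentralSeries G i, x ≠ 1 := by
    by_contra hcon
    push Not at hcon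
    exact hi ((Subgroup.eq_bot_iff_forall _).mpr hcon)
  obtain ⟨x, hx, hx1⟩ := hi'
  rw [hj] at hx
  obtain ⟨hxN, hxZ⟩ := Subgroup.mem_inf.mp hx
  rw [Subgroup.mem_upperCentralSeries_succ_iff] at hxZ
  intro hbot
  apply hx1
  have hxc : x ∈ N ⊓ Subgroup.center G := by
    refine Subgroup.mem_inf.mpr ⟨hxN, ?_⟩
    rw [Subgroup.mem_center_iff]
    intro g
    have h1 : x * g * x⁻¹ * g⁻¹ ∈ N ⊓ Subgroup.upperCentralSeries G j := by
      refine Subgroup.mem_inf.mpr ⟨?_, hxZ g⟩
      have h2 : g * x⁻¹ * g⁻¹ ∈ N := Subgroup.Normal.conj_mem inferInstance _ (N.inv_mem hxN) g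
      have h3 : x * g * x⁻¹ * g⁻¹ = x * (g * x⁻¹ * g⁻¹) := by group
      rw [h3]
      exact N.mul_mem hxN h2
    rw [hjbot, Subgroup.mem_bot] at h1
    have h4 : x * g = g * x := by
      have := congrArg (fun t => t * g * x) h1
      simpa [mul_assoc] using this
    exact h4.symm
  rw [hbot, Subgroup.mem_bot] at hxc
  exact hxc


variable {G : Type u} [Group G]

theorem center_cyclic_of_faithful_irr [Finite G] (n : ℕ) (ρ : Representation ℂ G (Fin n → ℂ))
    [ρ.IsIrreducible] (hinj : Function.Injective ρ) : IsCyclic (Subgroup.center G) := by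
  have hsc : ∀ z : Subgroup.center G,
      ∃ c : ℂ, ρ (z : G) = c • (LinearMap.id : (Fin n → ℂ) →ₗ[ℂ] (Fin n → ℂ)) := by
    intro z
    apply genrep_commuting_scalar ρ (ρ z)
    intro g
    rw [← Module.End.mul_eq_comp, ← Module.End.mul_eq_comp, ← map_mul, ← map_mul]
    congr 1
    exact (Subgroup.mem_center_iff.mp z.2 g).symm
  choose c hc using hsc
  have hnt : Nontrivial (Fin n → ℂ) := genrep_nontrivial ρ
  have hsmul_inj : ∀ a b : ℂ, a • (1 : Module.End ℂ (Fin n → ℂ)) = b • 1 → a = b := by
    intro a b h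
    exact smul_left_injective ℂ (one_ne_zero (α := Module.End ℂ (Fin n → ℂ))) h
  have hc' : ∀ z : Subgroup.center G, ρ (z : G) = c z • (1 : Module.End ℂ (Fin n → ℂ)) := hc
  let f : Subgroup.center G →* ℂ :=
    { toFun := c
      map_one' := by
        apply hsmul_inj
        rw [← hc', Subgroup.coe_one, map_one, one_smul]
      map_mul' := by
        intro z w
        apply hsmul_inj
        rw [← hc', Subgroup.coe_mul, map_mul, hc' z, hc' w, smul_mul_smul_comm, one_mul] }
  have hf : Function.Injective f := by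
    intro z w h
    apply Subtype.ext
    apply hinj
    have h' : c z = c w := h
    rw [hc' z, hc' w, h']
  exact isCyclic_of_injective_ringHom f hf

theorem exists_faithful_irr_of_center_cyclic [Finite G] (p : ℕ) [hp : Fact p.Prime]
    (hG : IsPGroup p G) (hcyc : IsCyclic (Subgroup.center G)) :
    ∃ (n : ℕ) (ρ : Representation ℂ G (Fin n → ℂ)), ρ.IsIrreducible ∧ Function.Injective ρ := by
  classical
  rcases subsingleton_or_nontrivial G with hsub | hnt
  · obtain ⟨n, ρ, hirr, -⟩ := (isIrrCharacter_trivial (G := G))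
    exact ⟨n, ρ, hirr, fun a b _ => Subsingleton.elim a b⟩
  · have hZnt : Nontrivial (Subgroup.center G) := hG.center_nontrivial
    have : Fintype G := Fintype.ofFinite G
    have hnil : Group.IsNilpotent G := hG.isNilpotent
    have hpdvd : ∀ K : Subgroup G, K ≠ ⊥ → p ∣ Nat.card K := by
      intro K hK
      obtain ⟨k, hk⟩ := IsPGroup.iff_card.mp (hG.to_subgroup K)
      have hk0 : k ≠ 0 := by
        rintro rfl
        rw [pow_zero] at hk
        exact hK (Subgroup.card_eq_one.mp hk)
      rw [hk]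
      exact dvd_pow_self p hk0
    have hZne : Subgroup.center G ≠ ⊥ := (Subgroup.nontrivial_iff_ne_bot _).mp hZnt
    obtain ⟨z0, hz0⟩ := exists_prime_orderOf_dvd_card' p (hpdvd _ hZne)
    have hz0ne : (z0 : G) ≠ 1 := by
      intro h
      have h1 : z0 = 1 := Subtype.ext h
      rw [h1, orderOf_one] at hz0
      exact hp.out.one_lt.ne hz0
    have hkey : ∀ N : Subgroup G, N.Normal → N ≠ ⊥ → (z0 : G) ∈ N := by
      intro N hN hne
      have h1 := nilpotent_normal_inf_center_ne_bot N hne
      obtain ⟨w, hw⟩ := exists_prime_orderOf_dvd_card' p (hpdvd _ h1)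
      have hwN : (w : G) ∈ N := (Subgroup.mem_inf.mp w.2).1
      have hwZ : (w : G) ∈ Subgroup.center G := (Subgroup.mem_inf.mp w.2).2
      have hw'ord : orderOf (⟨(w : G), hwZ⟩ : Subgroup.center G) = p := by
        rw [← hw, Subgroup.orderOf_mk, Subgroup.orderOf_coe]
      have hmem : (⟨(w : G), hwZ⟩ : Subgroup.center G) ∈ Subgroup.zpowers z0 := by
        have hle := IsCyclic.card_pow_eq_one_le (α := Subgroup.center G) hp.out.pos
        have hsub : (Subgroup.zpowers z0 : Set (Subgroup.center G)).toFinset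
            ⊆ Finset.univ.filter (fun a : Subgroup.center G => a ^ p = 1) := by
          intro a ha
          simp only [Set.mem_toFinset, SetLike.mem_coe] at ha
          simp only [Finset.mem_filter, Finset.mem_univ, true_and]
          obtain ⟨k, rfl⟩ := Subgroup.mem_zpowers_iff.mp ha
          rw [← zpow_natCast, ← zpow_mul, mul_comm, zpow_mul, zpow_natCast, ← hz0,
            pow_orderOf_eq_one, one_zpow]
        have hcard : ((Subgroup.zpowers z0 : Set (Subgroup.center G)).toFinset).card = p := by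
          rw [Set.toFinset_card, ← Nat.card_eq_fintype_card]
          exact (Nat.card_zpowers z0).trans hz0
        have heq := Finset.eq_of_subset_of_card_le hsub (by rw [hcard]; convert hle)
        have hw1 : (⟨(w : G), hwZ⟩ : Subgroup.center G)
            ∈ Finset.univ.filter (fun a : Subgroup.center G => a ^ p = 1) := by
          simp only [Finset.mem_filter, Finset.mem_univ, true_and]
          rw [← hw'ord]
          exact pow_orderOf_eq_one _
        rw [← heq] at hw1
        simpa using hw1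
      have hle2 : Subgroup.zpowers (⟨(w : G), hwZ⟩ : Subgroup.center G) ≤ Subgroup.zpowers z0 :=
        (Subgroup.zpowers_le).mpr hmem
      have heq2 : Subgroup.zpowers (⟨(w : G), hwZ⟩ : Subgroup.center G) = Subgroup.zpowers z0 :=
        Subgroup.eq_of_le_of_card_ge hle2 (by
          rw [Nat.card_zpowers, Nat.card_zpowers, hw'ord, hz0])
      have hz0mem : z0 ∈ Subgroup.zpowers (⟨(w : G), hwZ⟩ : Subgroup.center G) := by
        rw [heq2]
        exact Subgroup.mem_zpowers z0
      obtain ⟨k, hk⟩ := Subgroup.mem_zpowers_iff.mp hz0mem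
      have hz0w : (z0 : G) = (w : G) ^ k := by
        rw [← hk]
        simp
      rw [hz0w]
      exact N.zpow_mem hwN k
    have hex : ∃ χ : IrrCharacter G, χ.1 (z0 : G) ≠ χ.1 1 := by
      by_contra hcon
      push Not at hcon
      have h1 := (isConj_iff_irr_eq (z0 : G) 1).mpr hcon
      exact hz0ne (isConj_one_left.mp h1)
    obtain ⟨χ, hχ⟩ := hex
    obtain ⟨n, ρ, hirr, hρ⟩ := χ.2
    refine ⟨n, ρ, hirr, ?_⟩
    have hker : (ρ : G →* Module.End ℂ (Fin n → ℂ)).ker = ⊥ := by
      by_contra hne
      have hz := hkey _ (MonoidHom.normal_ker _) hne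
      have h1 : ρ (z0 : G) = 1 := MonoidHom.mem_ker.mp hz
      apply hχ
      rw [← hρ]
      unfold Representation.character
      rw [h1, map_one ρ]
    exact (MonoidHom.ker_eq_bot_iff (ρ : G →* Module.End ℂ (Fin n → ℂ))).mp hker

theorem faithful_irr_iff_center_cyclic [Finite G] (p : ℕ) [Fact p.Prime] (hG : IsPGroup p G) :
    (∃ (n : ℕ) (ρ : Representation ℂ G (Fin n → ℂ)), ρ.IsIrreducible ∧ Function.Injective ρ)
      ↔ IsCyclic (Subgroup.center G) := by
  constructor
  · rintro ⟨n, ρ, hirr, hinj⟩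
    have := hirr
    exact center_cyclic_of_faithful_irr n ρ hinj
  · exact exists_faithful_irr_of_center_cyclic p hG

end faithfulp

end Cfsg.Agent.Lib.helper23
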