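import Mathlib

set_option autoImplicit false

namespace Cfsg.Agent.Lib.helper23

open LinearMap

section FormSplit

variable {F : Type*} [Field F] {V : Type*} [AddCommGroup V] [Module F V] [FiniteDimensional F V]

/-- the asymmetry operator `T` of a nondegenerate bilinear form: `B (T x) y = B y x`. -/
noncomputable def asymOp (B : LinearMap.BilinForm F V) (hB : B.Nondegenerate) : V →ₗ[F] V :=
  LinearMap.BilinForm.symmCompOfNondegenerate B.flip B hB

theorem asymOp_apply (B : LinearMap.BilinForm F V) (hB : B.Nondegenerate) (x y : V) :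
    B (asymOp B hB x) y = B y x := by
  rw [asymOp, LinearMap.BilinForm.symmCompOfNondegenerate_left_apply]; rfl

omit [FiniteDimensional F V] in
theorem fs_left_ext (B : LinearMap.BilinForm F V) (hB : B.Nondegenerate) {a b : V}
    (h : ∀ y, B a y = B b y) : a = b := by
  have := hB.1 (a - b) (fun y => by simp [h y])
  exact sub_eq_zero.mp this

theorem asymOp_isometry (B : LinearMap.BilinForm F V) (hB : B.Nondegenerate) (x y : V) :
    B (asymOp B hB x) (asymOp B hB y) = B x y := by
  rw [asymOp_apply, asymOp_apply]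

/-- an operator with a two-sided adjoint commutes with the asymmetry operator. -/
theorem asymOp_comm_of_adj (B : LinearMap.BilinForm F V) (hB : B.Nondegenerate)
    (φ ψ : V →ₗ[F] V) (h1 : ∀ x y, B (φ x) y = B x (ψ y)) (h2 : ∀ x y, B (ψ x) y = B x (φ y))
    (x : V) : asymOp B hB (φ x) = φ (asymOp B hB x) := by
  apply fs_left_ext B hB
  intro y
  rw [asymOp_apply, h1, asymOp_apply, h2]

/-- the operator `f = T - 1`. -/
noncomputable def asymF (B : LinearMap.BilinForm F V) (hB : B.Nondegenerate) : V →ₗ[F] V :=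
  asymOp B hB - 1

theorem asymF_apply (B : LinearMap.BilinForm F V) (hB : B.Nondegenerate) (x : V) :
    asymF B hB x = asymOp B hB x - x := by
  simp [asymF]

theorem asymF_adj (B : LinearMap.BilinForm F V) (hB : B.Nondegenerate) (x y : V) :
    B (asymF B hB x) y = - B (asymOp B hB x) (asymF B hB y) := by
  simp only [asymF_apply, map_sub, LinearMap.sub_apply, asymOp_isometry]
  ring

theorem asymOp_asymF_comm (B : LinearMap.BilinForm F V) (hB : B.Nondegenerate) (x : V) :
    asymOp B hB (asymF B hB x) = asymF B hB (asymOp B hB x) := by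
  simp only [asymF_apply, map_sub]

theorem asymOp_asymF_pow_comm (B : LinearMap.BilinForm F V) (hB : B.Nondegenerate) (n : ℕ)
    (x : V) : asymOp B hB ((asymF B hB ^ n) x) = (asymF B hB ^ n) (asymOp B hB x) := by
  induction n generalizing x with
  | zero => simp
  | succ n ih =>
    rw [pow_succ, Module.End.mul_apply, ih, asymOp_asymF_comm, Module.End.mul_apply]

/-- range of `f^n` is left-orthogonal to the kernel of `f^n`. -/
theorem asymF_pow_orth (B : LinearMap.BilinForm F V) (hB : B.Nondegenerate) (n : ℕ) (x y : V)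
    (hy : (asymF B hB ^ n) y = 0) : B ((asymF B hB ^ n) x) y = 0 := by
  induction n generalizing x y with
  | zero =>
    have : y = 0 := by simpa using hy
    simp [this]
  | succ n ih =>
    rw [pow_succ', Module.End.mul_apply, asymF_adj, asymOp_asymF_pow_comm, ih, neg_zero]
    rw [pow_succ, Module.End.mul_apply] at hy
    exact hy

/-- kernel of `f^n` is left-orthogonal to the range of `f^n`. -/
theorem asymF_pow_orth' (B : LinearMap.BilinForm F V) (hB : B.Nondegenerate) (n : ℕ) (x y : V)
    (hy : (asymF B hB ^ n) y = 0) : B y ((asymF B hB ^ n) x) = 0 := by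
  rw [← asymOp_apply B hB, asymOp_asymF_pow_comm]
  exact asymF_pow_orth B hB n _ y hy

/-- a commuting operator commutes with powers of `f`. -/
theorem asymF_pow_comm_of_comm (B : LinearMap.BilinForm F V) (hB : B.Nondegenerate)
    (φ : V →ₗ[F] V) (h : ∀ x, asymOp B hB (φ x) = φ (asymOp B hB x)) (n : ℕ) (x : V) :
    (asymF B hB ^ n) (φ x) = φ ((asymF B hB ^ n) x) := by
  induction n generalizing x with
  | zero => simp
  | succ n ih =>
    rw [pow_succ, Module.End.mul_apply, Module.End.mul_apply, ← ih]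
    congr 1
    simp only [asymF_apply, map_sub, h]

omit [FiniteDimensional F V] in
/-- nondegeneracy transfer to an orthogonal summand. -/
theorem fs_nondeg_summand (B : LinearMap.BilinForm F V) (hB : B.Nondegenerate)
    {X Y : Submodule F V} (hXY : IsCompl X Y) (z : V)
    (h1 : ∀ y ∈ X, B z y = 0) (h2 : ∀ y ∈ Y, B z y = 0) : z = 0 := by
  apply hB.1
  intro y
  obtain ⟨a, b, ha, hb, rfl⟩ := (Submodule.codisjoint_iff_exists_add_eq.mp hXY.codisjoint) y
  rw [map_add, h1 a ha, h2 b hb, add_zero]

variable {G : Type*} [Group G]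

omit [FiniteDimensional F V] in
theorem fs_rho_adj (ρ : Representation F G V) (B : LinearMap.BilinForm F V)
    (hBinv : ∀ g : G, ∀ x y : V, B (ρ g x) (ρ g y) = B x y) (g : G) (x y : V) :
    B (ρ g x) y = B x (ρ g⁻¹ y) := by
  have := hBinv g x (ρ g⁻¹ y)
  rw [← Module.End.mul_apply (ρ g) (ρ g⁻¹), ← map_mul, mul_inv_cancel, map_one,
    Module.End.one_apply] at this
  exact this

theorem asymOp_comm_rho (ρ : Representation F G V) (B : LinearMap.BilinForm F V)
    (hB : B.Nondegenerate)
    (hBinv : ∀ g : G, ∀ x y : V, B (ρ g x) (ρ g y) = B x y) (g : G) (x : V) :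
    asymOp B hB (ρ g x) = ρ g (asymOp B hB x) := by
  apply asymOp_comm_of_adj B hB (ρ g) (ρ g⁻¹)
  · intro x y; exact fs_rho_adj ρ B hBinv g x y
  · intro x y
    have := fs_rho_adj ρ B hBinv g⁻¹ x y
    rwa [inv_inv] at this

/-- the odd characteristic case. -/
theorem form_split_odd (h2 : (2 : F) ≠ 0) (ρ : Representation F G V)
    (B : LinearMap.BilinForm F V) (hB : B.Nondegenerate)
    (hBinv : ∀ g : G, ∀ x y : V, B (ρ g x) (ρ g y) = B x y) :
    ∃ U W : Submodule F V, IsCompl U W ∧ (∀ g : G, ∀ u ∈ U, ρ g u ∈ U) ∧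
      (∀ g : G, ∀ w ∈ W, ρ g w ∈ W) ∧
      (∃ A : LinearMap.BilinForm F V, (∀ x : V, A x x = 0) ∧
        (∀ g : G, ∀ x ∈ U, ∀ y ∈ U, A (ρ g x) (ρ g y) = A x y) ∧
        (∀ x ∈ U, (∀ y ∈ U, A x y = 0) → x = 0)) ∧
      (∃ S : LinearMap.BilinForm F V, (∀ x y : V, S x y = S y x) ∧
        (∀ g : G, ∀ x ∈ W, ∀ y ∈ W, S (ρ g x) (ρ g y) = S x y) ∧
        (∀ x ∈ W, (∀ y ∈ W, S x y = 0) → x = 0)) := by
  obtain ⟨N, hN1, hN⟩ := ((Filter.eventually_ge_atTop 1).and
    (LinearMap.eventually_isCompl_ker_pow_range_pow (asymF B hB))).exists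
  have hfρ : ∀ (g : G) (x : V), (asymF B hB ^ N) (ρ g x) = ρ g ((asymF B hB ^ N) x) :=
    fun g x => asymF_pow_comm_of_comm B hB (ρ g) (asymOp_comm_rho ρ B hB hBinv g) N x
  have hfT : ∀ (x : V), (asymF B hB ^ N) (asymOp B hB x) = asymOp B hB ((asymF B hB ^ N) x) :=
    fun x => (asymOp_asymF_pow_comm B hB N x).symm
  have hff : ∀ (x : V), (asymF B hB ^ N) (asymF B hB x) = asymF B hB ((asymF B hB ^ N) x) := by
    intro x
    rw [← Module.End.mul_apply, ← Module.End.mul_apply, ← pow_succ, ← pow_succ']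
  have hker : ∀ x, asymF B hB x = 0 → (asymF B hB ^ N) x = 0 := by
    intro x hx
    obtain ⟨m, rfl⟩ : ∃ m, N = m + 1 := ⟨N - 1, by omega⟩
    rw [pow_succ, Module.End.mul_apply, hx, map_zero]
  refine ⟨LinearMap.range (asymF B hB ^ N), LinearMap.ker (asymF B hB ^ N), hN.symm, ?_, ?_,
    ⟨B - B.flip, ?_, ?_, ?_⟩, ⟨B + B.flip, ?_, ?_, ?_⟩⟩
  · rintro g _ ⟨x, rfl⟩
    exact ⟨ρ g x, hfρ g x⟩
  · intro g w hw
    rw [LinearMap.mem_ker] at hw ⊢
    rw [hfρ, hw, map_zero]
  · intro x
    simp
  · intro g x _ y _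
    simp [hBinv]
  · intro x hx hxy
    have hfx : asymF B hB x = 0 := by
      apply fs_nondeg_summand B hB hN.symm
      · intro y hy
        have := hxy y hy
        simp only [LinearMap.sub_apply, LinearMap.BilinForm.flip_apply] at this
        rw [asymF_apply, map_sub, LinearMap.sub_apply, asymOp_apply]
        linear_combination -this
      · intro y hy
        obtain ⟨w, rfl⟩ := hx
        rw [← hff]
        exact asymF_pow_orth B hB N _ y (LinearMap.mem_ker.mp hy)
    have hx1 : x ∈ LinearMap.ker (asymF B hB ^ N) := LinearMap.mem_ker.mpr (hker x hfx)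
    exact (Submodule.disjoint_def.mp hN.disjoint) x hx1 hx
  · intro x y
    simp [add_comm]
  · intro g x _ y _
    simp [hBinv]
  · intro x hx hxy
    rw [LinearMap.mem_ker] at hx
    have hTx : x + asymOp B hB x = 0 := by
      apply fs_nondeg_summand B hB hN
      · intro y hy
        have := hxy y hy
        simp only [LinearMap.add_apply, LinearMap.BilinForm.flip_apply] at this
        rw [map_add, LinearMap.add_apply, asymOp_apply]
        exact this
      · rintro y ⟨w, rfl⟩
        apply asymF_pow_orth' B hB N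
        rw [map_add, hfT, hx, map_zero, add_zero]
    have hfx : asymF B hB x = (-2 : F) • x := by
      rw [asymF_apply]
      have : asymOp B hB x = -x := by
        rw [eq_neg_iff_add_eq_zero, add_comm]; exact hTx
      rw [this]
      module
    have hpow : ∀ n : ℕ, (asymF B hB ^ n) x = ((-2 : F) ^ n) • x := by
      intro n
      induction n with
      | zero => simp
      | succ n ih =>
        rw [pow_succ, Module.End.mul_apply, hfx, map_smul, ih, smul_smul, pow_succ, mul_comm]
    have := hpow N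
    rw [hx] at this
    have h0 : ((-2 : F) ^ N) ≠ 0 := pow_ne_zero _ (neg_ne_zero.mpr h2)
    exact ((smul_eq_zero.mp this.symm).resolve_left h0)

end FormSplit

end Cfsg.Agent.Lib.helper23
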