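import Cfsg.Agent.Lib.helper23.FormSplit

set_option autoImplicit false

namespace Cfsg.Agent.Lib.helper23

open LinearMap

section HalfSet

variable {G : Type*} [Group G] [Finite G]

/-- in a group of odd order no nontrivial element is conjugate to its inverse. -/
theorem odd_order_not_conj_inv (hodd : Odd (Nat.card G)) (g : G) (hg : g ≠ 1) :
    ¬ IsConj g g⁻¹ := by
  intro h
  obtain ⟨x, hx⟩ := isConj_iff.mp h
  have hox : Odd (orderOf x) := hodd.of_dvd_nat (orderOf_dvd_natCard x)
  obtain ⟨k, hk⟩ := hox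
  have hxk : (x ^ 2) ^ (k + 1) = x := by
    rw [← pow_mul, show 2 * (k + 1) = orderOf x + 1 by omega, pow_succ, pow_orderOf_eq_one,
      one_mul]
  have h1 : x * g = g⁻¹ * x := by rw [← hx]; group
  have h2 : x * g⁻¹ = g * x := by
    calc x * g⁻¹ = (x * g * x⁻¹)⁻¹ * x := by group
      _ = g * x := by rw [hx, inv_inv]
  have hc2 : Commute (x ^ 2) g := by
    show x ^ 2 * g = g * x ^ 2
    calc x ^ 2 * g = x * (x * g) := by rw [pow_two, mul_assoc]
      _ = x * (g⁻¹ * x) := by rw [h1]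
      _ = (x * g⁻¹) * x := by group
      _ = g * x * x := by rw [h2]
      _ = g * x ^ 2 := by rw [pow_two, mul_assoc]
  have hcx : Commute x g := by
    rw [← hxk]; exact hc2.pow_left _
  have hgg : g = g⁻¹ := by
    rw [← hx, hcx.eq]; group
  have hg2 : g ^ 2 = 1 := by
    rw [pow_two]
    nth_rewrite 1 [hgg]
    exact inv_mul_cancel g
  have hog : Odd (orderOf g) := hodd.of_dvd_nat (orderOf_dvd_natCard g)
  have hd : orderOf g ∣ 2 := orderOf_dvd_of_pow_eq_one hg2
  rcases (Nat.dvd_prime Nat.prime_two).mp hd with h | h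
  · exact hg (orderOf_eq_one_iff.mp h)
  · rw [h] at hog; exact absurd hog (by decide)

/-- a conjugation-invariant half of the nonidentity elements. -/
noncomputable def halfSet (G : Type*) [Group G] [Finite G] : Set G :=
  {g | Finite.equivFin (ConjClasses G) (ConjClasses.mk g⁻¹) <
    Finite.equivFin (ConjClasses G) (ConjClasses.mk g)}

theorem halfSet_conj (h g : G) : h * g * h⁻¹ ∈ halfSet G ↔ g ∈ halfSet G := by
  have e1 : ConjClasses.mk (h * g * h⁻¹) = ConjClasses.mk g :=
    ConjClasses.mk_eq_mk_iff_isConj.mpr (isConj_iff.mpr ⟨h⁻¹, by group⟩)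
  have e2 : ConjClasses.mk (h * g * h⁻¹)⁻¹ = ConjClasses.mk g⁻¹ :=
    ConjClasses.mk_eq_mk_iff_isConj.mpr (isConj_iff.mpr ⟨h⁻¹, by group⟩)
  simp only [halfSet, Set.mem_setOf_eq, e1, e2]

theorem halfSet_one : (1 : G) ∉ halfSet G := by
  simp [halfSet]

theorem halfSet_inv (hodd : Odd (Nat.card G)) (g : G) (hg : g ≠ 1) :
    g ∈ halfSet G ↔ g⁻¹ ∉ halfSet G := by
  have hne : Finite.equivFin (ConjClasses G) (ConjClasses.mk g⁻¹) ≠
      Finite.equivFin (ConjClasses G) (ConjClasses.mk g) := by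
    intro h
    have := (Finite.equivFin (ConjClasses G)).injective h
    exact odd_order_not_conj_inv hodd g hg (ConjClasses.mk_eq_mk_iff_isConj.mp this.symm)
  simp only [halfSet, Set.mem_setOf_eq, inv_inv, not_lt]
  constructor
  · intro h; exact h.le
  · intro h; exact lt_of_le_of_ne h hne

omit [Finite G] in
theorem sum_split_inv [Fintype G] {M : Type*} [AddCommMonoid M] (S₀ : Finset G)
    (h1 : (1 : G) ∉ S₀) (h2 : ∀ g, g ≠ 1 → (g ∈ S₀ ↔ g⁻¹ ∉ S₀)) (φ : G → M) :
    ∑ g, φ g = φ 1 + ∑ g ∈ S₀, φ g + ∑ g ∈ S₀, φ g⁻¹ := by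
  classical
  have e1 : ∑ g ∈ S₀, φ g = ∑ g, if g ∈ S₀ then φ g else 0 := by
    rw [Finset.sum_ite_mem, Finset.univ_inter]
  have e2 : ∑ g ∈ S₀, φ g⁻¹ = ∑ g, if g⁻¹ ∈ S₀ then φ g else 0 := by
    rw [← Equiv.sum_comp (Equiv.inv G)]
    simp only [Equiv.inv_apply, inv_inv]
    rw [Finset.sum_ite_mem, Finset.univ_inter]
  have e3 : φ 1 = ∑ g, if g = 1 then φ g else 0 := by simp
  rw [e1, e2, e3, ← Finset.sum_add_distrib, ← Finset.sum_add_distrib]
  refine Finset.sum_congr rfl (fun g _ => ?_)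
  by_cases hg : g = 1
  · subst hg; simp [h1]
  · by_cases hg' : g ∈ S₀
    · have := (h2 g hg).mp hg'; simp [hg, hg', this]
    · have : g⁻¹ ∈ S₀ := by
        by_contra h; exact hg' ((h2 g hg).mpr h)
      simp [hg, hg', this]

end HalfSet

section Aux

variable {F : Type*} [Field F] {V : Type*} [AddCommGroup V] [Module F V]

theorem fs_proj_comm {X Y : Submodule F V} (h : IsCompl X Y) (φ : V →ₗ[F] V)
    (h1 : ∀ x ∈ X, φ x ∈ X) (h2 : ∀ x ∈ Y, φ x ∈ Y) (x : V) :
    X.projection Y h (φ x) = φ (X.projection Y h x) := by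
  have hx : x = X.projection Y h x + (x - X.projection Y h x) := by abel
  conv_lhs => rw [hx]
  rw [map_add, map_add,
    Submodule.projection_apply_of_mem_left h (h1 _ (Submodule.projection_apply_mem h x)),
    (Submodule.projection_apply_eq_zero_iff h).mpr (h2 _ (Submodule.sub_projection_mem h x)),
    add_zero]

theorem exists_symm_nondeg_on [FiniteDimensional F V] (W : Submodule F V) :
    ∃ S : LinearMap.BilinForm F V, (∀ x y, S x y = S y x) ∧
      (∀ x ∈ W, (∀ y ∈ W, S x y = 0) → x = 0) := by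
  classical
  obtain ⟨K, hK⟩ := Submodule.exists_isCompl W
  let q : V →ₗ[F] W := W.projectionOnto K hK
  let b := Module.finBasis F W
  refine ⟨∑ i, LinearMap.BilinForm.linMulLin ((b.coord i) ∘ₗ q) ((b.coord i) ∘ₗ q), ?_, ?_⟩
  · intro x y
    simp only [LinearMap.sum_apply, LinearMap.BilinForm.linMulLin_apply]
    exact Finset.sum_congr rfl (fun i _ => mul_comm _ _)
  · intro x hx hxy
    have hq : ∀ w : W, q (w : V) = w := fun w => Submodule.projectionOnto_apply_left hK w
    have h0 : b.repr ⟨x, hx⟩ = 0 := by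
      ext i
      have := hxy (b i) (b i).2
      simp only [LinearMap.sum_apply, LinearMap.BilinForm.linMulLin_apply, LinearMap.comp_apply,
        hq, Module.Basis.coord_apply, Module.Basis.repr_self] at this
      rw [show q x = ⟨x, hx⟩ from hq ⟨x, hx⟩] at this
      simpa [Finsupp.single_apply] using this
    have h1 : (⟨x, hx⟩ : W) = 0 := by simpa using h0
    exact congrArg Subtype.val h1

end Aux

end Cfsg.Agent.Lib.helper23
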