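import Cfsg.Agent.Lib.helper23.FormSplit2

set_option autoImplicit false

namespace Cfsg.Agent.Lib.helper23

open LinearMap

section FormSplitTwo

variable {F : Type*} [Field F] {V : Type*} [AddCommGroup V] [Module F V] [FiniteDimensional F V]
variable {G : Type*} [Group G] [Fintype G]

set_option maxHeartbeats 1600000 in
/-- the characteristic two case. -/
theorem form_split_two [CharP F 2] (hodd : Odd (Nat.card G)) (ρ : Representation F G V)
    (B : LinearMap.BilinForm F V) (hB : B.Nondegenerate)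
    (hBinv : ∀ g : G, ∀ x y : V, B (ρ g x) (ρ g y) = B x y) :
    ∃ U W : Submodule F V, IsCompl U W ∧ (∀ g : G, ∀ u ∈ U, ρ g u ∈ U) ∧
      (∀ g : G, ∀ w ∈ W, ρ g w ∈ W) ∧
      (∃ A : LinearMap.BilinForm F V, (∀ x : V, A x x = 0) ∧
        (∀ g : G, ∀ x ∈ U, ∀ y ∈ U, A (ρ g x) (ρ g y) = A x y) ∧
        (∀ x ∈ U, (∀ y ∈ U, A x y = 0) → x = 0)) ∧
      (∃ S : LinearMap.BilinForm F V, (∀ x y : V, S x y = S y x) ∧
        (∀ g : G, ∀ x ∈ W, ∀ y ∈ W, S (ρ g x) (ρ g y) = S x y) ∧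
        (∀ x ∈ W, (∀ y ∈ W, S x y = 0) → x = 0)) ∧
      (∀ g : G, ∀ w ∈ W, ρ g w = w) := by
  classical
  obtain ⟨T, hTapp, f, hfapp, horth, horth', hpc, hTρ⟩ :
    ∃ T : V →ₗ[F] V, (∀ x y, B (T x) y = B y x) ∧ ∃ f : V →ₗ[F] V, (∀ x, f x = T x - x) ∧
      (∀ n x y, (f ^ n) y = 0 → B ((f ^ n) x) y = 0) ∧
      (∀ n x y, (f ^ n) y = 0 → B y ((f ^ n) x) = 0) ∧
      (∀ φ : V →ₗ[F] V, (∀ x, T (φ x) = φ (T x)) → ∀ n x, (f ^ n) (φ x) = φ ((f ^ n) x)) ∧
      (∀ g x, T (ρ g x) = ρ g (T x)) :=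
    ⟨asymOp B hB, asymOp_apply B hB, asymF B hB, asymF_apply B hB, asymF_pow_orth B hB,
      asymF_pow_orth' B hB, asymF_pow_comm_of_comm B hB, asymOp_comm_rho ρ B hB hBinv⟩
  obtain ⟨N, hN1, hN⟩ := ((Filter.eventually_ge_atTop 1).and
    (LinearMap.eventually_isCompl_ker_pow_range_pow f)).exists
  have h2F : (2 : F) = 0 := CharTwo.two_eq_zero
  have hcard : ((Nat.card G : ℕ) : F) ≠ 0 := by
    rw [Ne, CharP.cast_eq_zero_iff F 2]
    exact fun h => (Nat.not_even_iff_odd.mpr hodd) (even_iff_two_dvd.mpr h)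
  have hfc : ∀ φ : V →ₗ[F] V, (∀ x, T (φ x) = φ (T x)) → ∀ x, f (φ x) = φ (f x) := by
    intro φ h x; simp only [hfapp, map_sub, h]
  have hTf : ∀ x, T (f x) = f (T x) := by
    intro x; simp only [hfapp, map_sub]
  have hker : ∀ x, f x = 0 → (f ^ N) x = 0 := by
    intro x hx
    obtain ⟨m, rfl⟩ : ∃ m, N = m + 1 := ⟨N - 1, by omega⟩
    rw [pow_succ, Module.End.mul_apply, hx, map_zero]
  -- the operators
  let S₀ : Finset G := (halfSet G).toFinset
  have hS1 : (1 : G) ∉ S₀ := by simp [S₀, halfSet_one]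
  have hS2 : ∀ g, g ≠ 1 → (g ∈ S₀ ↔ g⁻¹ ∉ S₀) := by
    intro g hg; simp only [S₀, Set.mem_toFinset]; exact halfSet_inv hodd g hg
  have hS3 : ∀ h g, g ∈ S₀ ↔ h * g * h⁻¹ ∈ S₀ := by
    intro h g; simp only [S₀, Set.mem_toFinset]; exact (halfSet_conj h g).symm
  obtain ⟨s, hs_apply⟩ : ∃ s : V →ₗ[F] V, ∀ x, s x = ∑ g, ρ g x :=
    ⟨∑ g, ρ g, fun x => by simp [LinearMap.sum_apply]⟩
  obtain ⟨c, hc_apply⟩ : ∃ c : V →ₗ[F] V, ∀ x, c x = ∑ g ∈ S₀, ρ g x :=
    ⟨∑ g ∈ S₀, ρ g, fun x => by simp [LinearMap.sum_apply]⟩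
  obtain ⟨c', hc'_apply⟩ : ∃ c' : V →ₗ[F] V, ∀ x, c' x = ∑ g ∈ S₀, ρ g⁻¹ x :=
    ⟨∑ g ∈ S₀, ρ g⁻¹, fun x => by simp [LinearMap.sum_apply]⟩
  have hρρ : ∀ g h x, ρ g (ρ h x) = ρ (g * h) x := fun g h x => by
    rw [map_mul, Module.End.mul_apply]
  have hsρ : ∀ g x, ρ g (s x) = s x := by
    intro g x
    rw [hs_apply, map_sum]
    simp only [hρρ]
    exact Fintype.sum_equiv (Equiv.mulLeft g) _ _ (fun h => rfl)
  have hρs : ∀ g x, s (ρ g x) = s x := by
    intro g x
    rw [hs_apply, hs_apply]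
    simp only [hρρ]
    exact Fintype.sum_equiv (Equiv.mulRight g) _ _ (fun h => rfl)
  have hss : ∀ x, s (s x) = (Nat.card G : F) • s x := by
    intro x
    rw [hs_apply (s x)]
    simp only [hsρ]
    rw [Finset.sum_const, Finset.card_univ, Nat.card_eq_fintype_card, Nat.cast_smul_eq_nsmul]
  have hsadj : ∀ x y, B (s x) y = B x (s y) := by
    intro x y
    rw [hs_apply, hs_apply, map_sum, LinearMap.sum_apply, map_sum]
    simp only [fs_rho_adj ρ B hBinv]
    exact Fintype.sum_equiv (Equiv.inv G) _ _ (fun h => rfl)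
  have hsT : ∀ x, T (s x) = s (T x) := by
    intro x; rw [hs_apply, hs_apply, map_sum]; simp only [hTρ]
  have hcT : ∀ x, T (c x) = c (T x) := by
    intro x; rw [hc_apply, hc_apply, map_sum]; simp only [hTρ]
  have hcρ : ∀ g x, c (ρ g x) = ρ g (c x) := by
    intro g x
    rw [hc_apply, hc_apply, map_sum]
    simp only [hρρ]
    refine (Finset.sum_equiv (MulAut.conj g).toEquiv (fun h => ?_) (fun h _ => ?_)).symm
    · simpa using hS3 g h
    · simp [MulAut.conj_apply, mul_assoc]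
  have hcadj : ∀ x y, B (c x) y = B x (c' y) := by
    intro x y
    rw [hc_apply, hc'_apply, map_sum, LinearMap.sum_apply, map_sum]
    simp only [fs_rho_adj ρ B hBinv]
  have hcc : ∀ x, c x + c' x + x = s x := by
    intro x
    rw [hs_apply, hc_apply, hc'_apply, sum_split_inv S₀ hS1 hS2 (fun g => ρ g x)]
    simp only [map_one, Module.End.one_apply]
    abel
  have hsc : ∀ x, s (c x) = c (s x) := by
    intro x; rw [hs_apply, hs_apply, map_sum]; simp only [hcρ]
  have hκ : ∀ y, s (y - (Nat.card G : F)⁻¹ • s y) = 0 := by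
    intro y
    rw [map_sub, map_smul, hss, smul_smul, inv_mul_cancel₀ hcard, one_smul, sub_self]
  have hKW : IsCompl (LinearMap.ker s) (LinearMap.range s) := by
    constructor
    · rw [Submodule.disjoint_def]
      rintro x hx ⟨w, rfl⟩
      rw [LinearMap.mem_ker, hss] at hx
      exact (smul_eq_zero.mp hx).resolve_left hcard
    · rw [Submodule.codisjoint_iff_exists_add_eq]
      intro z
      refine ⟨z - (Nat.card G : F)⁻¹ • s z, (Nat.card G : F)⁻¹ • s z, ?_, ?_, by abel⟩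
      · rw [LinearMap.mem_ker]; exact hκ z
      · exact ⟨(Nat.card G : F)⁻¹ • z, by rw [map_smul]⟩
  -- the projection
  obtain ⟨π, hπmem, hπsub, hπ1, hπ2, hπcomm⟩ : ∃ π : V →ₗ[F] V, (∀ x, (f ^ N) (π x) = 0) ∧
      (∀ x, ∃ w, (f ^ N) w = x - π x) ∧ (∀ x, (f ^ N) x = 0 → π x = x) ∧
      (∀ w, π ((f ^ N) w) = 0) ∧
      (∀ φ : V →ₗ[F] V, (∀ x, T (φ x) = φ (T x)) → ∀ x, π (φ x) = φ (π x)) := by
    refine ⟨(LinearMap.ker (f ^ N)).projection (LinearMap.range (f ^ N)) hN, ?_, ?_, ?_, ?_, ?_⟩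
    · exact fun x => LinearMap.mem_ker.mp (Submodule.projection_apply_mem hN x)
    · exact fun x => Submodule.sub_projection_mem hN x
    · exact fun x hx => Submodule.projection_apply_of_mem_left hN (LinearMap.mem_ker.mpr hx)
    · exact fun w => (Submodule.projection_apply_eq_zero_iff hN).mpr ⟨w, rfl⟩
    · intro φ hφ x
      apply fs_proj_comm hN φ
      · intro y hy
        rw [LinearMap.mem_ker] at hy ⊢
        rw [hpc φ hφ, hy, map_zero]
      · rintro _ ⟨w, rfl⟩
        exact ⟨φ w, hpc φ hφ N w⟩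
  obtain ⟨A, hA⟩ : ∃ A : LinearMap.BilinForm F V, ∀ x y,
      A x y = B (c (π x)) (π y) + B (c (π y)) (π x) + (B x y + B y x) := by
    refine ⟨B.compl₁₂ (c ∘ₗ π) π + (B.compl₁₂ (c ∘ₗ π) π).flip + (B + B.flip), ?_⟩
    intro x y
    simp [LinearMap.compl₁₂_apply]
  obtain ⟨S, hSsymm, hSnd⟩ := exists_symm_nondeg_on (LinearMap.range s)
  refine ⟨LinearMap.ker s, LinearMap.range s, hKW, ?_, ?_, ⟨A, ?_, ?_, ?_⟩,
    ⟨S, hSsymm, ?_, hSnd⟩, ?_⟩
  · intro g u hu
    rw [LinearMap.mem_ker] at hu ⊢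
    rw [hρs, hu]
  · rintro g _ ⟨w, rfl⟩
    rw [hsρ]; exact ⟨w, rfl⟩
  · intro x
    rw [hA, CharTwo.add_self_eq_zero, CharTwo.add_self_eq_zero, add_zero]
  · intro g x _ y _
    rw [hA, hA, hπcomm (ρ g) (hTρ g), hπcomm (ρ g) (hTρ g), hcρ, hcρ, hBinv, hBinv, hBinv, hBinv]
  · intro x hx hxy
    rw [LinearMap.mem_ker] at hx
    have hxy' : ∀ y, s y = 0 → A x y = 0 := fun y hy => hxy y (LinearMap.mem_ker.mpr hy)
    have hsπx : s (π x) = 0 := by rw [← hπcomm s hsT, hx, map_zero]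
    obtain ⟨w₂, hw₂⟩ := hπsub x
    -- step 1
    have hfx2 : f (x - π x) = 0 := by
      apply hB.1
      intro y
      obtain ⟨v₂, hv₂⟩ := hπsub y
      obtain ⟨y', hy'⟩ : ∃ y', y' = (f ^ N) v₂ - (Nat.card G : F)⁻¹ • s ((f ^ N) v₂) := ⟨_, rfl⟩
      have hy'0 : s y' = 0 := by rw [hy']; exact hκ _
      have hy'r : y' = (f ^ N) (v₂ - (Nat.card G : F)⁻¹ • s v₂) := by
        rw [hy', map_sub, map_smul, hpc s hsT]
      have hy'π : π y' = 0 := by rw [hy'r]; exact hπ2 _
      have hA0 := hxy' y' hy'0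
      rw [hA] at hA0
      simp only [hy'π, map_zero, LinearMap.zero_apply, zero_add] at hA0
      have e1 : B (f (x - π x)) (π y) = 0 := by
        rw [← hw₂, ← hpc f hTf]
        exact horth N _ _ (hπmem y)
      have e2 : B (f (π x)) y' = 0 := by
        rw [hy'r]
        apply horth' N
        rw [hpc f hTf, hπmem, map_zero]
      have e3 : B (s (f (x - π x))) ((f ^ N) v₂) = 0 := by
        rw [← hfc s hsT, map_sub, hx, hsπx, sub_zero, map_zero, map_zero, LinearMap.zero_apply]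
      have e4 : B (f (x - π x)) y' = B y' x - B x y' := by
        rw [map_sub, map_sub, LinearMap.sub_apply, e2, sub_zero, hfapp x, map_sub,
          LinearMap.sub_apply, hTapp]
      have hy : y = π y + (y' + (Nat.card G : F)⁻¹ • s ((f ^ N) v₂)) := by
        rw [hy', hv₂]; abel
      calc B (f (x - π x)) y = B (f (x - π x)) (π y) + B (f (x - π x)) y' +
            (Nat.card G : F)⁻¹ * B (f (x - π x)) (s ((f ^ N) v₂)) := by
            conv_lhs => rw [hy]
            simp only [map_add, map_smul, smul_eq_mul]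
            ring
        _ = 0 := by
            rw [e1, e4, ← hsadj, e3]
            linear_combination hA0 - B x y' * h2F
    have hx2 : x - π x = 0 :=
      (Submodule.disjoint_def.mp hN.disjoint) _ (LinearMap.mem_ker.mpr (hker _ hfx2)) ⟨w₂, hw₂⟩
    have hπx : π x = x := (sub_eq_zero.mp hx2).symm
    have hfNx : (f ^ N) x = 0 := by rw [← hπx]; exact hπmem x
    -- step 2
    have hzN : (f ^ N) (x + c (f x)) = 0 := by
      rw [map_add, hfNx, hpc c hcT, hpc f hTf, hfNx, map_zero, map_zero, add_zero]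
    have hz : x + c (f x) = 0 := by
      apply hB.1
      intro y
      obtain ⟨v₂, hv₂⟩ := hπsub y
      obtain ⟨y', hy'⟩ : ∃ y', y' = π y - (Nat.card G : F)⁻¹ • s (π y) := ⟨_, rfl⟩
      have hy'0 : s y' = 0 := by rw [hy']; exact hκ _
      have hy'N : (f ^ N) y' = 0 := by
        rw [hy', map_sub, map_smul, hpc s hsT, hπmem, map_zero, smul_zero, sub_zero]
      have hy'π : π y' = y' := hπ1 _ hy'N
      have hA0 := hxy' y' hy'0
      rw [hA, hy'π, hπx] at hA0
      have hc'x : c' x = - c x - x := by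
        have := hcc x
        rw [hx] at this
        calc c' x = (c x + c' x + x) - c x - x := by abel
          _ = - c x - x := by rw [this]; abel
      have e1 : B (c y') x = - B y' (c x) - B y' x := by
        rw [hcadj, hc'x, map_sub, map_neg]
      have e2 : B (x + c (f x)) (y - π y) = 0 := by
        rw [← hv₂]; exact horth' N v₂ _ hzN
      have e3 : B (s (x + c (f x))) (π y) = 0 := by
        rw [map_add, hx, hsc, ← hfc s hsT, hx, map_zero, map_zero, add_zero, map_zero,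
          LinearMap.zero_apply]
      have e4 : B (x + c (f x)) y' = B x y' + B y' (c x) - B (c x) y' := by
        rw [map_add, LinearMap.add_apply, hfapp, map_sub, map_sub, LinearMap.sub_apply, ← hcT,
          hTapp]
        ring
      have hy : y = (y - π y) + (y' + (Nat.card G : F)⁻¹ • s (π y)) := by
        rw [hy']; abel
      calc B (x + c (f x)) y = B (x + c (f x)) (y - π y) + B (x + c (f x)) y' +
            (Nat.card G : F)⁻¹ * B (x + c (f x)) (s (π y)) := by
            conv_lhs => rw [hy]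
            simp only [map_add, map_smul, smul_eq_mul]
            ring
        _ = 0 := by
            rw [e2, e4, ← hsadj, e3]
            linear_combination -hA0 + e1 + B x y' * h2F
    have hxc : x = - c (f x) := eq_neg_of_add_eq_zero_left hz
    have hrange : ∀ n : ℕ, ∃ w, x = (f ^ n) w := by
      intro n
      induction n with
      | zero => exact ⟨x, by simp⟩
      | succ n ih =>
        obtain ⟨w, hw⟩ := ih
        refine ⟨- c w, ?_⟩
        rw [map_neg, hpc c hcT (n + 1) w, pow_succ', Module.End.mul_apply, ← hw]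
        exact hxc
    obtain ⟨w, hw⟩ := hrange N
    exact (Submodule.disjoint_def.mp hN.disjoint) x (LinearMap.mem_ker.mpr hfNx) ⟨w, hw.symm⟩
  · rintro g _ ⟨x, rfl⟩ _ ⟨y, rfl⟩
    rw [hsρ, hsρ]
  · rintro g _ ⟨w, rfl⟩
    exact hsρ g w

end FormSplitTwo

end Cfsg.Agent.Lib.helper23
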