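import Cfsg.Agent.Lib.helper23.FormSplit3

set_option autoImplicit false

namespace Cfsg.Agent.Lib.helper23

/-- a self-dual module in coprime characteristic is the sum of a symplectic and an
orthogonal part. -/
theorem form_split_main {F : Type*} [Field F] (p : ℕ) [Fact p.Prime] [CharP F p]
    {G : Type*} [Group G] [Finite G] (hcop : ¬ p ∣ Nat.card G) {V : Type*} [AddCommGroup V]
    [Module F V] [FiniteDimensional F V] (ρ : Representation F G V)
    (B : LinearMap.BilinForm F V) (hB : B.Nondegenerate)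
    (hBinv : ∀ g : G, ∀ x y : V, B (ρ g x) (ρ g y) = B x y) :
    ∃ U W : Submodule F V, IsCompl U W ∧ (∀ g : G, ∀ u ∈ U, ρ g u ∈ U) ∧
      (∀ g : G, ∀ w ∈ W, ρ g w ∈ W) ∧
      (∃ A : LinearMap.BilinForm F V, (∀ x : V, A x x = 0) ∧
        (∀ g : G, ∀ x ∈ U, ∀ y ∈ U, A (ρ g x) (ρ g y) = A x y) ∧
        (∀ x ∈ U, (∀ y ∈ U, A x y = 0) → x = 0)) ∧
      (∃ S : LinearMap.BilinForm F V, (∀ x y : V, S x y = S y x) ∧
        (∀ g : G, ∀ x ∈ W, ∀ y ∈ W, S (ρ g x) (ρ g y) = S x y) ∧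
        (∀ x ∈ W, (∀ y ∈ W, S x y = 0) → x = 0)) ∧
      (p = 2 → ∀ g : G, ∀ w ∈ W, ρ g w = w) := by
  by_cases hp : p = 2
  · subst hp
    haveI := Fintype.ofFinite G
    have hodd : Odd (Nat.card G) := by
      rw [Nat.odd_iff]
      omega
    obtain ⟨U, W, h1, h2, h3, h4, h5, h6⟩ := form_split_two hodd ρ B hB hBinv
    exact ⟨U, W, h1, h2, h3, h4, h5, fun _ => h6⟩
  · have h2 : (2 : F) ≠ 0 := by
      intro h
      have h' : ((2 : ℕ) : F) = 0 := by exact_mod_cast h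
      rw [CharP.cast_eq_zero_iff F p] at h'
      exact hp ((Nat.prime_dvd_prime_iff_eq (Fact.out) Nat.prime_two).mp h')
    obtain ⟨U, W, h1, h2', h3, h4, h5⟩ := form_split_odd h2 ρ B hB hBinv
    exact ⟨U, W, h1, h2', h3, h4, h5, fun h => absurd h hp⟩

end Cfsg.Agent.Lib.helper23
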