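import Cfsg.Agent.Lib.helper23.FrobZMod2
import Cfsg.Agent.Lib.helper24.GlaubLemma

set_option autoImplicit false

namespace Cfsg.Agent.Lib.helper23

open scoped BigOperators

universe u v

section
variable {G : Type v} [Group G] {H : Type u} [Group H]

/-- Fixed points of a subgroup of the acting group. -/
def frobFixG (φ : G →* MulAut H) (A : Subgroup G) : Subgroup H where
  carrier := {h | ∀ a ∈ A, φ a h = h}
  mul_mem' := by intro x y hx hy a ha; rw [map_mul, hx a ha, hy a ha]
  one_mem' := by intro a _; rw [map_one]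
  inv_mem' := by intro x hx a ha; rw [map_inv, hx a ha]

theorem mem_frobFixG (φ : G →* MulAut H) (A : Subgroup G) (h : H) :
    h ∈ frobFixG φ A ↔ ∀ a ∈ A, φ a h = h := Iff.rfl

/-- The restricted action on an invariant subgroup. -/
def frobResAct (φ : G →* MulAut H) (N : Subgroup H) (hN : ∀ g h, h ∈ N → φ g h ∈ N) :
    G →* MulAut ↥N where
  toFun g :=
    { toFun := fun h => ⟨φ g h, hN g h h.2⟩
      invFun := fun h => ⟨φ g⁻¹ h, hN g⁻¹ h h.2⟩
      left_inv := fun h => Subtype.ext (by
        show (φ g⁻¹) ((φ g) (h : H)) = h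
        rw [map_inv, MulAut.inv_apply, MulEquiv.symm_apply_apply])
      right_inv := fun h => Subtype.ext (by
        show (φ g) ((φ g⁻¹) (h : H)) = h
        rw [map_inv, MulAut.inv_apply, MulEquiv.apply_symm_apply])
      map_mul' := fun a b => Subtype.ext (map_mul _ _ _) }
  map_one' := by
    apply MulEquiv.ext
    intro h
    apply Subtype.ext
    show (φ 1) (h : H) = h
    rw [map_one]; rfl
  map_mul' a b := by
    apply MulEquiv.ext
    intro h
    apply Subtype.ext
    show (φ (a * b)) (h : H) = (φ a) ((φ b) (h : H))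
    rw [map_mul]; rfl

theorem frobResAct_apply (φ : G →* MulAut H) (N : Subgroup H) (hN : ∀ g h, h ∈ N → φ g h ∈ N)
    (g : G) (h : ↥N) : ((frobResAct φ N hN g h : ↥N) : H) = φ g h := rfl

theorem frob_map_eq (φ : G →* MulAut H) (N : Subgroup H) (hN : ∀ g h, h ∈ N → φ g h ∈ N)
    (g : G) : N.map (φ g : H →* H) = N := by
  ext x
  constructor
  · rintro ⟨h, hh, rfl⟩
    exact hN g h hh
  · intro hx
    refine ⟨φ g⁻¹ x, hN g⁻¹ x hx, ?_⟩
    show (φ g) ((φ g⁻¹) x) = x
    rw [map_inv, MulAut.inv_apply, MulEquiv.apply_symm_apply]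

/-- The induced action on the quotient by an invariant normal subgroup. -/
def frobQuotAct (φ : G →* MulAut H) (N : Subgroup H) [N.Normal]
    (hN : ∀ g h, h ∈ N → φ g h ∈ N) : G →* MulAut (H ⧸ N) where
  toFun g := QuotientGroup.congr N N (φ g) (frob_map_eq φ N hN g)
  map_one' := by
    apply MulEquiv.ext
    intro q
    induction q using QuotientGroup.induction_on with
    | H x =>
      rw [QuotientGroup.congr_mk, map_one]; rfl
  map_mul' a b := by
    apply MulEquiv.ext
    intro q
    induction q using QuotientGroup.induction_on with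
    | H x =>
      rw [QuotientGroup.congr_mk, map_mul]
      show (((φ a) ((φ b) x) : H) : H ⧸ N) = QuotientGroup.congr N N (φ a) (frob_map_eq φ N hN a)
        (QuotientGroup.congr N N (φ b) (frob_map_eq φ N hN b) (x : H ⧸ N))
      rw [QuotientGroup.congr_mk, QuotientGroup.congr_mk]

theorem frobQuotAct_mk (φ : G →* MulAut H) (N : Subgroup H) [N.Normal]
    (hN : ∀ g h, h ∈ N → φ g h ∈ N) (g : G) (h : H) :
    frobQuotAct φ N hN g (h : H ⧸ N) = ((φ g h : H) : H ⧸ N) :=
  QuotientGroup.congr_mk _ _ (φ g) (frob_map_eq φ N hN g) h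

end

/-- Coprime action: fixed points are multiplicative along an invariant normal subgroup. -/
theorem frob_fix_card {G : Type v} [Group G] [Finite G] {H : Type u} [Group H] [Finite H]
    (φ : G →* MulAut H) (N : Subgroup H) [N.Normal]
    (hN : ∀ g h, h ∈ N → φ g h ∈ N) (A : Subgroup G)
    (hcop : (Nat.card A).Coprime (Nat.card N)) (hsolv : Group.IsSolvable N) :
    Nat.card (frobFixG φ A)
      = Nat.card (frobFixG (frobResAct φ N hN) A) * Nat.card (frobFixG (frobQuotAct φ N hN) A) := by
  classical
  let f : ↥(frobFixG φ A) →* H ⧸ N := (QuotientGroup.mk' N).comp (frobFixG φ A).subtype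
  have hrange : f.range = frobFixG (frobQuotAct φ N hN) A := by
    ext q
    constructor
    · rintro ⟨x, rfl⟩ a ha
      show frobQuotAct φ N hN a ((x : H) : H ⧸ N) = ((x : H) : H ⧸ N)
      rw [frobQuotAct_mk, x.2 a ha]
    · intro hq
      induction q using QuotientGroup.induction_on with
      | H h =>
        -- Glauberman's lemma on the coset `hN`
        letI actN : MulAction ↥N H :=
          { smul := fun k x => x * (k : H)⁻¹
            one_smul := fun x => by
              show x * ((1 : ↥N) : H)⁻¹ = x
              simp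
            mul_smul := fun k k' x => by
              show x * ((k * k' : ↥N) : H)⁻¹ = x * (k' : H)⁻¹ * (k : H)⁻¹
              simp [mul_assoc] }
        letI actA : MulAction ↥A H :=
          { smul := fun a x => φ (a : G) x
            one_smul := fun x => by
              show φ ((1 : ↥A) : G) x = x
              simp
            mul_smul := fun a b x => by
              show φ ((a * b : ↥A) : G) x = φ (a : G) (φ (b : G) x)
              simp }
        have hcompat : ∀ (a : ↥A) (k : ↥N) (x : H),
            a • k • x = ((frobResAct φ N hN).comp A.subtype a k) • a • x := by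
          intro a k x
          show φ (a : G) (x * (k : H)⁻¹) = φ (a : G) x * (φ (a : G) (k : H))⁻¹
          rw [map_mul, map_inv]
        have hx : ∀ a : ↥A, ∃ k : ↥N, a • h = k • h := by
          intro a
          have h1 := hq a a.2
          rw [frobQuotAct_mk] at h1
          have h2 : h⁻¹ * φ (a : G) h ∈ N := by
            have := (QuotientGroup.eq (s := N)).mp h1.symm
            exact this
          refine ⟨⟨(h⁻¹ * φ (a : G) h)⁻¹, N.inv_mem h2⟩, ?_⟩
          show φ (a : G) h = h * ((h⁻¹ * φ (a : G) h)⁻¹)⁻¹
          rw [inv_inv, mul_inv_cancel_left]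
        obtain ⟨k, hk⟩ := Cfsg.Agent.Lib.helper24.glauberman_lemma
          ((frobResAct φ N hN).comp A.subtype) hcompat hcop (Or.inr hsolv) h hx
        have hfix : h * (k : H)⁻¹ ∈ frobFixG φ A := by
          intro a ha
          exact hk ⟨a, ha⟩
        refine ⟨⟨h * (k : H)⁻¹, hfix⟩, ?_⟩
        show ((h * (k : H)⁻¹ : H) : H ⧸ N) = (h : H ⧸ N)
        exact QuotientGroup.mk_mul_of_mem h (N.inv_mem k.2)
  have hker : Nat.card f.ker = Nat.card (frobFixG (frobResAct φ N hN) A) := by
    refine Nat.card_congr
      { toFun := fun x => ⟨⟨(x : ↥(frobFixG φ A)), ?_⟩, ?_⟩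
        invFun := fun y => ⟨⟨((y : ↥N) : H), ?_⟩, ?_⟩
        left_inv := fun x => rfl
        right_inv := fun y => rfl }
    · have := x.2
      rw [MonoidHom.mem_ker] at this
      exact (QuotientGroup.eq_one_iff _).mp this
    · intro a ha
      apply Subtype.ext
      exact (x : ↥(frobFixG φ A)).2 a ha
    · intro a ha
      have := congrArg Subtype.val (y.2 a ha)
      exact this
    · rw [MonoidHom.mem_ker]
      exact (QuotientGroup.eq_one_iff _).mpr (y : ↥N).2
  rw [← hker, ← hrange, ← Subgroup.index_ker, Subgroup.card_mul_index]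

end Cfsg.Agent.Lib.helper23
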