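import Cfsg.Agent.Lib.helper23.FrobAct1

set_option autoImplicit false

namespace Cfsg.Agent.Lib.helper23

open scoped BigOperators

universe u v

/-- The fixed-point formula for an action of `UE` on `H`. -/
def frobFormula {G : Type v} [Group G] (U E : Subgroup G) {H : Type u} [Group H]
    (φ : G →* MulAut H) : Prop :=
  Nat.card (frobFixG φ (U ⊔ E)) ^ Nat.card E * Nat.card H
    = Nat.card (frobFixG φ E) ^ Nat.card E * Nat.card (frobFixG φ U)

theorem frob_formula_step {G : Type v} [Group G] [Finite G] (U E : Subgroup G) {H : Type u}
    [Group H] [Finite H] (φ : G →* MulAut H) (N : Subgroup H) [N.Normal]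
    (hN : ∀ g h, h ∈ N → φ g h ∈ N)
    (hcop : (Nat.card H).Coprime (Nat.card G)) (hsolv : Group.IsSolvable H)
    (h1 : frobFormula U E (frobResAct φ N hN)) (h2 : frobFormula U E (frobQuotAct φ N hN)) :
    frobFormula U E φ := by
  have hsolvN : Group.IsSolvable N := inferInstance
  have hc : ∀ A : Subgroup G, (Nat.card A).Coprime (Nat.card N) := fun A =>
    (Nat.Coprime.coprime_dvd_left (Subgroup.card_subgroup_dvd_card N) hcop).symm.coprime_dvd_left
      (Subgroup.card_subgroup_dvd_card A)
  have a1 := frob_fix_card φ N hN (U ⊔ E) (hc _) hsolvN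
  have a2 := frob_fix_card φ N hN E (hc _) hsolvN
  have a3 := frob_fix_card φ N hN U (hc _) hsolvN
  have a4 : Nat.card H = Nat.card N * Nat.card (H ⧸ N) := by
    rw [mul_comm]; exact Subgroup.card_eq_card_quotient_mul_card_subgroup N
  unfold frobFormula at h1 h2 ⊢
  rw [a1, a2, a3, a4, mul_pow, mul_pow]
  generalize Nat.card ↥(frobFixG (frobResAct φ N hN) (U ⊔ E)) = xN at *
  generalize Nat.card ↥(frobFixG (frobQuotAct φ N hN) (U ⊔ E)) = xQ at *
  generalize Nat.card ↥(frobFixG (frobResAct φ N hN) E) = yN at *
  generalize Nat.card ↥(frobFixG (frobQuotAct φ N hN) E) = yQ at *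
  generalize Nat.card ↥(frobFixG (frobResAct φ N hN) U) = zN at *
  generalize Nat.card ↥(frobFixG (frobQuotAct φ N hN) U) = zQ at *
  generalize Nat.card ↥N = n at *
  generalize Nat.card (H ⧸ N) = q at *
  generalize Nat.card ↥E = e at *
  calc xN ^ e * xQ ^ e * (n * q) = (xN ^ e * n) * (xQ ^ e * q) := by ring
    _ = (yN ^ e * zN) * (yQ ^ e * zQ) := by rw [h1, h2]
    _ = yN ^ e * yQ ^ e * (zN * zQ) := by ring

theorem frob_formula_base {G : Type v} [Group G] [Finite G] (U E : Subgroup G) [hUn : U.Normal]
    (hfpf : ∀ e ∈ E, e ≠ 1 → ∀ u ∈ U, e * u = u * e → u = 1)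
    {H : Type u} [Group H] [Finite H] (φ : G →* MulAut H)
    (hcop : (Nat.card H).Coprime (Nat.card G)) (hsolv : Group.IsSolvable H)
    (hmin : ∀ N : Subgroup H, N.Normal → (∀ g h, h ∈ N → φ g h ∈ N) → N = ⊥ ∨ N = ⊤) :
    frobFormula U E φ := by
  classical
  by_cases htriv : Subsingleton H
  · unfold frobFormula
    have c : ∀ K : Subgroup H, Nat.card K = 1 := fun K => by
      haveI : Subsingleton ↥K := ⟨fun a b => Subtype.ext (Subsingleton.elim _ _)⟩
      haveI : Nonempty ↥K := ⟨1⟩
      exact Nat.card_eq_one_iff_unique.mpr ⟨inferInstance, inferInstance⟩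
    have cH : Nat.card H = 1 := by
      haveI : Nonempty H := ⟨1⟩
      exact Nat.card_eq_one_iff_unique.mpr ⟨htriv, inferInstance⟩
    rw [c, c, c, cH]
  · haveI : Nontrivial H := not_subsingleton_iff_nontrivial.mp htriv
    have hcomm : ∀ a b : H, a * b = b * a := by
      have hc := hmin (commutator H) inferInstance (by
        intro g h hh
        have : (commutator H).map (φ g).toMonoidHom = commutator H :=
          Subgroup.characteristic_iff_map_eq.mp inferInstance (φ g)
        rw [← this]
        exact Subgroup.mem_map_of_mem _ hh)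
      rcases hc with hc | hc
      · intro a b
        have h1 : a * b * a⁻¹ * b⁻¹ ∈ commutator H := by
          rw [commutator_def]
          exact Subgroup.commutator_mem_commutator (Subgroup.mem_top a) (Subgroup.mem_top b)
        rw [hc, Subgroup.mem_bot] at h1
        have h2 : a * b = (a * b * a⁻¹ * b⁻¹) * (b * a) := by group
        rw [h2, h1, one_mul]
      · exact absurd hc (ne_of_lt (Group.IsSolvable.commutator_lt_top_of_nontrivial H))
    have hcard : Nat.card H ≠ 1 := fun h => htriv ((Nat.card_eq_one_iff_unique.mp h).1)
    obtain ⟨p, hp, hpd⟩ := Nat.exists_prime_and_dvd hcard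
    haveI : Fact p.Prime := ⟨hp⟩
    let Np : Subgroup H :=
      { carrier := {h | h ^ p = 1}
        mul_mem' := by
          intro a b ha hb
          show (a * b) ^ p = 1
          rw [(show Commute a b from hcomm a b).mul_pow, ha, hb, one_mul]
        one_mem' := one_pow p
        inv_mem' := by
          intro a ha
          show (a⁻¹) ^ p = 1
          rw [inv_pow, ha, inv_one] }
    have hnormal : ∀ K : Subgroup H, K.Normal := fun K =>
      ⟨fun n hn g => by rw [hcomm g n, mul_inv_cancel_right]; exact hn⟩
    have hexp : ∀ h : H, h ^ p = 1 := by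
      rcases hmin Np (hnormal Np) (by
        intro g h hh
        show (φ g h) ^ p = 1
        rw [← map_pow, hh, map_one]) with h0 | h0
      · exfalso
        obtain ⟨x, hx⟩ := exists_prime_orderOf_dvd_card' p hpd
        have hxN : x ∈ Np := by
          show x ^ p = 1
          rw [← hx]; exact pow_orderOf_eq_one x
        rw [h0, Subgroup.mem_bot] at hxN
        rw [hxN, orderOf_one] at hx
        exact hp.one_lt.ne hx
      · intro h
        have : h ∈ Np := by rw [h0]; exact Subgroup.mem_top h
        exact this
    have hCinv : ∀ g h, h ∈ frobFixG φ U → φ g h ∈ frobFixG φ U := by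
      intro g h hh u hu
      have h1 : φ u (φ g h) = φ g (φ (g⁻¹ * u * g) h) := by
        rw [← MulAut.mul_apply, ← MulAut.mul_apply, ← map_mul, ← map_mul]
        congr 2
        group
      rw [h1, hh (g⁻¹ * u * g) (by
        have := hUn.conj_mem u hu g⁻¹
        simpa using this)]
    have hfixsup : ∀ h, h ∈ frobFixG φ U → h ∈ frobFixG φ E → h ∈ frobFixG φ (U ⊔ E) := by
      intro h hU hE
      let St : Subgroup G :=
        { carrier := {g | φ g h = h}
          mul_mem' := by
            intro a b ha hb
            show φ (a * b) h = h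
            rw [map_mul, MulAut.mul_apply, hb, ha]
          one_mem' := by
            show φ 1 h = h
            rw [map_one]; rfl
          inv_mem' := by
            intro a ha
            show φ a⁻¹ h = h
            rw [map_inv, MulAut.inv_apply]
            exact (MulEquiv.symm_apply_eq _).mpr ha.symm }
      have : U ⊔ E ≤ St := sup_le (fun u hu => hU u hu) (fun e he => hE e he)
      intro a ha
      exact this ha
    rcases hmin (frobFixG φ U) (hnormal _) hCinv with hC | hC
    · unfold frobFormula
      have e1 : frobFixG φ (U ⊔ E) = ⊥ := by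
        rw [eq_bot_iff, ← hC]
        intro h hh a ha
        exact hh a (Subgroup.mem_sup_left ha)
      rw [e1, hC, Subgroup.card_bot, one_pow, one_mul, mul_one]
      letI : AddCommGroup (Additive H) :=
        { (inferInstance : AddGroup (Additive H)) with
          add_comm := fun a b => hcomm a b }
      letI : Module (ZMod p) (Additive H) :=
        AddCommGroup.zmodModule (n := p) (fun x => hexp x)
      let ρ : G →* Module.End (ZMod p) (Additive H) :=
        { toFun := fun g => AddMonoidHom.toZModLinearMap p (MonoidHom.toAdditive (φ g).toMonoidHom)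
          map_one' := by
            apply LinearMap.ext
            intro v
            show Additive.ofMul (φ 1 (Additive.toMul v)) = v
            rw [map_one]; rfl
          map_mul' := fun a b => by
            apply LinearMap.ext
            intro v
            show Additive.ofMul (φ (a * b) (Additive.toMul v))
              = Additive.ofMul (φ a (φ b (Additive.toMul v)))
            rw [map_mul]; rfl }
      have hpU : ¬ p ∣ Nat.card U := by
        intro h
        have h2 : p ∣ Nat.card G := h.trans (Subgroup.card_subgroup_dvd_card U)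
        have h3 := Nat.dvd_gcd hpd h2
        rw [hcop.gcd_eq_one] at h3
        exact hp.not_dvd_one h3
      have hpE : ¬ p ∣ Nat.card E := by
        intro h
        have h2 : p ∣ Nat.card G := h.trans (Subgroup.card_subgroup_dvd_card E)
        have h3 := Nat.dvd_gcd hpd h2
        rw [hcop.gcd_eq_one] at h3
        exact hp.not_dvd_one h3
      have hfix : ∀ v : Additive H, (∀ u ∈ U, ρ u v = v) → v = 0 := by
        intro v hv
        have h1 : Additive.toMul v ∈ frobFixG φ U := fun u hu => hv u hu
        rw [hC, Subgroup.mem_bot] at h1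
        exact h1
      have key := frob_zmod_card U E hfpf hpU hpE ρ hfix
      have c3 : Nat.card {v : Additive H // ∀ e ∈ E, ρ e v = v} = Nat.card (frobFixG φ E) :=
        Nat.card_congr (Equiv.subtypeEquiv Additive.toMul
          (fun v => ⟨fun h a ha => h a ha, fun h a ha => h a ha⟩))
      rw [c3] at key
      exact key
    · unfold frobFormula
      have e1 : frobFixG φ (U ⊔ E) = frobFixG φ E := by
        apply le_antisymm
        · intro h hh a ha
          exact hh a (Subgroup.mem_sup_right ha)
        · intro h hh
          exact hfixsup h (by rw [hC]; exact Subgroup.mem_top h) hh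
      rw [e1, hC, Subgroup.card_top]

/-- **Abstract fixed-point formula** for a Frobenius group `UE` acting coprimely on a finite
solvable group. -/
theorem frob_formula_abs {G : Type v} [Group G] [Finite G] (U E : Subgroup G) [U.Normal]
    (hfpf : ∀ e ∈ E, e ≠ 1 → ∀ u ∈ U, e * u = u * e → u = 1) :
    ∀ (n : ℕ) (H : Type u) [Group H] [Finite H] (φ : G →* MulAut H), Nat.card H = n →
      (Nat.card H).Coprime (Nat.card G) → Group.IsSolvable H → frobFormula U E φ := by
  intro n
  induction n using Nat.strong_induction_on with
  | _ n ih =>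
    intro H _ _ φ hn hcop hsolv
    by_cases hex : ∃ N : Subgroup H, N.Normal ∧ (∀ g h, h ∈ N → φ g h ∈ N) ∧ N ≠ ⊥ ∧ N ≠ ⊤
    · obtain ⟨N, hNn, hN, hNbot, hNtop⟩ := hex
      haveI := hNn
      have hlt1 : Nat.card N < n := by
        rw [← hn]
        refine lt_of_le_of_ne (Subgroup.card_le_card_group N) (fun h => hNtop ?_)
        exact Subgroup.eq_top_of_card_eq N h
      have hq : Nat.card H = Nat.card (H ⧸ N) * Nat.card N :=
        Subgroup.card_eq_card_quotient_mul_card_subgroup N
      have hlt2 : Nat.card (H ⧸ N) < n := by
        rw [← hn, hq]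
        have h1 : 1 < Nat.card N := (Subgroup.one_lt_card_iff_ne_bot N).mpr hNbot
        have h0 : 0 < Nat.card (H ⧸ N) := Nat.card_pos
        nlinarith
      have f1 := ih _ hlt1 ↥N (frobResAct φ N hN) rfl
        (Nat.Coprime.coprime_dvd_left (Subgroup.card_subgroup_dvd_card N) hcop) inferInstance
      have f2 := ih _ hlt2 (H ⧸ N) (frobQuotAct φ N hN) rfl
        (Nat.Coprime.coprime_dvd_left (Subgroup.card_quotient_dvd_card N) hcop) inferInstance
      exact frob_formula_step U E φ N hN hcop hsolv f1 f2
    · push Not at hex
      apply frob_formula_base U E hfpf φ hcop hsolv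
      intro N hNn hN
      by_contra hcon
      push Not at hcon
      exact hcon.2 (hex N hNn hN hcon.1)

end Cfsg.Agent.Lib.helper23
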