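import Cfsg.Agent.Lib.helper23.FrobAct2

set_option autoImplicit false

namespace Cfsg.Agent.Lib.helper23

open scoped BigOperators

/-- **Fixed-point formula for a Frobenius group `UE` acting coprimely on a solvable group `H`**
(internal form): `|C_H(UE)|^{|E|} |H| = |C_H(E)|^{|E|} |C_H(U)|`. -/
theorem frob_fixed_point_formula {X : Type*} [Group X] [Finite X] (U E H : Subgroup X)
    (hUn : ∀ e ∈ E, ∀ u ∈ U, e * u * e⁻¹ ∈ U)
    (hfpf : ∀ e ∈ E, e ≠ 1 → ∀ u ∈ U, e * u = u * e → u = 1)
    (hHn : ∀ x ∈ U ⊔ E, ∀ h ∈ H, x * h * x⁻¹ ∈ H)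
    (hsolv : Group.IsSolvable H) (hcop : Nat.Coprime (Nat.card H) (Nat.card ↥(U ⊔ E))) :
    Nat.card ↥(H ⊓ Subgroup.centralizer ((U ⊔ E : Subgroup X) : Set X)) ^ Nat.card E * Nat.card H
      = Nat.card ↥(H ⊓ Subgroup.centralizer (E : Set X)) ^ Nat.card E
        * Nat.card ↥(H ⊓ Subgroup.centralizer (U : Set X)) := by
  classical
  have hUnorm : U ⊔ E ≤ Subgroup.normalizer (U : Set X) := by
    refine sup_le Subgroup.le_normalizer ?_
    intro e he
    rw [Subgroup.mem_normalizer_iff]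
    intro u
    constructor
    · exact hUn e he u
    · intro h
      have := hUn e⁻¹ (E.inv_mem he) _ h
      simpa [mul_assoc] using this
  haveI hU'n : (U.subgroupOf (U ⊔ E)).Normal := by
    constructor
    intro n hn g
    have h1 : (n : X) ∈ U := Subgroup.mem_subgroupOf.mp hn
    have h2 := (Subgroup.mem_normalizer_iff.mp (hUnorm g.2) (n : X)).mp h1
    exact Subgroup.mem_subgroupOf.mpr h2
  let φ : ↥(U ⊔ E) →* MulAut ↥H :=
    { toFun := fun x =>
        { toFun := fun h => ⟨(x : X) * h * (x : X)⁻¹, hHn x x.2 h h.2⟩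
          invFun := fun h => ⟨(x : X)⁻¹ * h * (x : X), by
            have := hHn (x : X)⁻¹ ((U ⊔ E).inv_mem x.2) h h.2
            simpa using this⟩
          left_inv := fun h => Subtype.ext (by
            show (x : X)⁻¹ * ((x : X) * h * (x : X)⁻¹) * (x : X) = h
            group)
          right_inv := fun h => Subtype.ext (by
            show (x : X) * ((x : X)⁻¹ * h * (x : X)) * (x : X)⁻¹ = h
            group)
          map_mul' := fun a b => Subtype.ext (by
            show (x : X) * ((a : X) * (b : X)) * (x : X)⁻¹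
              = ((x : X) * a * (x : X)⁻¹) * ((x : X) * b * (x : X)⁻¹)
            group) }
      map_one' := by
        apply MulEquiv.ext
        intro h
        apply Subtype.ext
        show ((1 : ↥(U ⊔ E)) : X) * h * ((1 : ↥(U ⊔ E)) : X)⁻¹ = h
        simp
      map_mul' := fun a b => by
        apply MulEquiv.ext
        intro h
        apply Subtype.ext
        show ((a * b : ↥(U ⊔ E)) : X) * h * ((a * b : ↥(U ⊔ E)) : X)⁻¹
          = (a : X) * ((b : X) * h * (b : X)⁻¹) * (a : X)⁻¹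
        simp [mul_assoc] }
  have hφ : ∀ (x : ↥(U ⊔ E)) (h : ↥H), ((φ x h : ↥H) : X) = (x : X) * h * (x : X)⁻¹ :=
    fun x h => rfl
  have fpf' : ∀ e ∈ E.subgroupOf (U ⊔ E), e ≠ 1 → ∀ u ∈ U.subgroupOf (U ⊔ E),
      e * u = u * e → u = 1 := by
    intro e he hne u hu hcomm
    have := hfpf (e : X) (Subgroup.mem_subgroupOf.mp he) (fun h => hne (Subtype.ext h)) (u : X)
      (Subgroup.mem_subgroupOf.mp hu) (congrArg Subtype.val hcomm)
    exact Subtype.ext this
  have key := frob_formula_abs (U.subgroupOf (U ⊔ E)) (E.subgroupOf (U ⊔ E)) fpf'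
    (Nat.card ↥H) ↥H φ rfl hcop hsolv
  unfold frobFormula at key
  have cardE : Nat.card (E.subgroupOf (U ⊔ E)) = Nat.card E :=
    Nat.card_congr (Subgroup.subgroupOfEquivOfLe le_sup_right).toEquiv
  have hsup : U.subgroupOf (U ⊔ E) ⊔ E.subgroupOf (U ⊔ E) = ⊤ := by
    rw [← Subgroup.subgroupOf_sup le_sup_left le_sup_right, Subgroup.subgroupOf_self]
  have hfixcard : ∀ A : Subgroup X, A ≤ U ⊔ E →
      Nat.card ↥(H ⊓ Subgroup.centralizer (A : Set X))
        = Nat.card ↥(frobFixG φ (A.subgroupOf (U ⊔ E))) := by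
    intro A hA
    refine Nat.card_congr
      { toFun := fun x => ⟨⟨(x : X), (Subgroup.mem_inf.mp x.2).1⟩, ?_⟩
        invFun := fun y => ⟨((y : ↥H) : X), Subgroup.mem_inf.mpr ⟨(y : ↥H).2, ?_⟩⟩
        left_inv := fun x => rfl
        right_inv := fun y => rfl }
    · intro a ha
      apply Subtype.ext
      rw [hφ]
      have hc := Subgroup.mem_centralizer_iff.mp (Subgroup.mem_inf.mp x.2).2 (a : X)
        (Subgroup.mem_subgroupOf.mp ha)
      show (a : X) * (x : X) * (a : X)⁻¹ = x
      rw [hc, mul_inv_cancel_right]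
    · rw [Subgroup.mem_centralizer_iff]
      intro a ha
      have h1 := congrArg Subtype.val (y.2 ⟨a, hA ha⟩ (Subgroup.mem_subgroupOf.mpr ha))
      rw [hφ] at h1
      exact mul_inv_eq_iff_eq_mul.mp h1
  rw [hfixcard (U ⊔ E) le_rfl, hfixcard E le_sup_right, hfixcard U le_sup_left,
    Subgroup.subgroupOf_self, ← hsup, ← cardE]
  exact key

end Cfsg.Agent.Lib.helper23
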