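import Mathlib

set_option autoImplicit false

namespace Cfsg.Agent.Lib.helper23

open scoped BigOperators

/-- Wedderburn data for a split semisimple group algebra: a finite family of orthogonal central
idempotents spanning the centre. -/
theorem frob_wedderburn_idem (k : Type*) [Field k] [IsAlgClosed k] (U : Type*) [Group U] [Finite U]
    [NeZero (Nat.card U : k)] :
    ∃ (n : ℕ) (ε : Fin n → MonoidAlgebra k U),
      (∀ i, ε i * ε i = ε i) ∧ (∀ i j, i ≠ j → ε i * ε j = 0) ∧ (∑ i, ε i = 1) ∧
      (∀ i, ε i ≠ 0) ∧ (∀ i x, ε i * x = x * ε i) ∧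
      (∀ z : MonoidAlgebra k U, (∀ x, z * x = x * z) → ∃ c : Fin n → k, z = ∑ i, c i • ε i) := by
  classical
  obtain ⟨n, d, hd, ⟨Ψ⟩⟩ :=
    IsSemisimpleRing.exists_algEquiv_pi_matrix_of_isAlgClosed k (MonoidAlgebra k U)
  refine ⟨n, fun i => Ψ.symm (Pi.single i 1), ?_, ?_, ?_, ?_, ?_, ?_⟩
  · intro i
    rw [← map_mul, ← Pi.single_mul, mul_one]
  · intro i j hij
    rw [← map_mul]
    have : (Pi.single i 1 * Pi.single j 1 : Π i, Matrix (Fin (d i)) (Fin (d i)) k) = 0 := by
      funext l
      by_cases h1 : l = i
      · subst h1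
        simp [Pi.single_apply, hij]
      · simp [Pi.single_apply, h1]
    rw [this, map_zero]
  · rw [← map_sum]
    have : ∑ i, Pi.single i (1 : Matrix (Fin (d i)) (Fin (d i)) k)
        = (1 : Π i, Matrix (Fin (d i)) (Fin (d i)) k) := Finset.univ_sum_single 1
    rw [this, map_one]
  · intro i h
    have h0 : (Pi.single i 1 : Π i, Matrix (Fin (d i)) (Fin (d i)) k) = 0 := by
      have := congrArg Ψ h
      simpa using this
    have h1 := congrFun h0 i
    haveI := hd i
    simp at h1
  · intro i x
    have hx : x = Ψ.symm (Ψ x) := (Ψ.symm_apply_apply x).symm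
    rw [hx, ← map_mul, ← map_mul]
    congr 1
    funext l
    by_cases h1 : l = i
    · subst h1
      simp
    · simp [Pi.single_apply, h1]
  · intro z hz
    have hcomp : ∀ i, ∃ a : k, Ψ z i = a • (1 : Matrix (Fin (d i)) (Fin (d i)) k) := by
      intro i
      have hc : Ψ z i ∈ Set.center (Matrix (Fin (d i)) (Fin (d i)) k) := by
        rw [Semigroup.mem_center_iff]
        intro A
        have h1 := hz (Ψ.symm (Pi.single i A))
        have h2 := congrArg Ψ h1
        rw [map_mul, map_mul, Ψ.apply_symm_apply] at h2
        have h3 := congrFun h2 i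
        simp only [Pi.mul_apply, Pi.single_eq_same] at h3
        exact h3.symm
      rw [Matrix.center_eq_range] at hc
      obtain ⟨a, ha⟩ := hc
      refine ⟨a, ?_⟩
      rw [← ha, Matrix.smul_one_eq_diagonal]
      rfl
    choose a ha using hcomp
    refine ⟨a, ?_⟩
    apply Ψ.injective
    rw [map_sum]
    funext i
    rw [Finset.sum_apply, ha i]
    rw [Finset.sum_eq_single i]
    · simp
    · intro j _ hji
      simp [Pi.single_apply, hji.symm]
    · intro h; exact absurd (Finset.mem_univ i) h

/-- Centrality of an element of a group algebra means being a class function. -/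
theorem frob_central_iff {k : Type*} [Field k] {U : Type*} [Group U] (z : MonoidAlgebra k U) :
    (∀ x, z * x = x * z) ↔ ∀ u v : U, z.coeff (u * v * u⁻¹) = z.coeff v := by
  constructor
  · intro h u v
    have h1 := congrArg (fun y => y.coeff (u * v)) (h (MonoidAlgebra.single u 1))
    simp only [MonoidAlgebra.coeff_mul_single_apply, MonoidAlgebra.coeff_single_mul_apply] at h1
    simpa [mul_assoc] using h1
  · intro h x
    induction x using MonoidAlgebra.induction_linear with
    | zero => simp
    | add x y hx hy => rw [mul_add, add_mul, hx, hy]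
    | single m r =>
      ext w
      rw [MonoidAlgebra.coeff_mul_single_apply, MonoidAlgebra.coeff_single_mul_apply]
      have := h m⁻¹ (w * m⁻¹)
      rw [inv_inv] at this
      have e : m⁻¹ * (w * m⁻¹) * m = m⁻¹ * w := by group
      rw [e] at this
      rw [this, mul_comm]

end Cfsg.Agent.Lib.helper23
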