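import Cfsg.Agent.Lib.helper23.FrobIdemA

set_option autoImplicit false

namespace Cfsg.Agent.Lib.helper23

open scoped BigOperators

section
variable {k : Type*} [Field k] {U : Type*} [Group U] {n : ℕ} (ε : Fin n → MonoidAlgebra k U)

/-- The linear map `c ↦ ∑ c_i ε_i`. -/
noncomputable def frobJ : (Fin n → k) →ₗ[k] MonoidAlgebra k U where
  toFun c := ∑ i, c i • ε i
  map_add' c c' := by
    simp only [Pi.add_apply, add_smul, Finset.sum_add_distrib]
  map_smul' a c := by
    simp only [Pi.smul_apply, smul_eq_mul, RingHom.id_apply, Finset.smul_sum, smul_smul]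

theorem frobJ_apply (c : Fin n → k) : frobJ ε c = ∑ i, c i • ε i := rfl

theorem frobJ_mul_eps (h1 : ∀ i, ε i * ε i = ε i) (h2 : ∀ i j, i ≠ j → ε i * ε j = 0)
    (c : Fin n → k) (j : Fin n) : frobJ ε c * ε j = c j • ε j := by
  classical
  rw [frobJ_apply, Finset.sum_mul, Finset.sum_eq_single j]
  · rw [smul_mul_assoc, h1]
  · intro i _ hij
    rw [smul_mul_assoc, h2 i j hij, smul_zero]
  · intro h; exact absurd (Finset.mem_univ j) h

theorem frobJ_mul (h1 : ∀ i, ε i * ε i = ε i) (h2 : ∀ i j, i ≠ j → ε i * ε j = 0)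
    (c c' : Fin n → k) : frobJ ε c * frobJ ε c' = frobJ ε (c * c') := by
  rw [frobJ_apply ε c', frobJ_apply ε (c * c'), Finset.mul_sum]
  refine Finset.sum_congr rfl fun j _ => ?_
  rw [mul_smul_comm, frobJ_mul_eps ε h1 h2, smul_smul, Pi.mul_apply, mul_comm]

theorem frobJ_injective (h1 : ∀ i, ε i * ε i = ε i) (h2 : ∀ i j, i ≠ j → ε i * ε j = 0)
    (h4 : ∀ i, ε i ≠ 0) : Function.Injective (frobJ ε) := by
  intro c c' h
  funext j
  have e1 := frobJ_mul_eps ε h1 h2 c j
  have e2 := frobJ_mul_eps ε h1 h2 c' j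
  rw [h, e2] at e1
  have e3 : (c' j - c j) • ε j = 0 := by rw [sub_smul, e1, sub_self]
  rcases smul_eq_zero.mp e3 with h5 | h5
  · exact (sub_eq_zero.mp h5).symm
  · exact absurd h5 (h4 j)

theorem frobJ_one (h3 : ∑ i, ε i = 1) : frobJ ε 1 = 1 := by
  rw [frobJ_apply, ← h3]
  simp

theorem frobJ_single (i : Fin n) : frobJ ε (Pi.single i 1) = ε i := by
  classical
  rw [frobJ_apply, Finset.sum_eq_single i]
  · simp
  · intro j _ hji
    simp [Pi.single_apply, hji]
  · intro h; exact absurd (Finset.mem_univ i) h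

theorem frob_eps_injective (h1 : ∀ i, ε i * ε i = ε i) (h2 : ∀ i j, i ≠ j → ε i * ε j = 0)
    (h4 : ∀ i, ε i ≠ 0) : Function.Injective ε := by
  intro i j hij
  by_contra hne
  have := h2 i j hne
  rw [← hij, h1] at this
  exact h4 i this

/-- A nonzero idempotent scalar multiple of `ε j` is `ε j`. -/
theorem frob_smul_idem (h1 : ∀ i, ε i * ε i = ε i) (h4 : ∀ i, ε i ≠ 0) (t : k) (j : Fin n)
    (x : MonoidAlgebra k U) (hx : x = t • ε j) (hxx : x * x = x) (hx0 : x ≠ 0) : x = ε j := by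
  have e : (t * t - t) • ε j = 0 := by
    rw [sub_smul, ← smul_smul, ← sub_eq_zero.mpr hxx, hx, smul_mul_smul_comm, h1, smul_smul]
  rcases smul_eq_zero.mp e with h5 | h5
  · have ht : t * (t - 1) = 0 := by rw [mul_sub, mul_one]; exact h5
    rcases mul_eq_zero.mp ht with h6 | h6
    · exfalso; apply hx0; rw [hx, h6, zero_smul]
    · rw [hx, sub_eq_zero.mp h6, one_smul]
  · exact absurd h5 (h4 j)

/-- Algebra automorphisms permute the primitive central idempotents. -/
theorem frob_idem_perm (h1 : ∀ i, ε i * ε i = ε i) (h2 : ∀ i j, i ≠ j → ε i * ε j = 0)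
    (h4 : ∀ i, ε i ≠ 0)
    (h6 : ∀ z : MonoidAlgebra k U, (∀ x, z * x = x * z) → ∃ c : Fin n → k, z = ∑ i, c i • ε i)
    (h5 : ∀ i x, ε i * x = x * ε i)
    (α : MonoidAlgebra k U ≃ₐ[k] MonoidAlgebra k U) (i : Fin n) : ∃ j, α (ε i) = ε j := by
  classical
  have hcent : ∀ (β : MonoidAlgebra k U ≃ₐ[k] MonoidAlgebra k U) (l : Fin n) x,
      β (ε l) * x = x * β (ε l) := by
    intro β l x
    have hx : x = β (β.symm x) := (β.apply_symm_apply x).symm
    rw [hx, ← map_mul, ← map_mul, h5]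
  obtain ⟨c, hc⟩ := h6 (α (ε i)) (hcent α i)
  have hne : α (ε i) ≠ 0 := fun h => h4 i (by simpa using h)
  have hex : ∃ j, c j ≠ 0 := by
    by_contra hcon
    push Not at hcon
    apply hne
    rw [hc]
    simp [hcon]
  obtain ⟨j, hj⟩ := hex
  obtain ⟨b, hb⟩ := h6 (α.symm (ε j)) (hcent α.symm j)
  have e1 : α (ε i) * ε j = c j • ε j := by
    have := frobJ_mul_eps ε h1 h2 c j
    rw [frobJ_apply, ← hc] at this
    exact this
  have e2 : α (ε i) * ε j = b i • α (ε i) := by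
    have h7 := frobJ_mul_eps ε h1 h2 b i
    rw [frobJ_apply, ← hb] at h7
    have h8 : α (α.symm (ε j) * ε i) = α (b i • ε i) := congrArg α h7
    rw [map_mul, α.apply_symm_apply, map_smul] at h8
    rw [← h8, ← hcent α i]
  have hb0 : b i ≠ 0 := by
    intro h0
    rw [h0, zero_smul] at e2
    rw [e2] at e1
    rcases smul_eq_zero.mp e1.symm with h9 | h9
    · exact hj h9
    · exact h4 j h9
  refine ⟨j, frob_smul_idem ε h1 h4 ((b i)⁻¹ * c j) j (α (ε i)) ?_ ?_ hne⟩
  · rw [← smul_smul, ← e1, e2, smul_smul, inv_mul_cancel₀ hb0, one_smul]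
  · rw [← map_mul, h1]

end

end Cfsg.Agent.Lib.helper23
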