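import Cfsg.Agent.Lib.helper23.FrobIdemB

set_option autoImplicit false

namespace Cfsg.Agent.Lib.helper23

open scoped BigOperators

section
variable (k : Type*) [Field k] (E S : Type*) [Group E] [MulAction E S]

/-- Functions on an `E`-set that are constant on orbits. -/
def frobInv : Submodule k (S → k) where
  carrier := {f | ∀ (e : E) (s : S), f (e • s) = f s}
  add_mem' := by intro a b ha hb e s; simp [ha e s, hb e s]
  zero_mem' := by intro e s; rfl
  smul_mem' := by intro c a ha e s; simp [ha e s]

theorem mem_frobInv (f : S → k) : f ∈ frobInv k E S ↔ ∀ (e : E) (s : S), f (e • s) = f s :=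
  Iff.rfl

theorem frob_finrank_inv [Fintype S] [Fintype (Quotient (MulAction.orbitRel E S))] :
    Module.finrank k (frobInv k E S) = Fintype.card (Quotient (MulAction.orbitRel E S)) := by
  classical
  let L : (Quotient (MulAction.orbitRel E S) → k) →ₗ[k] (S → k) :=
    LinearMap.funLeft k k (Quotient.mk (MulAction.orbitRel E S))
  have hinj : Function.Injective L :=
    LinearMap.funLeft_injective_of_surjective _ _ _ Quotient.mk_surjective
  have hrange : LinearMap.range L = frobInv k E S := by
    ext f
    constructor
    · rintro ⟨g, rfl⟩ e s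
      show g (Quotient.mk _ (e • s)) = g (Quotient.mk _ s)
      congr 1
      exact Quotient.sound (MulAction.mem_orbit s e)
    · intro hf
      refine ⟨Quotient.lift f (fun a b hab => ?_), ?_⟩
      · obtain ⟨e, rfl⟩ := hab
        exact hf e b
      · funext s; rfl
  rw [← hrange, LinearMap.finrank_range_of_inj hinj, Module.finrank_fintype_fun_eq_card]

end

theorem frob_burnside_compare (k : Type*) [Field k] {E S1 S2 W : Type*} [Group E] [Fintype E]
    [MulAction E S1] [MulAction E S2] [Fintype S1] [Fintype S2] [AddCommGroup W] [Module k W]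
    (J1 : (S1 → k) →ₗ[k] W) (J2 : (S2 → k) →ₗ[k] W) (hJ1 : Function.Injective J1)
    (hJ2 : Function.Injective J2)
    (hinv : (frobInv k E S1).map J1 = (frobInv k E S2).map J2)
    (hrange : LinearMap.range J1 = LinearMap.range J2) :
    (∑ e : E, Nat.card (MulAction.fixedBy S1 e) = ∑ e : E, Nat.card (MulAction.fixedBy S2 e)) ∧
      Fintype.card S1 = Fintype.card S2 := by
  classical
  constructor
  · have e1 : Module.finrank k (frobInv k E S1) = Module.finrank k (frobInv k E S2) := by
      have a := (Submodule.equivMapOfInjective J1 hJ1 (frobInv k E S1)).finrank_eq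
      have b := (Submodule.equivMapOfInjective J2 hJ2 (frobInv k E S2)).finrank_eq
      rw [a, hinv, ← b]
    rw [frob_finrank_inv, frob_finrank_inv] at e1
    have b1 := MulAction.sum_card_fixedBy_eq_card_orbits_mul_card_group E S1
    have b2 := MulAction.sum_card_fixedBy_eq_card_orbits_mul_card_group E S2
    simp only [Nat.card_eq_fintype_card]
    rw [b1, b2, e1]
  · have := congrArg (fun P : Submodule k W => Module.finrank k P) hrange
    simp only [LinearMap.finrank_range_of_inj hJ1, LinearMap.finrank_range_of_inj hJ2,
      Module.finrank_fintype_fun_eq_card] at this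
    exact this

/-- A fixed-point-free automorphism fixes no nontrivial conjugacy class. -/
theorem frob_class_fpf {U E : Type*} [Group U] [Finite U] [Group E] (c : E →* MulAut U)
    (hfpf : ∀ e : E, e ≠ 1 → ∀ u : U, c e u = u → u = 1) (e : E) (he : e ≠ 1) (u : U)
    (h : IsConj (c e u) u) : u = 1 := by
  obtain ⟨x, hx⟩ := isConj_iff.mp h
  have hinj : Function.Injective (fun y : U => y⁻¹ * c e y) := by
    intro y z hyz
    have h2 : y⁻¹ * c e y = z⁻¹ * c e z := hyz
    have h3 : c e z = z * (y⁻¹ * c e y) := by rw [h2, mul_inv_cancel_left]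
    have h1 : c e (z * y⁻¹) = z * y⁻¹ := by
      rw [map_mul, map_inv, h3]; group
    have := hfpf e he _ h1
    exact (mul_inv_eq_one.mp this).symm
  obtain ⟨y, hy⟩ := Finite.surjective_of_injective hinj x
  have hy' : y⁻¹ * c e y = x := hy
  have h2 : c e u = x⁻¹ * u * x := by
    calc c e u = x⁻¹ * (x * c e u * x⁻¹) * x := by group
      _ = x⁻¹ * u * x := by rw [hx]
  have h1 : c e (y * u * y⁻¹) = y * u * y⁻¹ := by
    rw [map_mul, map_mul, map_inv, h2, ← hy']
    group
  have := hfpf e he _ h1
  have h3 : u = y⁻¹ * (y * u * y⁻¹) * y := by group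
  rw [h3, this]; group

end Cfsg.Agent.Lib.helper23
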