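import Cfsg.Agent.Lib.helper23.FrobIdemC

set_option autoImplicit false

namespace Cfsg.Agent.Lib.helper23

open scoped BigOperators

section
variable (k : Type*) [Field k] (U : Type*) [Group U] [Fintype U]

/-- The sum of all group elements. -/
noncomputable def frobS : MonoidAlgebra k U := ∑ u : U, MonoidAlgebra.single u 1

variable {k U}

theorem frobS_single_mul (m : U) (r : k) :
    MonoidAlgebra.single m r * frobS k U = r • frobS k U := by
  unfold frobS
  calc MonoidAlgebra.single m r * ∑ u : U, MonoidAlgebra.single u (1 : k)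
      = ∑ u : U, MonoidAlgebra.single (m * u) r := by
        rw [Finset.mul_sum]
        exact Finset.sum_congr rfl fun u _ => by rw [MonoidAlgebra.single_mul_single, mul_one]
    _ = ∑ v : U, MonoidAlgebra.single v r :=
        Fintype.sum_equiv (Equiv.mulLeft m) _ _ (fun u => rfl)
    _ = r • ∑ u : U, MonoidAlgebra.single u (1 : k) := by
        rw [Finset.smul_sum]
        exact Finset.sum_congr rfl fun v _ => by
          rw [MonoidAlgebra.smul_single, smul_eq_mul, mul_one]

theorem frobS_mul_single (m : U) (r : k) :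
    frobS k U * MonoidAlgebra.single m r = r • frobS k U := by
  unfold frobS
  calc (∑ u : U, MonoidAlgebra.single u (1 : k)) * MonoidAlgebra.single m r
      = ∑ u : U, MonoidAlgebra.single (u * m) r := by
        rw [Finset.sum_mul]
        exact Finset.sum_congr rfl fun u _ => by rw [MonoidAlgebra.single_mul_single, one_mul]
    _ = ∑ v : U, MonoidAlgebra.single v r :=
        Fintype.sum_equiv (Equiv.mulRight m) _ _ (fun u => rfl)
    _ = r • ∑ u : U, MonoidAlgebra.single u (1 : k) := by
        rw [Finset.smul_sum]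
        exact Finset.sum_congr rfl fun v _ => by
          rw [MonoidAlgebra.smul_single, smul_eq_mul, mul_one]

theorem frobS_central (x : MonoidAlgebra k U) : frobS k U * x = x * frobS k U := by
  induction x using MonoidAlgebra.induction_linear with
  | zero => simp
  | add x y hx hy => rw [mul_add, add_mul, hx, hy]
  | single m r => rw [frobS_single_mul, frobS_mul_single]

theorem frobS_absorb (x : MonoidAlgebra k U) : ∃ a : k, x * frobS k U = a • frobS k U := by
  induction x using MonoidAlgebra.induction_linear with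
  | zero => exact ⟨0, by simp⟩
  | add x y hx hy =>
    obtain ⟨a, ha⟩ := hx
    obtain ⟨b, hb⟩ := hy
    exact ⟨a + b, by rw [add_mul, ha, hb, add_smul]⟩
  | single m r => exact ⟨r, frobS_single_mul m r⟩

theorem frobS_mul_self : frobS k U * frobS k U = (Fintype.card U : k) • frobS k U := by
  have e0 : frobS k U * frobS k U
      = (∑ u : U, MonoidAlgebra.single u (1 : k)) * frobS k U := rfl
  rw [e0, Finset.sum_mul]
  have : ∀ u ∈ (Finset.univ : Finset U), MonoidAlgebra.single u (1 : k) * frobS k U = frobS k U :=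
    fun u _ => by rw [frobS_single_mul, one_smul]
  rw [Finset.sum_congr rfl this, Finset.sum_const, Finset.card_univ, Nat.cast_smul_eq_nsmul]

theorem frobS_coeff_one : (frobS k U).coeff 1 = 1 := by
  classical
  unfold frobS
  simp [MonoidAlgebra.coeff_sum, Finsupp.single_apply]

theorem frobS_domCongr (f : MulAut U) : MonoidAlgebra.domCongr k k f (frobS k U) = frobS k U := by
  unfold frobS
  rw [map_sum]
  calc ∑ u : U, MonoidAlgebra.domCongr k k f (MonoidAlgebra.single u (1 : k))
      = ∑ u : U, MonoidAlgebra.single (f u) (1 : k) :=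
        Finset.sum_congr rfl fun u _ => MonoidAlgebra.domCongr_single _ _ _
    _ = ∑ v : U, MonoidAlgebra.single v (1 : k) :=
        Fintype.sum_equiv f.toEquiv _ _ (fun u => rfl)

variable (k U)

/-- The trivial idempotent. -/
noncomputable def frobE0 : MonoidAlgebra k U := (Fintype.card U : k)⁻¹ • frobS k U

variable {k U}

theorem frobE0_idem (hU : (Fintype.card U : k) ≠ 0) : frobE0 k U * frobE0 k U = frobE0 k U := by
  unfold frobE0
  rw [smul_mul_smul_comm, frobS_mul_self, smul_smul, mul_assoc, inv_mul_cancel₀ hU, mul_one]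

theorem frobE0_ne_zero (hU : (Fintype.card U : k) ≠ 0) : frobE0 k U ≠ 0 := by
  intro h
  have h1 := congrArg (fun y : MonoidAlgebra k U => y.coeff 1) h
  simp only [frobE0, MonoidAlgebra.coeff_smul, Finsupp.smul_apply, frobS_coeff_one,
    smul_eq_mul, mul_one, MonoidAlgebra.coeff_zero, Finsupp.zero_apply] at h1
  exact hU (inv_eq_zero.mp h1)

theorem frobE0_central (x : MonoidAlgebra k U) : frobE0 k U * x = x * frobE0 k U := by
  unfold frobE0
  rw [smul_mul_assoc, mul_smul_comm, frobS_central]

theorem frobE0_absorb (x : MonoidAlgebra k U) : ∃ a : k, x * frobE0 k U = a • frobE0 k U := by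
  obtain ⟨a, ha⟩ := frobS_absorb x
  refine ⟨a, ?_⟩
  unfold frobE0
  rw [mul_smul_comm, ha, smul_comm]

theorem frobE0_domCongr (f : MulAut U) :
    MonoidAlgebra.domCongr k k f (frobE0 k U) = frobE0 k U := by
  unfold frobE0
  rw [map_smul, frobS_domCongr]

/-- The trivial idempotent is one of the primitive central idempotents. -/
theorem frobE0_index (hU : (Fintype.card U : k) ≠ 0) {n : ℕ} (ε : Fin n → MonoidAlgebra k U)
    (h1 : ∀ i, ε i * ε i = ε i) (h2 : ∀ i j, i ≠ j → ε i * ε j = 0)
    (h4 : ∀ i, ε i ≠ 0) (h5 : ∀ i x, ε i * x = x * ε i)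
    (h6 : ∀ z : MonoidAlgebra k U, (∀ x, z * x = x * z) → ∃ c : Fin n → k, z = ∑ i, c i • ε i) :
    ∃ i0, ε i0 = frobE0 k U := by
  classical
  obtain ⟨c, hc⟩ := h6 (frobE0 k U) frobE0_central
  have hne := frobE0_ne_zero (k := k) (U := U) hU
  have hex : ∃ j, c j ≠ 0 := by
    by_contra hcon
    push Not at hcon
    apply hne
    rw [hc]
    simp [hcon]
  obtain ⟨j, hj⟩ := hex
  have e1 : frobE0 k U * ε j = c j • ε j := by
    have := frobJ_mul_eps ε h1 h2 c j
    rw [frobJ_apply, ← hc] at this
    exact this
  obtain ⟨a, ha⟩ := frobE0_absorb (ε j)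
  rw [← frobE0_central, e1] at ha
  have ha0 : a ≠ 0 := by
    intro h0
    rw [h0, zero_smul] at ha
    rcases smul_eq_zero.mp ha with h9 | h9
    · exact hj h9
    · exact h4 j h9
  refine ⟨j, (frob_smul_idem ε h1 h4 (a⁻¹ * c j) j (frobE0 k U) ?_ (frobE0_idem hU) hne).symm⟩
  rw [← smul_smul, ha, smul_smul, inv_mul_cancel₀ ha0, one_smul]

end

end Cfsg.Agent.Lib.helper23
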