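import Cfsg.Agent.Lib.helper23.FrobIdemD

set_option autoImplicit false

namespace Cfsg.Agent.Lib.helper23

open scoped BigOperators

section
variable {k : Type*} [Field k] {U : Type*} [Group U] {E : Type*} [Group E] {n : ℕ}
  (ε : Fin n → MonoidAlgebra k U) (α : E →* (MonoidAlgebra k U ≃ₐ[k] MonoidAlgebra k U))
  (σ : E → Fin n → Fin n)

/-- The action on the index set. -/
@[reducible] def frobActI (hσ1 : ∀ i, σ 1 i = i)
    (hσmul : ∀ e e' i, σ (e * e') i = σ e (σ e' i)) : MulAction E (Fin n) where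
  smul := fun e i => σ e i
  one_smul := hσ1
  mul_smul := hσmul

theorem frob_act_J (hσ : ∀ e i, α e (ε i) = ε (σ e i)) (hσ1 : ∀ i, σ 1 i = i)
    (hσmul : ∀ e e' i, σ (e * e') i = σ e (σ e' i)) (e : E) (c : Fin n → k) :
    α e (frobJ ε c) = frobJ ε (fun j => c (σ e⁻¹ j)) := by
  rw [frobJ_apply, frobJ_apply, map_sum]
  let τ : Fin n ≃ Fin n :=
    { toFun := σ e
      invFun := σ e⁻¹
      left_inv := fun i => by rw [← hσmul, inv_mul_cancel, hσ1]
      right_inv := fun i => by rw [← hσmul, mul_inv_cancel, hσ1] }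
  refine Fintype.sum_equiv τ _ _ (fun i => ?_)
  show α e (c i • ε i) = c (σ e⁻¹ (σ e i)) • ε (σ e i)
  rw [map_smul, hσ, ← hσmul, inv_mul_cancel, hσ1]

end

/-- Class functions as elements of the group algebra. -/
noncomputable def frobClassJ (k : Type*) [Field k] (U : Type*) [Group U] [Finite U] :
    (ConjClasses U → k) →ₗ[k] MonoidAlgebra k U where
  toFun f := MonoidAlgebra.ofCoeff (Finsupp.equivFunOnFinite.symm (fun u => f (ConjClasses.mk u)))
  map_add' f g := by ext u; rfl
  map_smul' a f := by ext u; rfl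

theorem frobClassJ_coeff {k : Type*} [Field k] {U : Type*} [Group U] [Finite U]
    (f : ConjClasses U → k) (u : U) : (frobClassJ k U f).coeff u = f (ConjClasses.mk u) := rfl

/-- Brauer's permutation lemma (counting form): a fixed-point-free group of automorphisms acts
freely on the nontrivial primitive central idempotents. -/
theorem frob_free (k : Type*) [Field k] {U E : Type*} [Group U] [Fintype U] [Group E] [Fintype E]
    (c : E →* MulAut U) (hfpf : ∀ e : E, e ≠ 1 → ∀ u : U, c e u = u → u = 1)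
    {n : ℕ} (ε : Fin n → MonoidAlgebra k U)
    (h1 : ∀ i, ε i * ε i = ε i) (h2 : ∀ i j, i ≠ j → ε i * ε j = 0)
    (h4 : ∀ i, ε i ≠ 0) (h5 : ∀ i x, ε i * x = x * ε i)
    (h6 : ∀ z : MonoidAlgebra k U, (∀ x, z * x = x * z) → ∃ c : Fin n → k, z = ∑ i, c i • ε i)
    (σ : E → Fin n → Fin n)
    (hσ : ∀ e i, MonoidAlgebra.domCongr k k (c e) (ε i) = ε (σ e i))
    (hσ1 : ∀ i, σ 1 i = i) (hσmul : ∀ e e' i, σ (e * e') i = σ e (σ e' i))
    (i0 : Fin n) (hi0 : ∀ e, σ e i0 = i0) :
    ∀ e : E, e ≠ 1 → ∀ i, σ e i = i → i = i0 := by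
  classical
  letI actI : MulAction E (Fin n) := frobActI σ hσ1 hσmul
  letI actC : MulAction E (ConjClasses U) :=
    { smul := fun e C => ConjClasses.map (c e).toMonoidHom C
      one_smul := by
        intro C
        obtain ⟨u, rfl⟩ := ConjClasses.exists_rep C
        show ConjClasses.mk ((c 1) u) = ConjClasses.mk u
        rw [map_one]; rfl
      mul_smul := by
        intro e e' C
        obtain ⟨u, rfl⟩ := ConjClasses.exists_rep C
        show ConjClasses.mk ((c (e * e')) u) = ConjClasses.mk ((c e) ((c e') u))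
        rw [map_mul]; rfl }
  have hsmulC : ∀ (e : E) (u : U), e • ConjClasses.mk u = ConjClasses.mk (c e u) :=
    fun e u => rfl
  let α : E →* (MonoidAlgebra k U ≃ₐ[k] MonoidAlgebra k U) :=
    (MonoidAlgebra.domCongrAut (R := k) (A := k) (M := U)).comp c
  have hα : ∀ e x, α e x = MonoidAlgebra.domCongr k k (c e) x := fun e x => rfl
  have hσ' : ∀ e i, α e (ε i) = ε (σ e i) := hσ
  have hact := frob_act_J ε α σ hσ' hσ1 hσmul
  have hJ1 := frobJ_injective ε h1 h2 h4
  have hJ2 : Function.Injective (frobClassJ k U) := by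
    intro f g hfg
    funext C
    obtain ⟨u, rfl⟩ := ConjClasses.exists_rep C
    have := congrArg (fun z : MonoidAlgebra k U => z.coeff u) hfg
    exact this
  have hcen1 : ∀ z : MonoidAlgebra k U,
      z ∈ LinearMap.range (frobJ ε) ↔ ∀ x, z * x = x * z := by
    intro z
    constructor
    · rintro ⟨c', rfl⟩ x
      rw [frobJ_apply, Finset.sum_mul, Finset.mul_sum]
      exact Finset.sum_congr rfl fun i _ => by rw [smul_mul_assoc, mul_smul_comm, h5]
    · intro hz
      obtain ⟨c', hc'⟩ := h6 z hz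
      exact ⟨c', hc'.symm⟩
  have hcen2 : ∀ z : MonoidAlgebra k U,
      z ∈ LinearMap.range (frobClassJ k U) ↔ ∀ x, z * x = x * z := by
    intro z
    rw [frob_central_iff]
    constructor
    · rintro ⟨f, rfl⟩ u v
      rw [frobClassJ_coeff, frobClassJ_coeff]
      congr 1
      exact (ConjClasses.mk_eq_mk_iff_isConj.mpr (isConj_iff.mpr ⟨u, rfl⟩)).symm
    · intro hz
      refine ⟨Quotient.lift (fun u => z.coeff u) (fun a b hab => ?_), ?_⟩
      · obtain ⟨x, hx⟩ := isConj_iff.mp hab
        rw [← hx]; exact (hz x a).symm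
      · ext u; rfl
  have hrange : LinearMap.range (frobJ ε) = LinearMap.range (frobClassJ k U) := by
    ext z; rw [hcen1, hcen2]
  have hinv1 : ∀ z : MonoidAlgebra k U, z ∈ (frobInv k E (Fin n)).map (frobJ ε) ↔
      ((∀ x, z * x = x * z) ∧ ∀ e, α e z = z) := by
    intro z
    constructor
    · rintro ⟨c', hc', rfl⟩
      refine ⟨(hcen1 _).mp ⟨c', rfl⟩, fun e => ?_⟩
      rw [hact]
      congr 1
      funext j
      exact hc' e⁻¹ j
    · rintro ⟨hz, hze⟩
      obtain ⟨c', rfl⟩ := (hcen1 z).mpr hz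
      refine ⟨c', fun e j => ?_, rfl⟩
      have h7 := hze e⁻¹
      rw [hact] at h7
      have h8 := congrFun (hJ1 h7) j
      rw [inv_inv] at h8
      exact h8
  have hinv2 : ∀ z : MonoidAlgebra k U,
      z ∈ (frobInv k E (ConjClasses U)).map (frobClassJ k U) ↔
      ((∀ x, z * x = x * z) ∧ ∀ e, α e z = z) := by
    intro z
    constructor
    · rintro ⟨f, hf, rfl⟩
      refine ⟨(hcen2 _).mp ⟨f, rfl⟩, fun e => ?_⟩
      ext u
      rw [hα, MonoidAlgebra.coeff_domCongr, frobClassJ_coeff, frobClassJ_coeff]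
      have := hf e (ConjClasses.mk ((c e).symm u))
      rw [hsmulC, MulEquiv.apply_symm_apply] at this
      exact this.symm
    · rintro ⟨hz, hze⟩
      obtain ⟨f, rfl⟩ := (hcen2 z).mpr hz
      refine ⟨f, fun e C => ?_, rfl⟩
      obtain ⟨u, rfl⟩ := ConjClasses.exists_rep C
      rw [hsmulC]
      have h7 := congrArg (fun y : MonoidAlgebra k U => y.coeff (c e u)) (hze e)
      simp only [hα, MonoidAlgebra.coeff_domCongr, MulEquiv.symm_apply_apply,
        frobClassJ_coeff] at h7
      exact h7.symm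
  have hinv : (frobInv k E (Fin n)).map (frobJ ε)
      = (frobInv k E (ConjClasses U)).map (frobClassJ k U) := by
    ext z; rw [hinv1, hinv2]
  obtain ⟨hsum, hcard⟩ :=
    frob_burnside_compare k (frobJ ε) (frobClassJ k U) hJ1 hJ2 hinv hrange
  have hCle : ∀ e : E, e ≠ 1 → Nat.card (MulAction.fixedBy (ConjClasses U) e) ≤ 1 := by
    intro e he
    rw [Finite.card_le_one_iff_subsingleton]
    constructor
    rintro ⟨C, hC⟩ ⟨D, hD⟩
    have key : ∀ C : ConjClasses U, C ∈ MulAction.fixedBy (ConjClasses U) e →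
        C = ConjClasses.mk 1 := by
      intro C hC
      obtain ⟨u, rfl⟩ := ConjClasses.exists_rep C
      have h7 : e • ConjClasses.mk u = ConjClasses.mk u := hC
      rw [hsmulC, ConjClasses.mk_eq_mk_iff_isConj] at h7
      rw [frob_class_fpf c hfpf e he u h7]
    exact Subtype.ext ((key C hC).trans (key D hD).symm)
  have hle : ∀ e ∈ (Finset.univ : Finset E),
      Nat.card (MulAction.fixedBy (ConjClasses U) e) ≤ Nat.card (MulAction.fixedBy (Fin n) e) := by
    intro e _
    by_cases he : e = 1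
    · subst he
      have a1 : MulAction.fixedBy (ConjClasses U) (1 : E) = Set.univ :=
        Set.eq_univ_of_forall (fun x => one_smul E x)
      have a2 : MulAction.fixedBy (Fin n) (1 : E) = Set.univ :=
        Set.eq_univ_of_forall (fun x => one_smul E x)
      rw [a1, a2, Nat.card_congr (Equiv.Set.univ _), Nat.card_congr (Equiv.Set.univ _),
        Nat.card_eq_fintype_card, Nat.card_eq_fintype_card, hcard]
    · have hI : 1 ≤ Nat.card (MulAction.fixedBy (Fin n) e) := by
        haveI : Nonempty (MulAction.fixedBy (Fin n) e) := ⟨⟨i0, hi0 e⟩⟩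
        exact Nat.card_pos
      exact (hCle e he).trans hI
  have heq := (Finset.sum_eq_sum_iff_of_le hle).mp hsum.symm
  intro e he i hi
  have hC1 : Nat.card (MulAction.fixedBy (Fin n) e) ≤ 1 := by
    rw [← heq e (Finset.mem_univ e)]
    exact hCle e he
  rw [Finite.card_le_one_iff_subsingleton] at hC1
  have := hC1.elim ⟨i, hi⟩ ⟨i0, hi0 e⟩
  exact congrArg Subtype.val this

end Cfsg.Agent.Lib.helper23
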