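import Cfsg.Agent.Lib.helper23.FrobIdemE

set_option autoImplicit false

namespace Cfsg.Agent.Lib.helper23

open scoped BigOperators

/-- For a fixed-point-free group `E` of automorphisms of `U` and a splitting field `k` of
characteristic prime to `|U|`, there is an idempotent `η` of `k[U]` whose `E`-conjugates are
pairwise orthogonal and sum to `1 - e₀`. -/
theorem frob_free_idem (k : Type*) [Field k] [IsAlgClosed k] {U E : Type*} [Group U] [Fintype U]
    [Group E] [Fintype E] (hU : (Fintype.card U : k) ≠ 0) (c : E →* MulAut U)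
    (hfpf : ∀ e : E, e ≠ 1 → ∀ u : U, c e u = u → u = 1) :
    ∃ η : MonoidAlgebra k U, η * η = η ∧
      (∀ e : E, e ≠ 1 → η * MonoidAlgebra.domCongr k k (c e) η = 0) ∧
      ∑ e : E, MonoidAlgebra.domCongr k k (c e) η = 1 - frobE0 k U := by
  classical
  haveI : NeZero (Nat.card U : k) := ⟨by rw [Nat.card_eq_fintype_card]; exact hU⟩
  obtain ⟨n, ε, h1, h2, h3, h4, h5, h6⟩ := frob_wedderburn_idem k U
  let α : E →* (MonoidAlgebra k U ≃ₐ[k] MonoidAlgebra k U) :=
    (MonoidAlgebra.domCongrAut (R := k) (A := k) (M := U)).comp c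
  have hα : ∀ e x, α e x = MonoidAlgebra.domCongr k k (c e) x := fun e x => rfl
  have hperm : ∀ e i, ∃ j, α e (ε i) = ε j :=
    fun e i => frob_idem_perm ε h1 h2 h4 h6 h5 (α e) i
  choose σ hσ using hperm
  have hεinj := frob_eps_injective ε h1 h2 h4
  have hσ1 : ∀ i, σ 1 i = i := by
    intro i
    apply hεinj
    rw [← hσ 1 i, map_one]; rfl
  have hσmul : ∀ e e' i, σ (e * e') i = σ e (σ e' i) := by
    intro e e' i
    apply hεinj
    rw [← hσ (e * e') i, ← hσ e (σ e' i), ← hσ e' i, map_mul]; rfl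
  obtain ⟨i0, hi0⟩ := frobE0_index hU ε h1 h2 h4 h5 h6
  have hσi0 : ∀ e, σ e i0 = i0 := by
    intro e
    apply hεinj
    rw [← hσ e i0, hi0, hα, frobE0_domCongr]
  have hfree := frob_free k c hfpf ε h1 h2 h4 h5 h6 σ hσ hσ1 hσmul i0 hσi0
  have hact := frob_act_J ε α σ hσ hσ1 hσmul
  have hσinv : ∀ e i, σ e⁻¹ (σ e i) = i := fun e i => by rw [← hσmul, inv_mul_cancel, hσ1]
  have hσinv' : ∀ e i, σ e (σ e⁻¹ i) = i := fun e i => by rw [← hσmul, mul_inv_cancel, hσ1]
  let R : Finset (Fin n) := Finset.univ.filter (fun i => i ≠ i0 ∧ ∀ e, i ≤ σ e i)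
  have hR : ∀ i, i ∈ R ↔ (i ≠ i0 ∧ ∀ e, i ≤ σ e i) := fun i => by simp [R]
  let χ : Fin n → k := fun i => if i ∈ R then 1 else 0
  refine ⟨frobJ ε χ, ?_, ?_, ?_⟩
  · rw [frobJ_mul ε h1 h2]
    congr 1
    funext i
    simp only [Pi.mul_apply, χ]
    split_ifs <;> simp
  · intro e he
    rw [← hα, hact, frobJ_mul ε h1 h2]
    have : χ * (fun j => χ (σ e⁻¹ j)) = 0 := by
      funext j
      simp only [Pi.mul_apply, Pi.zero_apply, χ]
      by_cases hj : j ∈ R
      · by_cases hj' : σ e⁻¹ j ∈ R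
        · exfalso
          have a1 := ((hR j).mp hj).2 e⁻¹
          have a2 := ((hR _).mp hj').2 e
          rw [hσinv'] at a2
          have a3 : σ e⁻¹ j = j := le_antisymm a2 a1
          exact ((hR j).mp hj).1 (hfree e⁻¹ (inv_ne_one.mpr he) j a3)
        · simp [hj']
      · simp [hj]
    rw [this, map_zero]
  · have e1 : ∑ e : E, MonoidAlgebra.domCongr k k (c e) (frobJ ε χ)
        = frobJ ε (∑ e : E, fun j => χ (σ e⁻¹ j)) := by
      rw [map_sum]
      exact Finset.sum_congr rfl fun e _ => by rw [← hα, hact]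
    have e2 : (1 : MonoidAlgebra k U) - frobE0 k U = frobJ ε (1 - Pi.single i0 1) := by
      rw [map_sub, frobJ_one ε h3, frobJ_single, hi0]
    rw [e1, e2]
    congr 1
    funext j
    rw [Finset.sum_apply]
    by_cases hj : j = i0
    · rw [hj]
      have hi0R : i0 ∉ R := fun h => ((hR i0).mp h).1 rfl
      simp [χ, hσi0, hi0R]
    · obtain ⟨e0, -, hmin⟩ := Finset.exists_min_image Finset.univ (fun e => σ e j)
        ⟨1, Finset.mem_univ _⟩
      have hiR : σ e0 j ∈ R := by
        rw [hR]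
        refine ⟨fun h => hj ?_, fun e => ?_⟩
        · have := hσinv e0 j
          rw [h, hσi0] at this
          exact this.symm
        · rw [← hσmul]; exact hmin (e * e0) (Finset.mem_univ _)
      rw [Finset.sum_eq_single e0⁻¹]
      · simp [χ, hiR, Pi.single_apply, hj]
      · intro e _ hne
        simp only [χ]
        rw [if_neg]
        intro hR'
        apply hne
        have a1 := ((hR _).mp hR').2 (e0 * e)
        rw [hσmul, hσinv'] at a1
        have a2 := ((hR _).mp hiR).2 (e⁻¹ * e0⁻¹)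
        rw [hσmul, hσinv] at a2
        have a3 : σ e⁻¹ j = σ e0 j := le_antisymm a1 a2
        have a4 : σ (e * e0) j = j := by rw [hσmul, ← a3, hσinv']
        have a5 : e * e0 = 1 := by
          by_contra h9
          exact hj (hfree _ h9 j a4)
        exact eq_inv_of_mul_eq_one_left a5
      · intro h; exact absurd (Finset.mem_univ _) h

end Cfsg.Agent.Lib.helper23
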