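import Cfsg.Agent.Lib.helper23.FrobIdemF

set_option autoImplicit false

namespace Cfsg.Agent.Lib.helper23

open scoped BigOperators

section
variable {K : Type*} [Field K] {M : Type*} [AddCommGroup M] [Module K M]
  {Et : Type*} [Group Et]

/-- Fixed vectors of a representation. -/
def frobFix (r : Et →* Module.End K M) : Submodule K M where
  carrier := {m | ∀ e, r e m = m}
  add_mem' := by intro a b ha hb e; rw [map_add, ha e, hb e]
  zero_mem' := by intro e; rw [map_zero]
  smul_mem' := by intro c a ha e; rw [map_smul, ha e]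

theorem mem_frobFix (r : Et →* Module.End K M) (m : M) : m ∈ frobFix r ↔ ∀ e, r e m = m :=
  Iff.rfl

/-- Core linear algebra: an idempotent whose conjugates under a group are orthogonal and sum to
one makes the module free over the group. -/
theorem frob_core_finrank [Module.Finite K M] [Fintype Et] (r : Et →* Module.End K M)
    (P : Module.End K M) (hP : P * P = P) (hPe : ∀ e : Et, e ≠ 1 → P * r e * P = 0)
    (hsum : ∑ e : Et, r e * P * r e⁻¹ = 1) :
    Module.finrank K M = Fintype.card Et * Module.finrank K (frobFix r) := by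
  classical
  let N0 : Submodule K M := LinearMap.range P
  have hPN : ∀ w : N0, P (w : M) = w := by
    rintro ⟨w, m, rfl⟩
    show P (P m) = P m
    rw [← Module.End.mul_apply, hP]
  let T : (Et → N0) →ₗ[K] M := ∑ e, (r e ∘ₗ N0.subtype) ∘ₗ LinearMap.proj e
  have hT : ∀ w : Et → N0, T w = ∑ e, r e (w e : M) := by
    intro w
    simp [T, LinearMap.sum_apply]
  have hterm : ∀ (e : Et) (w : N0), e ≠ 1 → P (r e (w : M)) = 0 := by
    intro e w he
    have h1 : (P * r e * P) (w : M) = 0 := by rw [hPe e he]; rfl
    rw [Module.End.mul_apply, Module.End.mul_apply, hPN] at h1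
    exact h1
  have key : ∀ (e' : Et) (w : Et → N0), P (r e'⁻¹ (T w)) = (w e' : M) := by
    intro e' w
    rw [hT, map_sum, map_sum, Finset.sum_eq_single e']
    · rw [← Module.End.mul_apply (r e'⁻¹), ← map_mul, inv_mul_cancel, map_one,
        Module.End.one_apply, hPN]
    · intro e _ hne
      rw [← Module.End.mul_apply (r e'⁻¹), ← map_mul]
      apply hterm
      intro h
      apply hne
      have := eq_of_inv_mul_eq_one h
      exact this.symm
    · intro h; exact absurd (Finset.mem_univ _) h
  have hinj : Function.Injective T := by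
    rw [injective_iff_map_eq_zero]
    intro w hw
    funext e'
    apply Subtype.ext
    rw [← key e' w, hw, map_zero, map_zero]
    rfl
  have hsurj : Function.Surjective T := by
    intro m
    refine ⟨fun e => ⟨P (r e⁻¹ m), LinearMap.mem_range_self _ _⟩, ?_⟩
    rw [hT]
    have h1 := congrArg (fun f : Module.End K M => f m) hsum
    simp only [LinearMap.sum_apply, Module.End.mul_apply, Module.End.one_apply] at h1
    exact h1
  have e1 : Module.finrank K M = Fintype.card Et * Module.finrank K N0 := by
    rw [← (LinearEquiv.ofBijective T ⟨hinj, hsurj⟩).finrank_eq, Module.finrank_pi_fintype,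
      Finset.sum_const, Finset.card_univ, smul_eq_mul]
  -- the two comparison maps
  have keyA : ∀ w : N0, P (∑ e, r e (w : M)) = w := by
    intro w
    rw [map_sum, Finset.sum_eq_single 1]
    · rw [map_one, Module.End.one_apply, hPN]
    · intro e _ hne
      exact hterm e w hne
    · intro h; exact absurd (Finset.mem_univ _) h
  let A : N0 →ₗ[K] M := (∑ e, r e) ∘ₗ N0.subtype
  have hA : ∀ w : N0, A w = ∑ e, r e (w : M) := by
    intro w
    simp [A, LinearMap.sum_apply]
  have hAfix : ∀ w : N0, A w ∈ frobFix r := by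
    intro w e'
    rw [hA, map_sum]
    calc ∑ e, r e' (r e (w : M)) = ∑ e, r (e' * e) (w : M) :=
          Finset.sum_congr rfl fun e _ => by rw [map_mul, Module.End.mul_apply]
      _ = ∑ e, r e (w : M) := Fintype.sum_equiv (Equiv.mulLeft e') _ _ (fun e => rfl)
  let A' : N0 →ₗ[K] frobFix r := LinearMap.codRestrict (frobFix r) A hAfix
  have hA'inj : Function.Injective A' := by
    rw [injective_iff_map_eq_zero]
    intro w hw
    have h1 : A w = 0 := congrArg Subtype.val hw
    apply Subtype.ext
    rw [← keyA w, ← hA, h1, map_zero]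
    rfl
  let B : frobFix r →ₗ[K] N0 :=
    LinearMap.codRestrict N0 (P ∘ₗ (frobFix r).subtype) (fun v => LinearMap.mem_range_self _ _)
  have hBinj : Function.Injective B := by
    rw [injective_iff_map_eq_zero]
    intro v hv
    have h1 : P (v : M) = 0 := congrArg Subtype.val hv
    have h2 := congrArg (fun f : Module.End K M => f (v : M)) hsum
    simp only [LinearMap.sum_apply, Module.End.mul_apply, Module.End.one_apply] at h2
    apply Subtype.ext
    rw [← h2]
    show ∑ e, r e (P (r e⁻¹ (v : M))) = 0
    refine Finset.sum_eq_zero fun e _ => ?_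
    rw [v.2 e⁻¹, h1, map_zero]
  have e2 : Module.finrank K N0 = Module.finrank K (frobFix r) :=
    le_antisymm (LinearMap.finrank_le_finrank_of_injective hA'inj)
      (LinearMap.finrank_le_finrank_of_injective hBinj)
  rw [e1, e2]

end

/-- A Frobenius group `UE` acting on a finite-dimensional space over an algebraically closed
field (characteristic prime to `|U|`) with no `U`-fixed vectors: the space is `E`-free. -/
theorem frob_module_finrank {K : Type*} [Field K] [IsAlgClosed K] {G : Type*} [Group G] [Finite G]
    (U E : Subgroup G) [U.Normal]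
    (hfpf : ∀ e ∈ E, e ≠ 1 → ∀ u ∈ U, e * u = u * e → u = 1)
    (hU : (Nat.card U : K) ≠ 0)
    {M : Type*} [AddCommGroup M] [Module K M] [Module.Finite K M] (ρ : G →* Module.End K M)
    (hfix : ∀ m : M, (∀ u ∈ U, ρ u m = m) → m = 0) :
    Module.finrank K M = Nat.card E * Module.finrank K (frobFix (ρ.comp E.subtype)) := by
  classical
  haveI : Fintype ↥U := Fintype.ofFinite _
  haveI : Fintype ↥E := Fintype.ofFinite _
  let c : ↥E →* MulAut ↥U := (MulAut.conjNormal (H := U)).comp E.subtype
  have hc : ∀ (e : ↥E) (u : ↥U), ((c e u : ↥U) : G) = e * u * (e : G)⁻¹ := fun e u => rfl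
  have hfpf' : ∀ e : ↥E, e ≠ 1 → ∀ u : ↥U, c e u = u → u = 1 := by
    intro e he u h
    have h1 := congrArg Subtype.val h
    rw [hc] at h1
    have h2 := hfpf e e.2 (fun h0 => he (Subtype.ext h0)) u u.2 (mul_inv_eq_iff_eq_mul.mp h1)
    exact Subtype.ext h2
  have hU' : (Fintype.card ↥U : K) ≠ 0 := by rw [← Nat.card_eq_fintype_card]; exact hU
  obtain ⟨η, hη1, hη2, hη3⟩ := frob_free_idem K hU' c hfpf'
  let ρU : ↥U →* Module.End K M := ρ.comp U.subtype
  let L : MonoidAlgebra K ↥U →ₐ[K] Module.End K M := MonoidAlgebra.lift K (Module.End K M) ↥U ρU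
  have hL : ∀ (u : ↥U) (a : K), L (MonoidAlgebra.single u a) = a • ρ (u : G) :=
    fun u a => MonoidAlgebra.lift_single ρU u a
  have hconj : ∀ (e : ↥E) (a : MonoidAlgebra K ↥U),
      ρ (e : G) * L a = L (MonoidAlgebra.domCongr K K (c e) a) * ρ (e : G) := by
    intro e a
    induction a using MonoidAlgebra.induction_linear with
    | zero => simp
    | add x y hx hy => rw [map_add, mul_add, hx, hy, map_add, map_add, add_mul]
    | single u a =>
      rw [MonoidAlgebra.domCongr_single, hL, hL, mul_smul_comm, smul_mul_assoc, ← map_mul,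
        ← map_mul, hc]
      congr 2
      group
  have hL0 : L (frobE0 K ↥U) = 0 := by
    have h0 : ∑ u : ↥U, L (MonoidAlgebra.single u 1) = 0 := by
      apply LinearMap.ext
      intro m
      rw [LinearMap.sum_apply, LinearMap.zero_apply]
      apply hfix
      intro v hv
      rw [map_sum]
      calc ∑ u : ↥U, ρ v (L (MonoidAlgebra.single u 1) m)
          = ∑ u : ↥U, ρ (((⟨v, hv⟩ : ↥U) * u : ↥U) : G) m :=
            Finset.sum_congr rfl fun u _ => by
              rw [hL, one_smul, ← Module.End.mul_apply, ← map_mul]; rfl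
        _ = ∑ u : ↥U, ρ (u : G) m :=
            Fintype.sum_equiv (Equiv.mulLeft (⟨v, hv⟩ : ↥U)) _ _ (fun u => rfl)
        _ = ∑ u : ↥U, L (MonoidAlgebra.single u 1) m :=
            Finset.sum_congr rfl fun u _ => by rw [hL, one_smul]
    unfold frobE0 frobS
    rw [map_smul, map_sum, h0, smul_zero]
  let P : Module.End K M := L η
  let r : ↥E →* Module.End K M := ρ.comp E.subtype
  have hr : ∀ e : ↥E, r e = ρ (e : G) := fun e => rfl
  have hP : P * P = P := by
    show L η * L η = L η
    rw [← map_mul, hη1]
  have hPe : ∀ e : ↥E, e ≠ 1 → P * r e * P = 0 := by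
    intro e he
    show L η * ρ (e : G) * L η = 0
    rw [mul_assoc, hconj, ← mul_assoc, ← map_mul, hη2 e he, map_zero, zero_mul]
  have hsum : ∑ e : ↥E, r e * P * r e⁻¹ = 1 := by
    have h1 : ∀ e ∈ (Finset.univ : Finset ↥E),
        r e * P * r e⁻¹ = L (MonoidAlgebra.domCongr K K (c e) η) := by
      intro e _
      show ρ (e : G) * L η * r e⁻¹ = _
      rw [hconj, mul_assoc, ← hr, ← map_mul, mul_inv_cancel, map_one, mul_one]
    rw [Finset.sum_congr rfl h1, ← map_sum, hη3, map_sub, map_one, hL0, sub_zero]
  have := frob_core_finrank r P hP hPe hsum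
  rw [this, Nat.card_eq_fintype_card]

end Cfsg.Agent.Lib.helper23
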