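import Cfsg.Agent.Lib.helper23.FrobStr5

set_option autoImplicit false

namespace Cfsg.Agent.Lib.helper23

open scoped BigOperators

theorem frob_centralizer_zpowers {X : Type*} [Group X] (x : X) :
    Subgroup.centralizer ((Subgroup.zpowers x : Subgroup X) : Set X)
      = Subgroup.centralizer ({x} : Set X) := by
  ext h
  simp only [Subgroup.mem_centralizer_iff]
  constructor
  · intro hh a ha
    rw [Set.mem_singleton_iff] at ha
    subst ha
    exact hh a (Subgroup.mem_zpowers a)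
  · intro hh a ha
    obtain ⟨k, rfl⟩ := Subgroup.mem_zpowers_iff.mp ha
    have hc : Commute x h := hh x rfl
    exact (hc.zpow_left k).eq

theorem frob_s1446 {X : Type*} [Group X] [Finite X] (K R M : Subgroup X) (hR1 : R ≠ ⊥)
    (hRK : R ≤ Subgroup.normalizer (K : Set X))
    (hfrob : ∀ r ∈ R, r ≠ 1 → K ⊓ Subgroup.centralizer ({r} : Set X) = ⊥)
    (hM1 : M ≠ ⊥) (hMn : Group.IsNilpotent M) (hKM : K ≤ Subgroup.normalizer (M : Set X))
    (hRM : R ≤ Subgroup.normalizer (M : Set X))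
    (hcop : (Nat.card ↥(K ⊔ R)).Coprime (Nat.card M))
    (hCK : M ⊓ Subgroup.centralizer (K : Set X) = ⊥)
    (hpr : ∀ x ∈ R, x ≠ 1 →
      M ⊓ Subgroup.centralizer ({x} : Set X) = M ⊓ Subgroup.centralizer (R : Set X)) :
    (Nat.card R).Prime ∧
      Nat.card M = Nat.card ↥(M ⊓ Subgroup.centralizer (R : Set X)) ^ Nat.card R ∧
      (IsCyclic ↥(M ⊓ Subgroup.centralizer (R : Set X)) →
        ⁅K, K⁆ ≤ Subgroup.centralizer (M : Set X)) := by
  classical
  haveI := hMn
  have hsolv : Group.IsSolvable M := inferInstance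
  have hUn : ∀ E : Subgroup X, E ≤ R → ∀ e ∈ E, ∀ u ∈ K, e * u * e⁻¹ ∈ K :=
    fun E hE e he u hu => (Subgroup.mem_normalizer_iff.mp (hRK (hE he)) u).mp hu
  have hfpf : ∀ e ∈ R, e ≠ 1 → ∀ u ∈ K, e * u = u * e → u = 1 := by
    intro e he hne u hu hc
    have hmem : u ∈ K ⊓ Subgroup.centralizer ({e} : Set X) := by
      refine Subgroup.mem_inf.mpr ⟨hu, ?_⟩
      rw [Subgroup.mem_centralizer_iff]
      intro h hh
      rw [Set.mem_singleton_iff.mp hh]
      exact hc
    rw [hfrob e he hne, Subgroup.mem_bot] at hmem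
    exact hmem
  have hHn : ∀ E : Subgroup X, E ≤ R → ∀ x ∈ K ⊔ E, ∀ h ∈ M, x * h * x⁻¹ ∈ M := by
    intro E hE x hx h hh
    have hle : K ⊔ E ≤ Subgroup.normalizer (M : Set X) := sup_le hKM (hE.trans hRM)
    exact (Subgroup.mem_normalizer_iff.mp (hle hx) h).mp hh
  have hcopE : ∀ E : Subgroup X, E ≤ R → Nat.Coprime (Nat.card M) (Nat.card ↥(K ⊔ E)) :=
    fun E hE => (hcop.symm).coprime_dvd_right (Subgroup.card_dvd_of_le (sup_le_sup_left hE K))
  have c1 : Nat.card ↥(M ⊓ Subgroup.centralizer (K : Set X)) = 1 := by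
    rw [hCK, Subgroup.card_bot]
  have c2 : ∀ E : Subgroup X,
      Nat.card ↥(M ⊓ Subgroup.centralizer ((K ⊔ E : Subgroup X) : Set X)) = 1 := by
    intro E
    have hle : M ⊓ Subgroup.centralizer ((K ⊔ E : Subgroup X) : Set X) ≤ ⊥ := by
      rw [← hCK]
      exact inf_le_inf_left M (Subgroup.centralizer_le (SetLike.coe_subset_coe.mpr le_sup_left))
    rw [le_bot_iff.mp hle, Subgroup.card_bot]
  have gen : ∀ E : Subgroup X, E ≤ R →
      Nat.card M = Nat.card ↥(M ⊓ Subgroup.centralizer (E : Set X)) ^ Nat.card E := by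
    intro E hE
    have f := frob_fixed_point_formula K E M (hUn E hE) (fun e he => hfpf e (hE he)) (hHn E hE)
      hsolv (hcopE E hE)
    rw [c2, one_pow, one_mul, c1, mul_one] at f
    exact f
  have f2 := gen R le_rfl
  refine ⟨?_, f2, fun hcyc =>
    frob_comm_internal K R M (hUn R le_rfl) hfpf (hHn R le_rfl) hsolv (hcopE R le_rfl) hcyc⟩
  have hRcard : Nat.card R ≠ 1 := by
    rw [Ne, Subgroup.card_eq_one]; exact hR1
  obtain ⟨q, hq, hqd⟩ := Nat.exists_prime_and_dvd hRcard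
  haveI : Fact q.Prime := ⟨hq⟩
  obtain ⟨y, hy⟩ := exists_prime_orderOf_dvd_card' q hqd
  have hx : orderOf (y : X) = q := by rw [Subgroup.orderOf_coe]; exact hy
  have hx1 : (y : X) ≠ 1 := by
    intro h
    rw [h, orderOf_one] at hx
    exact hq.one_lt.ne hx
  have hle : Subgroup.zpowers (y : X) ≤ R := (Subgroup.zpowers_le).mpr y.2
  have f1 := gen (Subgroup.zpowers (y : X)) hle
  rw [frob_centralizer_zpowers, hpr (y : X) y.2 hx1, Nat.card_zpowers, hx] at f1
  have hc : 2 ≤ Nat.card ↥(M ⊓ Subgroup.centralizer (R : Set X)) := by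
    by_contra hcon
    push Not at hcon
    have hpos : 0 < Nat.card ↥(M ⊓ Subgroup.centralizer (R : Set X)) := Nat.card_pos
    have h1 : Nat.card ↥(M ⊓ Subgroup.centralizer (R : Set X)) = 1 := by omega
    rw [h1, one_pow] at f2
    exact hM1 (Subgroup.card_eq_one.mp f2)
  have hqR : q = Nat.card R := Nat.pow_right_injective hc (f1.symm.trans f2)
  rw [← hqR]
  exact hq

end Cfsg.Agent.Lib.helper23
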