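import Cfsg.Agent.Lib.helper23.FrobStr5
import Cfsg.Agent.Lib.helper1.FrobConj
import Cfsg.Prelude.Def_Transfer
import Cfsg.Prelude.Def_Solvable

set_option autoImplicit false

namespace Cfsg.Agent.Lib.helper23

open scoped BigOperators

theorem frob_s3770 {X : Type*} [Group X] [Finite X] (G : Subgroup X) (V : Subgroup X) {ℓ : ℕ}
    (hℓ : ℓ.Prime) (hV : Cfsg.IsElementaryAbelian ℓ V) (hℓG : ¬ ℓ ∣ Nat.card G)
    (hGV : G ≤ Subgroup.normalizer (V : Set X)) (R : Subgroup ↥G)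
    (hR : Cfsg.IsFrobeniusComplement R)
    (hCV : Nat.card ↥(V ⊓ Subgroup.centralizer ((R.map G.subtype : Subgroup X) : Set X)) = ℓ) :
    ⁅Subgroup.closure (Subtype.val '' Cfsg.frobeniusKernel R),
      Subgroup.closure (Subtype.val '' Cfsg.frobeniusKernel R)⁆
      ≤ Subgroup.centralizer (V : Set X) := by
  classical
  haveI : Fact ℓ.Prime := ⟨hℓ⟩
  obtain ⟨N, hset, hNn, hcompl, -, hfpfN⟩ := Cfsg.Agent.Lib.helper1.frob_pair R hR
  haveI := hNn
  have hclos : Subgroup.closure (Subtype.val '' Cfsg.frobeniusKernel R) = N.map G.subtype := by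
    rw [← hset]
    have : (Subtype.val '' (N : Set ↥G)) = ((N.map G.subtype : Subgroup X) : Set X) := by
      rw [Subgroup.coe_map]; rfl
    rw [this, Subgroup.closure_eq]
  rw [hclos]
  have hsup : N.map G.subtype ⊔ R.map G.subtype = G := by
    rw [← Subgroup.map_sup, hcompl.sup_eq_top, ← MonoidHom.range_eq_map, Subgroup.range_subtype]
  apply frob_comm_internal (N.map G.subtype) (R.map G.subtype) V
  · rintro e ⟨r, hr, rfl⟩ u ⟨n, hn, rfl⟩
    exact ⟨r * n * r⁻¹, hNn.conj_mem n hn r, rfl⟩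
  · rintro e ⟨r, hr, rfl⟩ hne u ⟨n, hn, rfl⟩ hcomm
    have hr1 : r ≠ 1 := fun h => hne (by rw [h]; rfl)
    have hmem : n ∈ N ⊓ Subgroup.centralizer ({r} : Set ↥G) := by
      refine Subgroup.mem_inf.mpr ⟨hn, ?_⟩
      rw [Subgroup.mem_centralizer_iff]
      intro a ha
      rw [Set.mem_singleton_iff.mp ha]
      exact Subtype.ext hcomm
    rw [hfpfN r hr hr1, Subgroup.mem_bot] at hmem
    rw [hmem]; rfl
  · intro x hx h hh
    rw [hsup] at hx
    exact (Subgroup.mem_normalizer_iff.mp (hGV hx) h).mp hh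
  · exact isSolvable_of_comm (fun a b => hV.1.is_comm.comm a b)
  · rw [hsup]
    have hp : IsPGroup ℓ ↥V := fun g => ⟨1, by
      rw [pow_one]
      apply Subtype.ext
      exact hV.2 (g : X) g.2⟩
    obtain ⟨k, hk⟩ := (IsPGroup.iff_card).mp hp
    rw [hk]
    exact Nat.Coprime.pow_left k ((Nat.Prime.coprime_iff_not_dvd hℓ).mpr hℓG)
  · exact isCyclic_of_prime_card hCV

end Cfsg.Agent.Lib.helper23
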