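import Cfsg.Agent.Lib.helper23.FrobZMod

set_option autoImplicit false

namespace Cfsg.Agent.Lib.helper23

open scoped BigOperators

/-- **Key lemma.**  A Frobenius group `UE` acting on an elementary abelian `p`-group `V` with
`p ∤ |U||E|` and `C_V(U) = 0`: then `|V| = |C_V(E)|^{|E|}`. -/
theorem frob_zmod_card {p : ℕ} [Fact p.Prime] {G : Type*} [Group G] [Finite G]
    (U E : Subgroup G) [U.Normal]
    (hfpf : ∀ e ∈ E, e ≠ 1 → ∀ u ∈ U, e * u = u * e → u = 1)
    (hpU : ¬ p ∣ Nat.card U) (hpE : ¬ p ∣ Nat.card E)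
    {V : Type*} [AddCommGroup V] [Module (ZMod p) V] [Finite V] (ρ : G →* Module.End (ZMod p) V)
    (hfix : ∀ v : V, (∀ u ∈ U, ρ u v = v) → v = 0) :
    Nat.card V = Nat.card {v : V // ∀ e ∈ E, ρ e v = v} ^ Nat.card E := by
  classical
  let K := AlgebraicClosure (ZMod p)
  haveI : CharP K p := inferInstance
  have hUK : (Nat.card U : K) ≠ 0 := fun h => hpU ((CharP.cast_eq_zero_iff K p _).mp h)
  have hEF : (Nat.card E : ZMod p) ≠ 0 :=
    fun h => hpE ((CharP.cast_eq_zero_iff (ZMod p) p _).mp h)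
  haveI : Module.Finite (ZMod p) V := Module.Finite.of_finite
  have hfixM : ∀ φ : V →ₗ[ZMod p] K, (∀ u ∈ U, frobHomRep (K := K) ρ u φ = φ) → φ = 0 := by
    intro φ hφ
    haveI : Fintype ↥U := Fintype.ofFinite _
    apply LinearMap.ext
    intro v
    have h1 : ∀ u : ↥U, φ (ρ (u : G) v) = φ v := by
      intro u
      have := congrArg (fun ψ : V →ₗ[ZMod p] K => ψ v) (hφ (u : G)⁻¹ (U.inv_mem u.2))
      simp only [frobHomRep_apply, inv_inv] at this
      exact this
    have h2 : ∑ u : ↥U, ρ (u : G) v = 0 := by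
      apply hfix
      intro u' hu'
      rw [map_sum]
      calc ∑ u : ↥U, ρ u' (ρ (u : G) v) = ∑ u : ↥U, ρ (((⟨u', hu'⟩ : ↥U) * u : ↥U) : G) v :=
            Finset.sum_congr rfl fun u _ => by rw [← Module.End.mul_apply, ← map_mul]; rfl
        _ = ∑ u : ↥U, ρ (u : G) v :=
            Fintype.sum_equiv (Equiv.mulLeft (⟨u', hu'⟩ : ↥U)) _ _ (fun u => rfl)
    have h3 := congrArg φ h2
    rw [map_sum, map_zero, Finset.sum_congr rfl (fun u _ => h1 u), Finset.sum_const,
      Finset.card_univ, ← Nat.card_eq_fintype_card, ← Nat.cast_smul_eq_nsmul K, smul_eq_mul] at h3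
    rcases mul_eq_zero.mp h3 with h4 | h4
    · exact absurd h4 hUK
    · exact h4
  have e1 := frob_module_finrank (K := K) U E hfpf hUK (frobHomRep (K := K) ρ) hfixM
  have e2 := frob_fix_descent (F := ZMod p) (K := K) E hEF ρ
  have e3 : Module.finrank K (V →ₗ[ZMod p] K) = Module.finrank (ZMod p) V :=
    Module.finrank_linearMap_self (ZMod p) K V
  rw [e2, e3] at e1
  have c1 : Nat.card V = p ^ Module.finrank (ZMod p) V := by
    rw [Module.natCard_eq_pow_finrank (K := ZMod p), Nat.card_zmod]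
  have c2 : Nat.card (frobFix (ρ.comp E.subtype))
      = p ^ Module.finrank (ZMod p) (frobFix (ρ.comp E.subtype)) := by
    rw [Module.natCard_eq_pow_finrank (K := ZMod p), Nat.card_zmod]
  have c3 : Nat.card {v : V // ∀ e ∈ E, ρ e v = v} = Nat.card (frobFix (ρ.comp E.subtype)) :=
    Nat.card_congr (Equiv.subtypeEquivRight
      (fun v => ⟨fun h e => h e e.2, fun h e he => h ⟨e, he⟩⟩))
  rw [c1, c3, c2, e1, ← pow_mul, mul_comm]

end Cfsg.Agent.Lib.helper23
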