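import Cfsg.Agent.Lib.helper23.FrobStr2
import Cfsg.Agent.Lib.helper23.FrobZMod2

set_option autoImplicit false

namespace Cfsg.Agent.Lib.helper23

open scoped BigOperators

/-- A Frobenius group `UE` acting on an elementary abelian `p`-group `V` with `p ∤ |U||E|`,
`C_V(U) = 0` and `|C_V(E)| ≤ p`: commutators of elements of `U` act trivially. -/
theorem frob_zmod_comm {p : ℕ} [Fact p.Prime] {G : Type*} [Group G] [Finite G]
    (U E : Subgroup G) [hUn : U.Normal]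
    (hfpf : ∀ e ∈ E, e ≠ 1 → ∀ u ∈ U, e * u = u * e → u = 1)
    (hpU : ¬ p ∣ Nat.card U) (hpE : ¬ p ∣ Nat.card E)
    {V : Type*} [AddCommGroup V] [Module (ZMod p) V] [Finite V] (ρ : G →* Module.End (ZMod p) V)
    (hfix : ∀ v : V, (∀ u ∈ U, ρ u v = v) → v = 0)
    (hcyc : Nat.card {v : V // ∀ e ∈ E, ρ e v = v} ≤ p) :
    ∀ u₁ ∈ U, ∀ u₂ ∈ U, ∀ v : V, ρ (u₁ * u₂ * u₁⁻¹ * u₂⁻¹) v = v := by
  classical
  have hp := (Fact.out : p.Prime)
  let K := AlgebraicClosure (ZMod p)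
  haveI : CharP K p := inferInstance
  have hUK : (Nat.card U : K) ≠ 0 := fun h => hpU ((CharP.cast_eq_zero_iff K p _).mp h)
  have hEF : (Nat.card E : ZMod p) ≠ 0 :=
    fun h => hpE ((CharP.cast_eq_zero_iff (ZMod p) p _).mp h)
  haveI : Module.Finite (ZMod p) V := Module.Finite.of_finite
  have hfixM : ∀ φ : V →ₗ[ZMod p] K, (∀ u ∈ U, frobHomRep (K := K) ρ u φ = φ) → φ = 0 := by
    intro φ hφ
    haveI : Fintype ↥U := Fintype.ofFinite _
    apply LinearMap.ext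
    intro v
    have h1 : ∀ u : ↥U, φ (ρ (u : G) v) = φ v := by
      intro u
      have := congrArg (fun ψ : V →ₗ[ZMod p] K => ψ v) (hφ (u : G)⁻¹ (U.inv_mem u.2))
      simp only [frobHomRep_apply, inv_inv] at this
      exact this
    have h2 : ∑ u : ↥U, ρ (u : G) v = 0 := by
      apply hfix
      intro u' hu'
      rw [map_sum]
      calc ∑ u : ↥U, ρ u' (ρ (u : G) v) = ∑ u : ↥U, ρ (((⟨u', hu'⟩ : ↥U) * u : ↥U) : G) v :=
            Finset.sum_congr rfl fun u _ => by rw [← Module.End.mul_apply, ← map_mul]; rfl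
        _ = ∑ u : ↥U, ρ (u : G) v :=
            Fintype.sum_equiv (Equiv.mulLeft (⟨u', hu'⟩ : ↥U)) _ _ (fun u => rfl)
    have h3 := congrArg φ h2
    rw [map_sum, map_zero, Finset.sum_congr rfl (fun u _ => h1 u), Finset.sum_const,
      Finset.card_univ, ← Nat.card_eq_fintype_card, ← Nat.cast_smul_eq_nsmul K, smul_eq_mul] at h3
    rcases mul_eq_zero.mp h3 with h4 | h4
    · exact absurd h4 hUK
    · exact h4
  set ρM := frobHomRep (K := K) ρ with hρM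
  obtain ⟨N0, hinv, hrank, hspan⟩ := frob_module_struct (K := K) U E hfpf hUK ρM hfixM
  have e2 := frob_fix_descent (F := ZMod p) (K := K) E hEF ρ
  have c2 : Nat.card (frobFix (ρ.comp E.subtype))
      = p ^ Module.finrank (ZMod p) (frobFix (ρ.comp E.subtype)) := by
    rw [Module.natCard_eq_pow_finrank (K := ZMod p), Nat.card_zmod]
  have c3 : Nat.card {v : V // ∀ e ∈ E, ρ e v = v} = Nat.card (frobFix (ρ.comp E.subtype)) :=
    Nat.card_congr (Equiv.subtypeEquivRight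
      (fun v => ⟨fun h e => h e e.2, fun h e he => h ⟨e, he⟩⟩))
  have hd : Module.finrank (ZMod p) (frobFix (ρ.comp E.subtype)) ≤ 1 := by
    rw [c3, c2] at hcyc
    by_contra hcon
    push Not at hcon
    have : p ^ 2 ≤ p ^ Module.finrank (ZMod p) (frobFix (ρ.comp E.subtype)) :=
      Nat.pow_le_pow_right hp.pos hcon
    have h2 : p ^ 2 ≤ p := this.trans hcyc
    have h3 := hp.one_lt
    nlinarith
  have hN0 : Module.finrank K N0 ≤ 1 := by rw [hrank, e2]; exact hd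
  haveI : Module.Free K ↥N0 := Module.Free.of_divisionRing K ↥N0
  obtain ⟨w0, hw0⟩ := (finrank_le_one_iff (K := K) (V := ↥N0)).mp hN0
  have hscal : ∀ a ∈ U, ∃ ca : K, ρM a (w0 : V →ₗ[ZMod p] K) = ca • (w0 : V →ₗ[ZMod p] K) := by
    intro a ha
    obtain ⟨ca, hca⟩ := hw0 ⟨ρM a w0, hinv a ha w0 w0.2⟩
    exact ⟨ca, (congrArg Subtype.val hca).symm⟩
  have hcomm : ∀ a ∈ U, ∀ b ∈ U, ∀ w ∈ N0, ρM a (ρM b w) = ρM b (ρM a w) := by
    intro a ha b hb w hw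
    obtain ⟨c, hc⟩ := hw0 ⟨w, hw⟩
    have hc' : w = c • (w0 : V →ₗ[ZMod p] K) := (congrArg Subtype.val hc).symm
    obtain ⟨ca, hca⟩ := hscal a ha
    obtain ⟨cb, hcb⟩ := hscal b hb
    rw [hc', map_smul, map_smul, map_smul, map_smul, hca, hcb, map_smul, map_smul, hca, hcb,
      smul_comm ca cb]
  have hcancel : ∀ (a : G) (x : V →ₗ[ZMod p] K), ρM a (ρM a⁻¹ x) = x := by
    intro a x
    rw [← Module.End.mul_apply, ← map_mul, mul_inv_cancel, map_one, Module.End.one_apply]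
  have hfixN0 : ∀ a ∈ U, ∀ b ∈ U, ∀ w ∈ N0, ρM (a * b * a⁻¹ * b⁻¹) w = w := by
    intro a ha b hb w hw
    have h1 : ρM (a * b * a⁻¹ * b⁻¹) w = ρM a (ρM b (ρM a⁻¹ (ρM b⁻¹ w))) := by
      rw [map_mul, map_mul, map_mul]; rfl
    have hw' : ρM a⁻¹ (ρM b⁻¹ w) ∈ N0 :=
      hinv _ (U.inv_mem ha) _ (hinv _ (U.inv_mem hb) _ hw)
    rw [h1, hcomm a ha b hb _ hw', hcancel, hcancel]
  have hall : ∀ a ∈ U, ∀ b ∈ U, ∀ m : V →ₗ[ZMod p] K, ρM (a * b * a⁻¹ * b⁻¹) m = m := by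
    intro a ha b hb m
    have hT := hspan (LinearMap.eqLocus (ρM (a * b * a⁻¹ * b⁻¹)) LinearMap.id) (by
      intro e _ w hw
      rw [LinearMap.mem_eqLocus]
      have h1 : ρM (a * b * a⁻¹ * b⁻¹) (ρM e w)
          = ρM e (ρM ((e⁻¹ * a * e) * (e⁻¹ * b * e) * (e⁻¹ * a * e)⁻¹ * (e⁻¹ * b * e)⁻¹) w) := by
        rw [← Module.End.mul_apply, ← Module.End.mul_apply, ← map_mul, ← map_mul]
        congr 2
        group
      have hc : ∀ x ∈ U, e⁻¹ * x * e ∈ U := by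
        intro x hx
        have := hUn.conj_mem x hx e⁻¹
        simpa using this
      rw [h1, hfixN0 _ (hc a ha) _ (hc b hb) w hw]
      rfl)
    have hm : m ∈ LinearMap.eqLocus (ρM (a * b * a⁻¹ * b⁻¹)) LinearMap.id := by
      rw [hT]; exact Submodule.mem_top
    exact (LinearMap.mem_eqLocus.mp hm)
  have hsep : ∀ x : V, (∀ φ : V →ₗ[ZMod p] K, φ x = 0) → x = 0 := by
    intro x hx
    rw [← Module.forall_dual_apply_eq_zero_iff (ZMod p) x]
    intro f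
    have h1 := hx ((Algebra.linearMap (ZMod p) K).comp f)
    have h2 : algebraMap (ZMod p) K (f x) = 0 := h1
    exact (map_eq_zero (algebraMap (ZMod p) K)).mp h2
  intro u₁ hu₁ u₂ hu₂ v
  have hkey : ρ (u₁ * u₂ * u₁⁻¹ * u₂⁻¹) v - v = 0 := by
    apply hsep
    intro φ
    have h1 := congrArg (fun ψ : V →ₗ[ZMod p] K => ψ v) (hall u₂ hu₂ u₁ hu₁ φ)
    have h2 : φ (ρ (u₂ * u₁ * u₂⁻¹ * u₁⁻¹)⁻¹ v) = φ v := h1
    have h3 : (u₂ * u₁ * u₂⁻¹ * u₁⁻¹)⁻¹ = u₁ * u₂ * u₁⁻¹ * u₂⁻¹ := by group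
    rw [h3] at h2
    rw [map_sub, h2, sub_self]
  exact sub_eq_zero.mp hkey

end Cfsg.Agent.Lib.helper23
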