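import Cfsg.Agent.Lib.helper23.FrobStr3
import Cfsg.Agent.Lib.helper23.FrobAct2

set_option autoImplicit false

namespace Cfsg.Agent.Lib.helper23

open scoped BigOperators

universe u v

/-- Coprime action: fixed points of the quotient lift. -/
theorem frob_fix_lift {G : Type v} [Group G] [Finite G] {H : Type u} [Group H] [Finite H]
    (φ : G →* MulAut H) (N : Subgroup H) [N.Normal]
    (hN : ∀ g h, h ∈ N → φ g h ∈ N) (A : Subgroup G)
    (hcop : (Nat.card A).Coprime (Nat.card N)) (hsolv : Group.IsSolvable N)
    (q : H ⧸ N) (hq : q ∈ frobFixG (frobQuotAct φ N hN) A) :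
    ∃ h ∈ frobFixG φ A, (h : H ⧸ N) = q := by
  classical
  induction q using QuotientGroup.induction_on with
  | H h =>
    letI actN : MulAction ↥N H :=
      { smul := fun k x => x * (k : H)⁻¹
        one_smul := fun x => by
          show x * ((1 : ↥N) : H)⁻¹ = x
          simp
        mul_smul := fun k k' x => by
          show x * ((k * k' : ↥N) : H)⁻¹ = x * (k' : H)⁻¹ * (k : H)⁻¹
          simp [mul_assoc] }
    letI actA : MulAction ↥A H :=
      { smul := fun a x => φ (a : G) x
        one_smul := fun x => by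
          show φ ((1 : ↥A) : G) x = x
          simp
        mul_smul := fun a b x => by
          show φ ((a * b : ↥A) : G) x = φ (a : G) (φ (b : G) x)
          simp }
    have hcompat : ∀ (a : ↥A) (k : ↥N) (x : H),
        a • k • x = ((frobResAct φ N hN).comp A.subtype a k) • a • x := by
      intro a k x
      show φ (a : G) (x * (k : H)⁻¹) = φ (a : G) x * (φ (a : G) (k : H))⁻¹
      rw [map_mul, map_inv]
    have hx : ∀ a : ↥A, ∃ k : ↥N, a • h = k • h := by
      intro a
      have h1 := hq a a.2
      rw [frobQuotAct_mk] at h1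
      have h2 : h⁻¹ * φ (a : G) h ∈ N := by
        have := (QuotientGroup.eq (s := N)).mp h1.symm
        exact this
      refine ⟨⟨(h⁻¹ * φ (a : G) h)⁻¹, N.inv_mem h2⟩, ?_⟩
      show φ (a : G) h = h * ((h⁻¹ * φ (a : G) h)⁻¹)⁻¹
      rw [inv_inv, mul_inv_cancel_left]
    obtain ⟨k, hk⟩ := Cfsg.Agent.Lib.helper24.glauberman_lemma
      ((frobResAct φ N hN).comp A.subtype) hcompat hcop (Or.inr hsolv) h hx
    have hfix : h * (k : H)⁻¹ ∈ frobFixG φ A := by
      intro a ha
      exact hk ⟨a, ha⟩
    exact ⟨h * (k : H)⁻¹, hfix, QuotientGroup.mk_mul_of_mem h (N.inv_mem k.2)⟩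

/-- Structure of a minimal module-like group under the action. -/
theorem frob_min_structure {G : Type v} [Group G] (U : Subgroup G) [hUn : U.Normal]
    {H : Type u} [Group H] [Finite H] (φ : G →* MulAut H) (hsolv : Group.IsSolvable H)
    (hmin : ∀ N : Subgroup H, N.Normal → (∀ g h, h ∈ N → φ g h ∈ N) → N = ⊥ ∨ N = ⊤)
    (htriv : ¬ Subsingleton H) :
    ∃ p : ℕ, p.Prime ∧ p ∣ Nat.card H ∧ (∀ a b : H, a * b = b * a) ∧ (∀ h : H, h ^ p = 1) ∧
      (frobFixG φ U = ⊥ ∨ frobFixG φ U = ⊤) := by
  classical
  haveI : Nontrivial H := not_subsingleton_iff_nontrivial.mp htriv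
  have hcomm : ∀ a b : H, a * b = b * a := by
    have hc := hmin (commutator H) inferInstance (by
      intro g h hh
      have : (commutator H).map (φ g).toMonoidHom = commutator H :=
        Subgroup.characteristic_iff_map_eq.mp inferInstance (φ g)
      rw [← this]
      exact Subgroup.mem_map_of_mem _ hh)
    rcases hc with hc | hc
    · intro a b
      have h1 : a * b * a⁻¹ * b⁻¹ ∈ commutator H := by
        rw [commutator_def]
        exact Subgroup.commutator_mem_commutator (Subgroup.mem_top a) (Subgroup.mem_top b)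
      rw [hc, Subgroup.mem_bot] at h1
      have h2 : a * b = (a * b * a⁻¹ * b⁻¹) * (b * a) := by group
      rw [h2, h1, one_mul]
    · exact absurd hc (ne_of_lt (Group.IsSolvable.commutator_lt_top_of_nontrivial H))
  have hcard : Nat.card H ≠ 1 := fun h => htriv ((Nat.card_eq_one_iff_unique.mp h).1)
  obtain ⟨p, hp, hpd⟩ := Nat.exists_prime_and_dvd hcard
  haveI : Fact p.Prime := ⟨hp⟩
  let Np : Subgroup H :=
    { carrier := {h | h ^ p = 1}
      mul_mem' := by
        intro a b ha hb
        show (a * b) ^ p = 1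
        rw [(show Commute a b from hcomm a b).mul_pow, ha, hb, one_mul]
      one_mem' := one_pow p
      inv_mem' := by
        intro a ha
        show (a⁻¹) ^ p = 1
        rw [inv_pow, ha, inv_one] }
  have hnormal : ∀ K : Subgroup H, K.Normal := fun K =>
    ⟨fun n hn g => by rw [hcomm g n, mul_inv_cancel_right]; exact hn⟩
  have hexp : ∀ h : H, h ^ p = 1 := by
    rcases hmin Np (hnormal Np) (by
      intro g h hh
      show (φ g h) ^ p = 1
      rw [← map_pow, hh, map_one]) with h0 | h0
    · exfalso
      obtain ⟨x, hx⟩ := exists_prime_orderOf_dvd_card' p hpd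
      have hxN : x ∈ Np := by
        show x ^ p = 1
        rw [← hx]; exact pow_orderOf_eq_one x
      rw [h0, Subgroup.mem_bot] at hxN
      rw [hxN, orderOf_one] at hx
      exact hp.one_lt.ne hx
    · intro h
      have : h ∈ Np := by rw [h0]; exact Subgroup.mem_top h
      exact this
  have hCinv : ∀ g h, h ∈ frobFixG φ U → φ g h ∈ frobFixG φ U := by
    intro g h hh u hu
    have h1 : φ u (φ g h) = φ g (φ (g⁻¹ * u * g) h) := by
      rw [← MulAut.mul_apply, ← MulAut.mul_apply, ← map_mul, ← map_mul]
      congr 2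
      group
    rw [h1, hh (g⁻¹ * u * g) (by
      have := hUn.conj_mem u hu g⁻¹
      simpa using this)]
  exact ⟨p, hp, hpd, hcomm, hexp, hmin (frobFixG φ U) (hnormal _) hCinv⟩

theorem frob_comm_base {G : Type v} [Group G] [Finite G] (U E : Subgroup G) [hUn : U.Normal]
    (hfpf : ∀ e ∈ E, e ≠ 1 → ∀ u ∈ U, e * u = u * e → u = 1)
    {H : Type u} [Group H] [Finite H] (φ : G →* MulAut H)
    (hcop : (Nat.card H).Coprime (Nat.card G)) (hsolv : Group.IsSolvable H)
    (hmin : ∀ N : Subgroup H, N.Normal → (∀ g h, h ∈ N → φ g h ∈ N) → N = ⊥ ∨ N = ⊤)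
    (hcyc : IsCyclic ↥(frobFixG φ E)) :
    ∀ u₁ ∈ U, ∀ u₂ ∈ U, ∀ h : H, φ (u₁ * u₂ * u₁⁻¹ * u₂⁻¹) h = h := by
  classical
  by_cases htriv : Subsingleton H
  · intro u₁ _ u₂ _ h
    exact Subsingleton.elim _ _
  · obtain ⟨p, hp, hpd, hcomm, hexp, hC⟩ := frob_min_structure U φ hsolv hmin htriv
    haveI : Fact p.Prime := ⟨hp⟩
    rcases hC with hC | hC
    · letI : AddCommGroup (Additive H) :=
        { (inferInstance : AddGroup (Additive H)) with
          add_comm := fun a b => hcomm a b }
      letI : Module (ZMod p) (Additive H) :=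
        AddCommGroup.zmodModule (n := p) (fun x => hexp x)
      let ρ : G →* Module.End (ZMod p) (Additive H) :=
        { toFun := fun g => AddMonoidHom.toZModLinearMap p (MonoidHom.toAdditive (φ g).toMonoidHom)
          map_one' := by
            apply LinearMap.ext
            intro v
            show Additive.ofMul (φ 1 (Additive.toMul v)) = v
            rw [map_one]; rfl
          map_mul' := fun a b => by
            apply LinearMap.ext
            intro v
            show Additive.ofMul (φ (a * b) (Additive.toMul v))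
              = Additive.ofMul (φ a (φ b (Additive.toMul v)))
            rw [map_mul]; rfl }
      have hpU : ¬ p ∣ Nat.card U := by
        intro h
        have h2 : p ∣ Nat.card G := h.trans (Subgroup.card_subgroup_dvd_card U)
        have h3 := Nat.dvd_gcd hpd h2
        rw [hcop.gcd_eq_one] at h3
        exact hp.not_dvd_one h3
      have hpE : ¬ p ∣ Nat.card E := by
        intro h
        have h2 : p ∣ Nat.card G := h.trans (Subgroup.card_subgroup_dvd_card E)
        have h3 := Nat.dvd_gcd hpd h2
        rw [hcop.gcd_eq_one] at h3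
        exact hp.not_dvd_one h3
      have hfix : ∀ v : Additive H, (∀ u ∈ U, ρ u v = v) → v = 0 := by
        intro v hv
        have h1 : Additive.toMul v ∈ frobFixG φ U := fun u hu => hv u hu
        rw [hC, Subgroup.mem_bot] at h1
        exact h1
      have c3 : Nat.card {v : Additive H // ∀ e ∈ E, ρ e v = v} = Nat.card (frobFixG φ E) :=
        Nat.card_congr (Equiv.subtypeEquiv Additive.toMul
          (fun v => ⟨fun h a ha => h a ha, fun h a ha => h a ha⟩))
      have hle : Nat.card {v : Additive H // ∀ e ∈ E, ρ e v = v} ≤ p := by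
        rw [c3, ← IsCyclic.exponent_eq_card]
        apply Nat.le_of_dvd hp.pos
        apply Monoid.exponent_dvd_of_forall_pow_eq_one
        intro g
        apply Subtype.ext
        exact hexp g
      have key := frob_zmod_comm U E hfpf hpU hpE ρ hfix hle
      intro u₁ hu₁ u₂ hu₂ h
      exact key u₁ hu₁ u₂ hu₂ (Additive.ofMul h)
    · intro u₁ hu₁ u₂ hu₂ h
      have hall : ∀ u ∈ U, ∀ x : H, φ u x = x := by
        intro u hu x
        have : x ∈ frobFixG φ U := by rw [hC]; exact Subgroup.mem_top x
        exact this u hu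
      rw [map_mul, map_mul, map_mul, MulAut.mul_apply, MulAut.mul_apply, MulAut.mul_apply,
        hall _ (U.inv_mem hu₂), hall _ (U.inv_mem hu₁), hall _ hu₂, hall _ hu₁]

theorem frob_fix_zpowers {G : Type v} [Group G] {H : Type u} [Group H] (ψ : G →* MulAut H) (c : G)
    (hc : ∀ x, ψ c x = x) : frobFixG ψ (Subgroup.zpowers c) = ⊤ := by
  rw [eq_top_iff]
  intro x _ a ha
  obtain ⟨k, rfl⟩ := Subgroup.mem_zpowers_iff.mp ha
  have h1 : ψ c = 1 := MulEquiv.ext hc
  rw [map_zpow, h1, one_zpow]
  rfl

/-- **Abstract form.**  A Frobenius group `UE` acting coprimely on a finite solvable group `H`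
with `C_H(E)` cyclic: commutators of elements of `U` act trivially. -/
theorem frob_comm_abs {G : Type v} [Group G] [Finite G] (U E : Subgroup G) [U.Normal]
    (hfpf : ∀ e ∈ E, e ≠ 1 → ∀ u ∈ U, e * u = u * e → u = 1) :
    ∀ (n : ℕ) (H : Type u) [Group H] [Finite H] (φ : G →* MulAut H), Nat.card H = n →
      (Nat.card H).Coprime (Nat.card G) → Group.IsSolvable H → IsCyclic ↥(frobFixG φ E) →
      ∀ u₁ ∈ U, ∀ u₂ ∈ U, ∀ h : H, φ (u₁ * u₂ * u₁⁻¹ * u₂⁻¹) h = h := by
  intro n
  induction n using Nat.strong_induction_on with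
  | _ n ih =>
    intro H _ _ φ hn hcop hsolv hcyc
    by_cases hex : ∃ N : Subgroup H, N.Normal ∧ (∀ g h, h ∈ N → φ g h ∈ N) ∧ N ≠ ⊥ ∧ N ≠ ⊤
    · obtain ⟨N, hNn, hN, hNbot, hNtop⟩ := hex
      haveI := hNn
      have hlt1 : Nat.card N < n := by
        rw [← hn]
        refine lt_of_le_of_ne (Subgroup.card_le_card_group N) (fun h => hNtop ?_)
        exact Subgroup.eq_top_of_card_eq N h
      have hq : Nat.card H = Nat.card (H ⧸ N) * Nat.card N :=
        Subgroup.card_eq_card_quotient_mul_card_subgroup N
      have hlt2 : Nat.card (H ⧸ N) < n := by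
        rw [← hn, hq]
        have h1 : 1 < Nat.card N := (Subgroup.one_lt_card_iff_ne_bot N).mpr hNbot
        have h0 : 0 < Nat.card (H ⧸ N) := Nat.card_pos
        nlinarith
      have hsolvN : Group.IsSolvable N := inferInstance
      have hc : ∀ A : Subgroup G, (Nat.card A).Coprime (Nat.card N) := fun A =>
        (Nat.Coprime.coprime_dvd_left (Subgroup.card_subgroup_dvd_card N)
          hcop).symm.coprime_dvd_left (Subgroup.card_subgroup_dvd_card A)
      -- cyclicity of the fixed points on `N` and on `H ⧸ N`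
      have hcycN : IsCyclic ↥(frobFixG (frobResAct φ N hN) E) := by
        let ι : ↥(frobFixG (frobResAct φ N hN) E) →* ↥(frobFixG φ E) :=
          { toFun := fun x => ⟨((x : ↥N) : H), fun a ha => congrArg Subtype.val (x.2 a ha)⟩
            map_one' := rfl
            map_mul' := fun _ _ => rfl }
        have hι : Function.Injective ι := by
          intro x y hxy
          apply Subtype.ext
          apply Subtype.ext
          exact congrArg (fun z : ↥(frobFixG φ E) => (z : H)) hxy
        exact isCyclic_of_injective ι hι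
      have hcycQ : IsCyclic ↥(frobFixG (frobQuotAct φ N hN) E) := by
        let π : ↥(frobFixG φ E) →* ↥(frobFixG (frobQuotAct φ N hN) E) :=
          { toFun := fun x => ⟨((x : H) : H ⧸ N), fun a ha => by
              show frobQuotAct φ N hN a ((x : H) : H ⧸ N) = ((x : H) : H ⧸ N)
              rw [frobQuotAct_mk, x.2 a ha]⟩
            map_one' := rfl
            map_mul' := fun _ _ => rfl }
        have hπ : Function.Surjective π := by
          intro q
          obtain ⟨h, hh, hq'⟩ := frob_fix_lift φ N hN E (hc E) hsolvN (q : H ⧸ N) q.2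
          exact ⟨⟨h, hh⟩, Subtype.ext hq'⟩
        exact isCyclic_of_surjective π hπ
      have f1 := ih _ hlt1 ↥N (frobResAct φ N hN) rfl
        (Nat.Coprime.coprime_dvd_left (Subgroup.card_subgroup_dvd_card N) hcop) inferInstance
        hcycN
      have f2 := ih _ hlt2 (H ⧸ N) (frobQuotAct φ N hN) rfl
        (Nat.Coprime.coprime_dvd_left (Subgroup.card_quotient_dvd_card N) hcop) inferInstance
        hcycQ
      intro u₁ hu₁ u₂ hu₂ h
      set c := u₁ * u₂ * u₁⁻¹ * u₂⁻¹ with hcdef
      have a1 := frob_fix_card φ N hN (Subgroup.zpowers c) (hc _) hsolvN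
      rw [frob_fix_zpowers _ c (f1 u₁ hu₁ u₂ hu₂), frob_fix_zpowers _ c (f2 u₁ hu₁ u₂ hu₂),
        Subgroup.card_top, Subgroup.card_top, mul_comm, ← hq] at a1
      have a2 := Subgroup.eq_top_of_card_eq _ a1
      have a3 : h ∈ frobFixG φ (Subgroup.zpowers c) := by rw [a2]; exact Subgroup.mem_top h
      exact a3 c (Subgroup.mem_zpowers c)
    · push Not at hex
      apply frob_comm_base U E hfpf φ hcop hsolv ?_ hcyc
      intro N hNn hN
      by_contra hcon
      push Not at hcon
      exact hcon.2 (hex N hNn hN hcon.1)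

end Cfsg.Agent.Lib.helper23
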