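import Cfsg.Agent.Lib.helper23.FrobStr4
import Cfsg.Agent.Lib.helper23.FrobFinal

set_option autoImplicit false

namespace Cfsg.Agent.Lib.helper23

open scoped BigOperators

/-- **Internal form.**  A Frobenius group `UE` acting coprimely by conjugation on a solvable
subgroup `H` with `C_H(E)` cyclic: `[U, U]` centralizes `H`. -/
theorem frob_comm_internal {X : Type*} [Group X] [Finite X] (U E H : Subgroup X)
    (hUn : ∀ e ∈ E, ∀ u ∈ U, e * u * e⁻¹ ∈ U)
    (hfpf : ∀ e ∈ E, e ≠ 1 → ∀ u ∈ U, e * u = u * e → u = 1)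
    (hHn : ∀ x ∈ U ⊔ E, ∀ h ∈ H, x * h * x⁻¹ ∈ H)
    (hsolv : Group.IsSolvable H) (hcop : Nat.Coprime (Nat.card H) (Nat.card ↥(U ⊔ E)))
    (hcyc : IsCyclic ↥(H ⊓ Subgroup.centralizer (E : Set X))) :
    ⁅U, U⁆ ≤ Subgroup.centralizer (H : Set X) := by
  classical
  have hUnorm : U ⊔ E ≤ Subgroup.normalizer (U : Set X) := by
    refine sup_le Subgroup.le_normalizer ?_
    intro e he
    rw [Subgroup.mem_normalizer_iff]
    intro u
    constructor
    · exact hUn e he u
    · intro h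
      have := hUn e⁻¹ (E.inv_mem he) _ h
      simpa [mul_assoc] using this
  haveI hU'n : (U.subgroupOf (U ⊔ E)).Normal := by
    constructor
    intro n hn g
    have h1 : (n : X) ∈ U := Subgroup.mem_subgroupOf.mp hn
    have h2 := (Subgroup.mem_normalizer_iff.mp (hUnorm g.2) (n : X)).mp h1
    exact Subgroup.mem_subgroupOf.mpr h2
  let φ : ↥(U ⊔ E) →* MulAut ↥H :=
    { toFun := fun x =>
        { toFun := fun h => ⟨(x : X) * h * (x : X)⁻¹, hHn x x.2 h h.2⟩
          invFun := fun h => ⟨(x : X)⁻¹ * h * (x : X), by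
            have := hHn (x : X)⁻¹ ((U ⊔ E).inv_mem x.2) h h.2
            simpa using this⟩
          left_inv := fun h => Subtype.ext (by
            show (x : X)⁻¹ * ((x : X) * h * (x : X)⁻¹) * (x : X) = h
            group)
          right_inv := fun h => Subtype.ext (by
            show (x : X) * ((x : X)⁻¹ * h * (x : X)) * (x : X)⁻¹ = h
            group)
          map_mul' := fun a b => Subtype.ext (by
            show (x : X) * ((a : X) * (b : X)) * (x : X)⁻¹
              = ((x : X) * a * (x : X)⁻¹) * ((x : X) * b * (x : X)⁻¹)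
            group) }
      map_one' := by
        apply MulEquiv.ext
        intro h
        apply Subtype.ext
        show ((1 : ↥(U ⊔ E)) : X) * h * ((1 : ↥(U ⊔ E)) : X)⁻¹ = h
        simp
      map_mul' := fun a b => by
        apply MulEquiv.ext
        intro h
        apply Subtype.ext
        show ((a * b : ↥(U ⊔ E)) : X) * h * ((a * b : ↥(U ⊔ E)) : X)⁻¹
          = (a : X) * ((b : X) * h * (b : X)⁻¹) * (a : X)⁻¹
        simp [mul_assoc] }
  have hφ : ∀ (x : ↥(U ⊔ E)) (h : ↥H), ((φ x h : ↥H) : X) = (x : X) * h * (x : X)⁻¹ :=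
    fun x h => rfl
  have fpf' : ∀ e ∈ E.subgroupOf (U ⊔ E), e ≠ 1 → ∀ u ∈ U.subgroupOf (U ⊔ E),
      e * u = u * e → u = 1 := by
    intro e he hne u hu hcomm
    have := hfpf (e : X) (Subgroup.mem_subgroupOf.mp he) (fun h => hne (Subtype.ext h)) (u : X)
      (Subgroup.mem_subgroupOf.mp hu) (congrArg Subtype.val hcomm)
    exact Subtype.ext this
  have hcyc' : IsCyclic ↥(frobFixG φ (E.subgroupOf (U ⊔ E))) := by
    let ι : ↥(frobFixG φ (E.subgroupOf (U ⊔ E))) →* ↥(H ⊓ Subgroup.centralizer (E : Set X)) :=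
      { toFun := fun y => ⟨((y : ↥H) : X), Subgroup.mem_inf.mpr ⟨(y : ↥H).2, by
          rw [Subgroup.mem_centralizer_iff]
          intro a ha
          have h1 := congrArg Subtype.val
            (y.2 ⟨a, Subgroup.mem_sup_right ha⟩ (Subgroup.mem_subgroupOf.mpr ha))
          rw [hφ] at h1
          exact mul_inv_eq_iff_eq_mul.mp h1⟩⟩
        map_one' := rfl
        map_mul' := fun _ _ => rfl }
    have hι : Function.Injective ι := by
      intro x y hxy
      apply Subtype.ext
      apply Subtype.ext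
      exact congrArg (fun z : ↥(H ⊓ Subgroup.centralizer (E : Set X)) => (z : X)) hxy
    exact isCyclic_of_injective ι hι
  have key := frob_comm_abs (U.subgroupOf (U ⊔ E)) (E.subgroupOf (U ⊔ E)) fpf'
    (Nat.card ↥H) ↥H φ rfl hcop hsolv hcyc'
  rw [Subgroup.commutator_le]
  intro g₁ hg₁ g₂ hg₂
  rw [Subgroup.mem_centralizer_iff]
  intro h hh
  have h1 := key ⟨g₁, Subgroup.mem_sup_left hg₁⟩ (Subgroup.mem_subgroupOf.mpr hg₁)
    ⟨g₂, Subgroup.mem_sup_left hg₂⟩ (Subgroup.mem_subgroupOf.mpr hg₂) ⟨h, hh⟩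
  have h2 := congrArg Subtype.val h1
  rw [hφ] at h2
  have h3 : (g₁ * g₂ * g₁⁻¹ * g₂⁻¹) * h * (g₁ * g₂ * g₁⁻¹ * g₂⁻¹)⁻¹ = h := h2
  rw [commutatorElement_def]
  exact (mul_inv_eq_iff_eq_mul.mp h3).symm

end Cfsg.Agent.Lib.helper23
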