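import Cfsg.Agent.Lib.helper23.FrobMod

set_option autoImplicit false

namespace Cfsg.Agent.Lib.helper23

open scoped BigOperators

/-- The contragredient-type action on `Hom(V, K)`. -/
noncomputable def frobHomRep {F K : Type*} [Field F] [Field K] [Algebra F K] {G : Type*} [Group G]
    {V : Type*} [AddCommGroup V] [Module F V] (ρ : G →* Module.End F V) :
    G →* Module.End K (V →ₗ[F] K) where
  toFun g :=
    { toFun := fun φ => φ.comp (ρ g⁻¹)
      map_add' := fun φ ψ => LinearMap.add_comp _ _ _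
      map_smul' := fun a φ => LinearMap.smul_comp _ _ _ }
  map_one' := by
    ext φ v
    simp
  map_mul' g h := by
    ext φ v
    simp [mul_inv_rev, map_mul]

theorem frobHomRep_apply {F K : Type*} [Field F] [Field K] [Algebra F K] {G : Type*} [Group G]
    {V : Type*} [AddCommGroup V] [Module F V] (ρ : G →* Module.End F V) (g : G)
    (φ : V →ₗ[F] K) (v : V) : frobHomRep (K := K) ρ g φ v = φ (ρ g⁻¹ v) := rfl

/-- Fixed points of a subgroup with invertible order: dimension is preserved by passing to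
`Hom(V, K)`. -/
theorem frob_fix_descent {F K : Type*} [Field F] [Field K] [Algebra F K] {G : Type*} [Group G]
    (E : Subgroup G) [Finite E] (hE : (Nat.card E : F) ≠ 0)
    {V : Type*} [AddCommGroup V] [Module F V] [Module.Finite F V] (ρ : G →* Module.End F V) :
    Module.finrank K (frobFix ((frobHomRep (K := K) ρ).comp E.subtype))
      = Module.finrank F (frobFix (ρ.comp E.subtype)) := by
  classical
  haveI : Fintype ↥E := Fintype.ofFinite _
  have hE' : (Fintype.card ↥E : F) ≠ 0 := by rw [← Nat.card_eq_fintype_card]; exact hE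
  set FixV : Submodule F V := frobFix (ρ.comp E.subtype) with hFixV
  set FixM : Submodule K (V →ₗ[F] K) := frobFix ((frobHomRep (K := K) ρ).comp E.subtype)
    with hFixM
  let S : Module.End F V := ∑ e : ↥E, ρ (e : G)
  let π : Module.End F V := (Fintype.card ↥E : F)⁻¹ • S
  have hS1 : ∀ (e' : ↥E) (v : V), ρ (e' : G) (S v) = S v := by
    intro e' v
    show ρ (e' : G) ((∑ e : ↥E, ρ (e : G)) v) = (∑ e : ↥E, ρ (e : G)) v
    rw [LinearMap.sum_apply, map_sum]
    calc ∑ e : ↥E, ρ (e' : G) (ρ (e : G) v) = ∑ e : ↥E, ρ ((e' * e : ↥E) : G) v :=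
          Finset.sum_congr rfl fun e _ => by
            rw [← Module.End.mul_apply, ← map_mul]; rfl
      _ = ∑ e : ↥E, ρ (e : G) v := Fintype.sum_equiv (Equiv.mulLeft e') _ _ (fun e => rfl)
  have hS2 : ∀ (e' : ↥E) (v : V), S (ρ (e' : G) v) = S v := by
    intro e' v
    show (∑ e : ↥E, ρ (e : G)) (ρ (e' : G) v) = (∑ e : ↥E, ρ (e : G)) v
    rw [LinearMap.sum_apply, LinearMap.sum_apply]
    calc ∑ e : ↥E, ρ (e : G) (ρ (e' : G) v) = ∑ e : ↥E, ρ ((e * e' : ↥E) : G) v :=
          Finset.sum_congr rfl fun e _ => by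
            rw [← Module.End.mul_apply, ← map_mul]; rfl
      _ = ∑ e : ↥E, ρ (e : G) v := Fintype.sum_equiv (Equiv.mulRight e') _ _ (fun e => rfl)
  have hπ1 : ∀ v, π v ∈ FixV := by
    intro v e'
    show ρ (e' : G) ((Fintype.card ↥E : F)⁻¹ • S v) = (Fintype.card ↥E : F)⁻¹ • S v
    rw [map_smul, hS1]
  have hπ2 : ∀ v, v ∈ FixV → π v = v := by
    intro v hv
    show (Fintype.card ↥E : F)⁻¹ • (∑ e : ↥E, ρ (e : G)) v = v
    rw [LinearMap.sum_apply]
    have : ∀ e ∈ (Finset.univ : Finset ↥E), ρ (e : G) v = v := fun e _ => hv e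
    rw [Finset.sum_congr rfl this, Finset.sum_const, Finset.card_univ, ← Nat.cast_smul_eq_nsmul F,
      smul_smul, inv_mul_cancel₀ hE', one_smul]
  have hπ4 : ∀ (e' : ↥E) (v : V), π (ρ (e' : G) v) = π v := by
    intro e' v
    show (Fintype.card ↥E : F)⁻¹ • S (ρ (e' : G) v) = (Fintype.card ↥E : F)⁻¹ • S v
    rw [hS2]
  have hφ : ∀ φ : V →ₗ[F] K, φ ∈ FixM → ∀ (e : ↥E) (v : V), φ (ρ (e : G) v) = φ v := by
    intro φ hφ e v
    have h1 := congrArg (fun ψ : V →ₗ[F] K => ψ v) (hφ e⁻¹)
    simp only [MonoidHom.comp_apply, Subgroup.coe_subtype, frobHomRep_apply, Subgroup.coe_inv,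
      inv_inv] at h1
    exact h1
  have hπ3 : ∀ φ : V →ₗ[F] K, φ ∈ FixM → ∀ v, φ (π v) = φ v := by
    intro φ hφ' v
    show φ ((Fintype.card ↥E : F)⁻¹ • (∑ e : ↥E, ρ (e : G)) v) = φ v
    rw [LinearMap.sum_apply, map_smul, map_sum]
    have : ∀ e ∈ (Finset.univ : Finset ↥E), φ (ρ (e : G) v) = φ v := fun e _ => hφ φ hφ' e v
    rw [Finset.sum_congr rfl this, Finset.sum_const, Finset.card_univ, ← Nat.cast_smul_eq_nsmul F,
      smul_smul, inv_mul_cancel₀ hE', one_smul]
  let Res : FixM →ₗ[K] (FixV →ₗ[F] K) :=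
    { toFun := fun φ => (φ : V →ₗ[F] K).comp FixV.subtype
      map_add' := fun φ ψ => LinearMap.add_comp _ _ _
      map_smul' := fun a φ => LinearMap.smul_comp _ _ _ }
  have hRes : Function.Injective Res := by
    rw [injective_iff_map_eq_zero]
    intro φ h
    apply Subtype.ext
    apply LinearMap.ext
    intro v
    have h1 := congrArg (fun ψ : FixV →ₗ[F] K => ψ ⟨π v, hπ1 v⟩) h
    have h2 : (φ : V →ₗ[F] K) (π v) = 0 := h1
    rw [hπ3 _ φ.2] at h2
    exact h2
  let πc : V →ₗ[F] FixV := LinearMap.codRestrict FixV π hπ1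
  let Ext : (FixV →ₗ[F] K) →ₗ[K] FixM :=
    { toFun := fun ψ => ⟨ψ.comp πc, by
        intro e
        apply LinearMap.ext
        intro v
        show ψ (πc (ρ ((e : G))⁻¹ v)) = ψ (πc v)
        congr 1
        apply Subtype.ext
        exact hπ4 e⁻¹ v⟩
      map_add' := fun φ ψ => Subtype.ext (LinearMap.add_comp _ _ _)
      map_smul' := fun a φ => Subtype.ext (LinearMap.smul_comp _ _ _) }
  have hExt : Function.Injective Ext := by
    rw [injective_iff_map_eq_zero]
    intro ψ h
    apply LinearMap.ext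
    intro w
    have h1 := congrArg (fun χ : FixM => (χ : V →ₗ[F] K) (w : V)) h
    have h2 : ψ (πc (w : V)) = 0 := h1
    have h3 : πc (w : V) = w := Subtype.ext (hπ2 w w.2)
    rw [h3] at h2
    exact h2
  have e1 : Module.finrank K (FixV →ₗ[F] K) = Module.finrank F FixV :=
    Module.finrank_linearMap_self F K FixV
  rw [← e1]
  exact le_antisymm (LinearMap.finrank_le_finrank_of_injective hRes)
    (LinearMap.finrank_le_finrank_of_injective hExt)

end Cfsg.Agent.Lib.helper23
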