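import Cfsg.Agent.Lib.helper23.GalConj

set_option autoImplicit false

namespace Cfsg.Agent.Lib.helper23

open Cfsg Cfsg.Agent.Lib.helper24

universe u

variable {G : Type u} [Group G]

theorem galois_twist_coprime_part [Finite G] (a b k : ℕ) (hab : Nat.card G = a * b)
    (hcop : Nat.Coprime a b) (hk : Nat.Coprime k a) (χ : G → ℂ) (hχ : IsCharacter G χ) :
    ∃ χ' : G → ℂ, IsCharacter G χ' ∧ (IsIrrCharacter G χ → IsIrrCharacter G χ') ∧
      (∀ g : G, orderOf g ∣ a → χ' g = χ (g ^ k)) ∧
      (∀ g : G, Nat.Coprime (orderOf g) a → χ' g = χ g) := by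
  obtain ⟨m, hm1, hm2⟩ := Nat.chineseRemainder hcop k 1
  have hma : Nat.Coprime m a := by
    have := hm1.gcd_eq
    unfold Nat.Coprime
    rw [this]
    exact hk
  have hmb : Nat.Coprime m b := by
    have := hm2.gcd_eq
    unfold Nat.Coprime
    rw [this]
    exact Nat.gcd_one_left b
  have hmG : m.Coprime (Nat.card G) := by
    rw [hab]
    exact Nat.Coprime.mul_right hma hmb
  refine ⟨fun g => χ (g ^ m), isCharacter_pow_coprime hχ m hmG,
    fun h => isIrrCharacter_pow_coprime h m hmG, ?_, ?_⟩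
  · intro g hg
    have : g ^ m = g ^ k := pow_eq_pow_iff_modEq.mpr (hm1.of_dvd hg)
    simp only [this]
  · intro g hg
    have hdvd : orderOf g ∣ b := by
      have h1 : orderOf g ∣ a * b := hab ▸ orderOf_dvd_natCard g
      exact hg.dvd_of_dvd_mul_left h1
    have : g ^ m = g := by
      have h2 : g ^ m = g ^ 1 := pow_eq_pow_iff_modEq.mpr (hm2.of_dvd hdvd)
      rwa [pow_one] at h2
    simp only [this]

end Cfsg.Agent.Lib.helper23
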