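import Mathlib
import Cfsg.Agent.Lib.helper23.Ito
import Cfsg.Agent.Lib.helper24.CharMisc
import Cfsg.Agent.Lib.helper24.CharComplete

set_option autoImplicit false

/-!
# Subdegrees and degrees of constituents of a transitive permutation character

The trace of the orbital "Hecke operator" on a representation is an algebraic integer; this gives
the theorem of Frame that a common divisor of the degrees of the non-principal constituents of a
transitive permutation character divides every non-trivial subdegree.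
-/

namespace Cfsg.Agent.Lib.helper23

open Cfsg MulAction Cfsg.Agent.Lib.helper24
open scoped ComplexConjugate

universe u v w

theorem isIntegral_trace_of_isIntegral {W : Type*} [AddCommGroup W] [Module ℂ W]
    [FiniteDimensional ℂ W] (A : Module.End ℂ W) (hA : IsIntegral ℤ A) :
    IsIntegral ℤ (LinearMap.trace ℂ W A) := by
  rw [Module.End.trace_eq_sum_roots_charpoly_of_splits (IsAlgClosed.splits _)]
  apply IsIntegral.multiset_sum
  intro μ hμ
  have hroot : A.charpoly.IsRoot μ := (Polynomial.mem_roots'.mp hμ).2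
  rw [← Module.End.hasEigenvalue_iff_isRoot_charpoly] at hroot
  obtain ⟨v, hv⟩ := hroot.exists_hasEigenvector
  obtain ⟨p, hp, hpA⟩ := hA
  refine ⟨p, hp, ?_⟩
  have h1 := Module.End.aeval_apply_of_hasEigenvector (p := p.map (algebraMap ℤ ℂ)) hv
  rw [Polynomial.aeval_map_algebraMap] at h1
  have h2 : Polynomial.aeval A p = 0 := hpA
  rw [h2, LinearMap.zero_apply] at h1
  rcases smul_eq_zero.mp h1.symm with h | h
  · rwa [Polynomial.eval_map] at h
  · exact absurd h hv.2

section Subdegree

variable {G : Type u} [Group G] [Fintype G] {Ω : Type v} [Fintype Ω] [MulAction G Ω]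

open Classical in
/-- The set of group elements moving `a` into the `G_a`-orbit of `b`. -/
noncomputable def subD (G : Type u) [Group G] [Fintype G] {Ω : Type v} [MulAction G Ω]
    (a b : Ω) : Finset G :=
  Finset.univ.filter (fun s : G => s • a ∈ MulAction.orbit (MulAction.stabilizer G a) b)

omit [Fintype Ω] in
theorem mem_subD {a b : Ω} {s : G} :
    s ∈ subD G a b ↔ s • a ∈ MulAction.orbit (MulAction.stabilizer G a) b := by
  unfold subD
  simp

omit [Fintype Ω] in
theorem one_not_mem_subD {a b : Ω} (hab : b ≠ a) : (1 : G) ∉ subD G a b := by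
  rw [mem_subD, one_smul]
  rintro ⟨t, ht⟩
  apply hab
  have h1 : (t : G) • b = a := ht
  have h2 : (t : G) • a = a := t.2
  exact smul_left_cancel _ (h1.trans h2.symm)

omit [Fintype Ω] in
theorem mul_mem_subD {a b : Ω} {s t : G} (ht : t • a = a) (hs : s ∈ subD G a b) :
    t * s ∈ subD G a b := by
  rw [mem_subD] at hs ⊢
  obtain ⟨u, hu⟩ := hs
  refine ⟨⟨t, ht⟩ * u, ?_⟩
  have h1 : (u : G) • b = s • a := hu
  change (t * (u : G)) • b = (t * s) • a
  rw [mul_smul, mul_smul, h1]

omit [Fintype Ω] in
theorem card_filter_smul_eq [MulAction.IsPretransitive G Ω] [DecidableEq Ω] (a y : Ω) :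
    (Finset.univ.filter (fun s : G => s • a = y)).card = Nat.card (MulAction.stabilizer G a) := by
  classical
  obtain ⟨h, rfl⟩ := MulAction.exists_smul_eq G a y
  have h1 : (Finset.univ.filter (fun s : G => s • a = h • a)).card
      = Nat.card {s : G // s • a = h • a} := by
    rw [Nat.card_eq_fintype_card, Fintype.card_subtype]
  rw [h1]
  apply Nat.card_congr
  exact
    { toFun := fun s => ⟨h⁻¹ * s.1, by
        rw [MulAction.mem_stabilizer_iff, mul_smul, s.2, inv_smul_smul]⟩
      invFun := fun t => ⟨h * t.1, by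
        rw [mul_smul, MulAction.mem_stabilizer_iff.mp t.2]⟩
      left_inv := fun s => by simp
      right_inv := fun t => by simp }

theorem sum_subD [MulAction.IsPretransitive G Ω] {M : Type*} [AddCommMonoid M] (a b : Ω)
    (F : Ω → M) [DecidablePred (fun y : Ω => y ∈ MulAction.orbit (MulAction.stabilizer G a) b)] :
    ∑ s ∈ subD G a b, F (s • a) = Nat.card (MulAction.stabilizer G a) •
      ∑ y : Ω, (if y ∈ MulAction.orbit (MulAction.stabilizer G a) b then F y else 0) := by
  classical
  unfold subD
  rw [Finset.sum_filter]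
  rw [← Finset.sum_fiberwise (s := Finset.univ) (g := fun s : G => s • a)]
  rw [Finset.smul_sum]
  refine Finset.sum_congr rfl fun y _ => ?_
  rw [← card_filter_smul_eq (G := G) a y, ← Finset.sum_const]
  refine Finset.sum_congr rfl fun s hs => ?_
  rw [Finset.mem_filter] at hs
  simp only [hs.2]

theorem card_subD [MulAction.IsPretransitive G Ω] (a b : Ω) :
    (subD G a b).card = Nat.card (MulAction.stabilizer G a)
      * Nat.card (MulAction.orbit (MulAction.stabilizer G a) b) := by
  classical
  have h := sum_subD (G := G) a b (fun _ : Ω => (1 : ℕ))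
  rw [Finset.sum_const, smul_eq_mul, mul_one, smul_eq_mul] at h
  rw [h]
  congr 1
  rw [Nat.card_eq_fintype_card, Fintype.card_subtype, Finset.card_filter]

theorem sum_fixed_mul [MulAction.IsPretransitive G Ω] (a : Ω) (c : G → ℂ)
    (hc : ∀ g h : G, c (h * g * h⁻¹) = c g) [DecidableEq Ω] :
    ∑ g : G, (Nat.card (MulAction.fixedBy Ω g) : ℂ) * c g
      = (Fintype.card Ω : ℂ) * ∑ g : G, (if g • a = a then c g else 0) := by
  classical
  have h1 : ∀ g : G, (Nat.card (MulAction.fixedBy Ω g) : ℂ)
      = ∑ x : Ω, (if g • x = x then (1 : ℂ) else 0) := by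
    intro g
    rw [Nat.card_eq_fintype_card, Fintype.card_subtype, Finset.card_filter]
    push_cast
    rfl
  simp_rw [h1, Finset.sum_mul]
  rw [Finset.sum_comm]
  have h2 : ∀ x : Ω, ∑ g : G, (if g • x = x then (1 : ℂ) else 0) * c g
      = ∑ g : G, (if g • a = a then c g else 0) := by
    intro x
    obtain ⟨h, rfl⟩ := MulAction.exists_smul_eq G a x
    rw [← Equiv.sum_comp (MulAut.conj h).toEquiv]
    refine Finset.sum_congr rfl fun g _ => ?_
    have h3 : ((MulAut.conj h).toEquiv g) • h • a = h • a ↔ g • a = a := by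
      change (h * g * h⁻¹) • h • a = h • a ↔ g • a = a
      rw [← mul_smul, inv_mul_cancel_right, mul_smul]
      exact smul_left_cancel_iff h
    have h6 : c ((MulAut.conj h).toEquiv g) = c g := hc g h
    rw [h6]
    by_cases h4 : g • a = a
    · rw [if_pos h4, if_pos (h3.mpr h4), one_mul]
    · rw [if_neg h4, if_neg (fun h5 => h4 (h3.mp h5)), zero_mul]
  simp_rw [h2]
  rw [Finset.sum_const, Finset.card_univ, nsmul_eq_mul]

section Hecke

variable {V : Type w} [AddCommGroup V] [Module ℂ V]

open Classical in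
/-- The orbital matrix of the orbital containing `(a, b)`, with integer entries. -/
noncomputable def orbMatZ (G : Type u) [Group G] {Ω : Type v} [MulAction G Ω] (a b : Ω) :
    Matrix Ω Ω ℤ :=
  fun x z => if ∃ h : G, h • a = x ∧ h • b = z then 1 else 0

omit [Fintype G] [Fintype Ω] in
theorem orbMatZ_smul (a b : Ω) (g : G) (y : Ω)
    [Decidable (y ∈ MulAction.orbit (MulAction.stabilizer G a) b)] :
    orbMatZ G a b (g • a) (g • y)
      = if y ∈ MulAction.orbit (MulAction.stabilizer G a) b then 1 else 0 := by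
  unfold orbMatZ
  have h1 : (∃ h : G, h • a = g • a ∧ h • b = g • y)
      ↔ y ∈ MulAction.orbit (MulAction.stabilizer G a) b := by
    constructor
    · rintro ⟨h, h1, h2⟩
      refine ⟨⟨g⁻¹ * h, ?_⟩, ?_⟩
      · rw [MulAction.mem_stabilizer_iff, mul_smul, h1, inv_smul_smul]
      · change (g⁻¹ * h) • b = y
        rw [mul_smul, h2, inv_smul_smul]
    · rintro ⟨t, ht⟩
      have h1 : (t : G) • b = y := ht
      have h2 : (t : G) • a = a := t.2
      refine ⟨g * t, ?_, ?_⟩
      · rw [mul_smul, h2]
      · rw [mul_smul, h1]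
  by_cases hy : y ∈ MulAction.orbit (MulAction.stabilizer G a) b
  · rw [if_pos hy, if_pos (h1.mpr hy)]
  · rw [if_neg hy, if_neg (fun h => hy (h1.mp h))]

/-- The linear map `M ↦ ∑ g, M (g • a) a • ρ g`. -/
noncomputable def heckeL (ρ : Representation ℂ G V) (a : Ω) :
    Matrix Ω Ω ℂ →ₗ[ℂ] Module.End ℂ V where
  toFun M := ∑ g : G, M (g • a) a • ρ g
  map_add' M N := by
    simp only [Matrix.add_apply, add_smul, Finset.sum_add_distrib]
  map_smul' c M := by
    simp only [Matrix.smul_apply, smul_eq_mul, mul_smul, Finset.smul_sum, RingHom.id_apply]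

omit [Fintype Ω] in
theorem heckeL_apply (ρ : Representation ℂ G V) (a : Ω) (M : Matrix Ω Ω ℂ) :
    heckeL ρ a M = ∑ g : G, M (g • a) a • ρ g := rfl

/-- The normalized Hecke operator of the suborbit of `b`. -/
noncomputable def heckeTheta (ρ : Representation ℂ G V) (a b : Ω) : Module.End ℂ V :=
  (Nat.card (MulAction.stabilizer G a) : ℂ)⁻¹ • ∑ s ∈ subD G a b, ρ s⁻¹

omit [Fintype Ω] in
theorem card_stab_ne_zero (a : Ω) : (Nat.card (MulAction.stabilizer G a) : ℂ) ≠ 0 := by
  exact_mod_cast (Nat.card_pos (α := MulAction.stabilizer G a)).ne'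

theorem heckeL_mul [MulAction.IsPretransitive G Ω] (ρ : Representation ℂ G V) (a b : Ω)
    (M : Matrix Ω Ω ℂ) :
    heckeL ρ a ((orbMatZ G a b).map (Int.cast : ℤ → ℂ) * M) = heckeL ρ a M * heckeTheta ρ a b := by
  classical
  have hT0 := card_stab_ne_zero (G := G) a
  rw [heckeL_apply, heckeL_apply]
  unfold heckeTheta
  rw [mul_smul_comm, Finset.sum_mul_sum, Finset.sum_comm]
  have h1 : ∀ s : G, ∑ g : G, M (g • a) a • ρ g * ρ s⁻¹ = ∑ g : G, M (g • s • a) a • ρ g := by
    intro s
    rw [← Equiv.sum_comp (Equiv.mulRight s)]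
    refine Finset.sum_congr rfl fun g _ => ?_
    simp only [Equiv.coe_mulRight]
    rw [smul_mul_assoc, ← map_mul, mul_inv_cancel_right, mul_smul]
  simp_rw [h1]
  rw [Finset.sum_comm, Finset.smul_sum]
  refine Finset.sum_congr rfl fun g _ => ?_
  rw [← Finset.sum_smul, sum_subD a b (fun y => M (g • y) a), ← smul_assoc]
  congr 1
  rw [Matrix.mul_apply, ← Equiv.sum_comp (MulAction.toPerm g : Equiv.Perm Ω)]
  rw [nsmul_eq_mul, smul_eq_mul, ← mul_assoc, inv_mul_cancel₀ hT0, one_mul]
  refine Finset.sum_congr rfl fun y _ => ?_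
  simp only [MulAction.toPerm_apply, Matrix.map_apply]
  rw [orbMatZ_smul a b g y]
  by_cases hy : y ∈ MulAction.orbit (MulAction.stabilizer G a) b
  · rw [if_pos hy, if_pos hy, Int.cast_one, one_mul]
  · rw [if_neg hy, if_neg hy, Int.cast_zero, zero_mul]

theorem heckeL_pow [MulAction.IsPretransitive G Ω] (ρ : Representation ℂ G V) (a b : Ω)
    [DecidableEq Ω] (n : ℕ) :
    heckeL ρ a (((orbMatZ G a b).map (Int.cast : ℤ → ℂ)) ^ n)
      = heckeL ρ a 1 * heckeTheta ρ a b ^ n := by
  induction n with
  | zero => rw [pow_zero, pow_zero, mul_one]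
  | succ n ih => rw [pow_succ', heckeL_mul, ih, pow_succ, mul_assoc]

theorem heckeL_aeval [MulAction.IsPretransitive G Ω] (ρ : Representation ℂ G V) (a b : Ω)
    [DecidableEq Ω] (q : Polynomial ℤ) :
    heckeL ρ a (Polynomial.aeval ((orbMatZ G a b).map (Int.cast : ℤ → ℂ)) q)
      = heckeL ρ a 1 * Polynomial.aeval (heckeTheta ρ a b) q := by
  induction q using Polynomial.induction_on' with
  | add p r hp hr => rw [map_add, map_add, map_add, mul_add, hp, hr]
  | monomial n c =>
    rw [Polynomial.aeval_monomial, Polynomial.aeval_monomial, eq_intCast, eq_intCast,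
      ← zsmul_eq_mul, ← zsmul_eq_mul, map_zsmul, heckeL_pow, mul_smul_comm]

theorem theta_mul_heckeL_one [MulAction.IsPretransitive G Ω] (ρ : Representation ℂ G V)
    (a b : Ω) [DecidableEq Ω] :
    heckeTheta ρ a b * heckeL ρ a 1
      = (Nat.card (MulAction.stabilizer G a) : ℂ) • heckeTheta ρ a b := by
  classical
  unfold heckeTheta
  rw [heckeL_apply, smul_mul_assoc, smul_comm]
  congr 1
  rw [Finset.mul_sum]
  have h1 : ∀ g : G, (∑ s ∈ subD G a b, ρ s⁻¹) * ((1 : Matrix Ω Ω ℂ) (g • a) a • ρ g)
      = (1 : Matrix Ω Ω ℂ) (g • a) a • ∑ s ∈ subD G a b, ρ s⁻¹ := by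
    intro g
    rw [Matrix.one_apply]
    by_cases hg : g • a = a
    · rw [if_pos hg, one_smul, one_smul, Finset.sum_mul]
      have hg' : g⁻¹ • a = a := by
        rw [inv_smul_eq_iff, hg]
      refine Finset.sum_equiv (Equiv.mulLeft g⁻¹) ?_ ?_
      · intro s
        simp only [Equiv.coe_mulLeft]
        constructor
        · intro hs
          exact mul_mem_subD hg' hs
        · intro hs
          have := mul_mem_subD hg hs
          rwa [mul_inv_cancel_left] at this
      · intro s _
        simp only [Equiv.coe_mulLeft]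
        rw [mul_inv_rev, inv_inv, map_mul]
    · rw [if_neg hg, zero_smul, zero_smul, mul_zero]
  simp_rw [h1]
  rw [← Finset.sum_smul]
  congr 1
  have h2 : ∀ g : G, (1 : Matrix Ω Ω ℂ) (g • a) a = if g • a = a then 1 else 0 := by
    intro g
    rw [Matrix.one_apply]
  simp_rw [h2]
  rw [Finset.sum_boole, card_filter_smul_eq]

theorem heckeL_one_eq_zero [MulAction.IsPretransitive G Ω] [FiniteDimensional ℂ V]
    (ρ : Representation ℂ G V) (a : Ω) [DecidableEq Ω]
    (h0 : ∑ g : G, (if g • a = a then ρ.character g else 0) = 0) :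
    heckeL ρ a 1 = 0 := by
  classical
  have hT0 := card_stab_ne_zero (G := G) a
  have hE : heckeL ρ a 1 = ∑ g : G, if g • a = a then ρ g else 0 := by
    rw [heckeL_apply]
    refine Finset.sum_congr rfl fun g _ => ?_
    rw [Matrix.one_apply]
    by_cases hg : g • a = a
    · rw [if_pos hg, if_pos hg, one_smul]
    · rw [if_neg hg, if_neg hg, zero_smul]
  have hEE : heckeL ρ a 1 * heckeL ρ a 1
      = (Nat.card (MulAction.stabilizer G a) : ℂ) • heckeL ρ a 1 := by
    have h1 : ∀ g : G, (if g • a = a then ρ g else 0) * heckeL ρ a 1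
        = (if g • a = a then (1 : ℂ) else 0) • heckeL ρ a 1 := by
      intro g
      by_cases hg : g • a = a
      · rw [if_pos hg, if_pos hg, one_smul, hE, Finset.mul_sum]
        rw [← Equiv.sum_comp (Equiv.mulLeft g⁻¹)]
        refine Finset.sum_congr rfl fun x _ => ?_
        have hx : ((Equiv.mulLeft g⁻¹) x) • a = a ↔ x • a = a := by
          change (g⁻¹ * x) • a = a ↔ x • a = a
          rw [mul_smul, inv_smul_eq_iff, hg]
        by_cases hx' : x • a = a
        · rw [if_pos hx', if_pos (hx.mpr hx')]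
          change ρ g * ρ (g⁻¹ * x) = ρ x
          rw [← map_mul, mul_inv_cancel_left]
        · rw [if_neg hx', if_neg (fun h => hx' (hx.mp h)), mul_zero]
      · rw [if_neg hg, if_neg hg, zero_smul, zero_mul]
    calc heckeL ρ a 1 * heckeL ρ a 1
        = (∑ g : G, if g • a = a then ρ g else 0) * heckeL ρ a 1 := by rw [← hE]
      _ = ∑ g : G, (if g • a = a then (1 : ℂ) else 0) • heckeL ρ a 1 := by
          rw [Finset.sum_mul]
          exact Finset.sum_congr rfl fun g _ => h1 g
      _ = _ := by rw [← Finset.sum_smul, Finset.sum_boole, card_filter_smul_eq]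
  have hidem : IsIdempotentElem
      ((Nat.card (MulAction.stabilizer G a) : ℂ)⁻¹ • heckeL ρ a 1) := by
    unfold IsIdempotentElem
    rw [smul_mul_smul_comm, hEE, smul_smul, mul_assoc, inv_mul_cancel₀ hT0, mul_one]
  have htr : LinearMap.trace ℂ V ((Nat.card (MulAction.stabilizer G a) : ℂ)⁻¹ • heckeL ρ a 1)
      = 0 := by
    rw [map_smul, hE, map_sum]
    have h2 : ∀ g : G, LinearMap.trace ℂ V (if g • a = a then ρ g else 0)
        = if g • a = a then ρ.character g else 0 := by
      intro g
      by_cases hg : g • a = a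
      · rw [if_pos hg, if_pos hg]
        rfl
      · rw [if_neg hg, if_neg hg, map_zero]
    simp_rw [h2]
    rw [h0, smul_zero]
  have h3 := (LinearMap.IsIdempotentElem.trace_eq_zero_iff hidem).mp htr
  rcases smul_eq_zero.mp h3 with h | h
  · exact absurd (inv_eq_zero.mp h) hT0
  · exact h

theorem trace_heckeTheta [FiniteDimensional ℂ V] (ρ : Representation ℂ G V) (a b : Ω) :
    LinearMap.trace ℂ V (heckeTheta ρ a b)
      = (Nat.card (MulAction.stabilizer G a) : ℂ)⁻¹ * ∑ s ∈ subD G a b, ρ.character s⁻¹ := by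
  unfold heckeTheta
  rw [map_smul, map_sum, smul_eq_mul]
  rfl

/-- The normalized sum of a character over the inverses of the elements moving `a` into the
suborbit of `b` is an algebraic integer. -/
theorem isIntegral_subD_character [MulAction.IsPretransitive G Ω] [FiniteDimensional ℂ V]
    (ρ : Representation ℂ G V) (a b : Ω) :
    IsIntegral ℤ ((Nat.card (MulAction.stabilizer G a) : ℂ)⁻¹
      * ∑ s ∈ subD G a b, ρ.character s⁻¹) := by
  classical
  have hT0 := card_stab_ne_zero (G := G) a
  rw [← trace_heckeTheta]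
  apply isIntegral_trace_of_isIntegral
  refine ⟨Polynomial.X * (orbMatZ G a b).charpoly,
    Polynomial.monic_X.mul (Matrix.charpoly_monic _), ?_⟩
  change Polynomial.aeval (heckeTheta ρ a b) (Polynomial.X * (orbMatZ G a b).charpoly) = 0
  rw [map_mul, Polynomial.aeval_X]
  have hq0 : Polynomial.aeval ((orbMatZ G a b).map (Int.cast : ℤ → ℂ)) (orbMatZ G a b).charpoly
      = 0 := by
    have h1 := Polynomial.aeval_algHom_apply
      ((Int.castRingHom ℂ).mapMatrix (m := Ω)).toIntAlgHom (orbMatZ G a b) (orbMatZ G a b).charpoly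
    rw [Matrix.aeval_self_charpoly, map_zero] at h1
    exact h1
  have h1 : heckeL ρ a 1 * Polynomial.aeval (heckeTheta ρ a b) (orbMatZ G a b).charpoly = 0 := by
    rw [← heckeL_aeval, hq0, map_zero]
  have h3 : heckeTheta ρ a b * Polynomial.aeval (heckeTheta ρ a b) (orbMatZ G a b).charpoly
      = (Nat.card (MulAction.stabilizer G a) : ℂ)⁻¹ • (heckeTheta ρ a b * (heckeL ρ a 1
        * Polynomial.aeval (heckeTheta ρ a b) (orbMatZ G a b).charpoly)) := by
    rw [← mul_assoc, theta_mul_heckeL_one, smul_mul_assoc, smul_smul, inv_mul_cancel₀ hT0,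
      one_smul]
  rw [h3, h1, mul_zero, smul_zero]

/-- If the permutation character has no constituent in common with the character of `ρ`, the
sum of the character over `subD` vanishes. -/
theorem subD_character_eq_zero [MulAction.IsPretransitive G Ω] [FiniteDimensional ℂ V]
    (ρ : Representation ℂ G V) (a b : Ω)
    (h0 : classInner (fun g : G => (Nat.card (MulAction.fixedBy Ω g) : ℂ)) ρ.character = 0) :
    ∑ s ∈ subD G a b, ρ.character s⁻¹ = 0 := by
  classical
  have hT0 := card_stab_ne_zero (G := G) a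
  have hG0 : (Nat.card G : ℂ) ≠ 0 := by exact_mod_cast (Nat.card_pos (α := G)).ne'
  have hΩ0 : (Fintype.card Ω : ℂ) ≠ 0 := by
    have : 0 < Fintype.card Ω := Fintype.card_pos_iff.mpr ⟨a⟩
    exact_mod_cast this.ne'
  unfold classInner at h0
  have h1 : ∑ g : G, (Nat.card (MulAction.fixedBy Ω g) : ℂ) * conj (ρ.character g) = 0 := by
    rcases mul_eq_zero.mp h0 with h | h
    · exact absurd (inv_eq_zero.mp h) hG0
    · exact h
  rw [sum_fixed_mul a (fun g => conj (ρ.character g))] at h1
  · have h2 : ∑ g : G, (if g • a = a then conj (ρ.character g) else 0) = 0 := by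
      rcases mul_eq_zero.mp h1 with h | h
      · exact absurd h hΩ0
      · exact h
    have h3 : ∑ g : G, (if g • a = a then ρ.character g else 0) = 0 := by
      have h4 := congrArg conj h2
      rw [map_sum, map_zero] at h4
      have h5 : ∑ g : G, (if g • a = a then ρ.character g else 0)
          = ∑ x : G, conj (if x • a = a then conj (ρ.character x) else 0) := by
        refine Finset.sum_congr rfl fun g _ => ?_
        by_cases hg : g • a = a
        · rw [if_pos hg, if_pos hg, Complex.conj_conj]
        · rw [if_neg hg, if_neg hg, map_zero]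
      rw [h5, h4]
    have hE := heckeL_one_eq_zero ρ a h3
    have h5 : heckeTheta ρ a b = 0 := by
      have h6 := theta_mul_heckeL_one ρ a b
      rw [hE, mul_zero] at h6
      rcases smul_eq_zero.mp h6.symm with h | h
      · exact absurd h hT0
      · exact h
    have h7 := trace_heckeTheta ρ a b
    rw [h5, map_zero] at h7
    rcases mul_eq_zero.mp h7.symm with h | h
    · exact absurd (inv_eq_zero.mp h) hT0
    · exact h
  · intro g h
    change conj (ρ.character (h * g * h⁻¹)) = conj (ρ.character g)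
    rw [Representation.char_conj]

end Hecke

/-- Frame's theorem: a common divisor of the degrees of the non-principal irreducible constituents
of a transitive permutation character divides every non-trivial subdegree. -/
theorem subdegree_dvd_of_constituent_degrees [MulAction.IsPretransitive G Ω] (f : ℕ)
    (hf : ∀ χ : G → ℂ, IsIrrCharacter G χ → χ ≠ (fun _ => 1) →
      classInner (fun g : G => (Nat.card (MulAction.fixedBy Ω g) : ℂ)) χ ≠ 0 →
      ∃ m : ℕ, χ 1 = (f : ℂ) * m) (a b : Ω) (hab : b ≠ a) :
    f ∣ Nat.card (MulAction.orbit (MulAction.stabilizer G a) b) := by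
  classical
  haveI : Fintype (IrrCharacter G) := Fintype.ofFinite _
  have hT0 := card_stab_ne_zero (G := G) a
  have key : ∀ χ : IrrCharacter G, ∃ w : ℂ, IsIntegral ℤ w ∧ (χ ≠ trivIrr G →
      χ.1 1 * ∑ s ∈ subD G a b, conj (χ.1 s)
        = (f : ℂ) * (Nat.card (MulAction.stabilizer G a) : ℂ) * w) := by
    intro χ
    by_cases hχ : χ = trivIrr G
    · exact ⟨0, isIntegral_zero, fun h => absurd hχ h⟩
    obtain ⟨n, ρ, hirr, hρ⟩ := χ.2
    have hJ : ∑ s ∈ subD G a b, conj (χ.1 s) = ∑ s ∈ subD G a b, ρ.character s⁻¹ := by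
      refine Finset.sum_congr rfl fun s _ => ?_
      rw [← hρ, char_inv_eq_conj]
    by_cases h0 : classInner (fun g : G => (Nat.card (MulAction.fixedBy Ω g) : ℂ)) χ.1 = 0
    · refine ⟨0, isIntegral_zero, fun _ => ?_⟩
      rw [hJ, subD_character_eq_zero ρ a b (by rw [hρ]; exact h0), mul_zero, mul_zero]
    · obtain ⟨m, hm⟩ := hf χ.1 χ.2 (fun h => hχ (Subtype.ext h)) h0
      refine ⟨(m : ℂ) * ((Nat.card (MulAction.stabilizer G a) : ℂ)⁻¹
        * ∑ s ∈ subD G a b, ρ.character s⁻¹),
        IsIntegral.mul (isIntegral_natCast m) (isIntegral_subD_character ρ a b), fun _ => ?_⟩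
      rw [hJ, hm]
      field_simp
  choose w hw1 hw2 using key
  have h1 : ∑ χ : IrrCharacter G, χ.1 1 * ∑ s ∈ subD G a b, conj (χ.1 s) = 0 := by
    simp_rw [Finset.mul_sum]
    rw [Finset.sum_comm]
    refine Finset.sum_eq_zero fun s hs => ?_
    refine second_orth_of_not_isConj (g := 1) (h := s) ?_
    rw [isConj_one_right]
    rintro rfl
    exact one_not_mem_subD hab hs
  rw [← Finset.add_sum_erase _ _ (Finset.mem_univ (trivIrr G))] at h1
  have h2 : (trivIrr G).1 1 * ∑ s ∈ subD G a b, conj ((trivIrr G).1 s)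
      = (Nat.card (MulAction.stabilizer G a) : ℂ)
        * (Nat.card (MulAction.orbit (MulAction.stabilizer G a) b) : ℂ) := by
    simp only [trivIrr_apply, map_one, one_mul, Finset.sum_const, nsmul_eq_mul, mul_one]
    rw [card_subD]
    push_cast
    rfl
  have h3 : ∑ χ ∈ Finset.univ.erase (trivIrr G), χ.1 1 * ∑ s ∈ subD G a b, conj (χ.1 s)
      = (f : ℂ) * (Nat.card (MulAction.stabilizer G a) : ℂ)
        * ∑ χ ∈ Finset.univ.erase (trivIrr G), w χ := by
    rw [Finset.mul_sum]
    exact Finset.sum_congr rfl fun χ hχ => hw2 χ (Finset.ne_of_mem_erase hχ)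
  rw [h2, h3] at h1
  have h4 : (Nat.card (MulAction.orbit (MulAction.stabilizer G a) b) : ℂ)
      = (f : ℂ) * (-∑ χ ∈ Finset.univ.erase (trivIrr G), w χ) := by
    have h5 : (Nat.card (MulAction.stabilizer G a) : ℂ)
        * ((Nat.card (MulAction.orbit (MulAction.stabilizer G a) b) : ℂ)
          + (f : ℂ) * ∑ χ ∈ Finset.univ.erase (trivIrr G), w χ) = 0 := by
      rw [← h1]
      ring
    rcases mul_eq_zero.mp h5 with h | h
    · exact absurd h hT0
    · linear_combination h
  have hW : IsIntegral ℤ (-∑ χ ∈ Finset.univ.erase (trivIrr G), w χ) :=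
    (IsIntegral.sum _ fun χ _ => hw1 χ).neg
  by_cases hf0 : f = 0
  · subst hf0
    rw [Nat.cast_zero, zero_mul] at h4
    have h6 : Nat.card (MulAction.orbit (MulAction.stabilizer G a) b) = 0 := by
      exact_mod_cast h4
    rw [h6]
  · apply dvd_of_isIntegral_div _ _ hf0
    have hf0' : (f : ℂ) ≠ 0 := by exact_mod_cast hf0
    rw [h4, mul_div_cancel_left₀ _ hf0']
    exact hW

end Subdegree

end Cfsg.Agent.Lib.helper23
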