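import Mathlib
import Cfsg.Agent.Lib.helper23.Subdegree
import Cfsg.Agent.Lib.helper24.CharTwoTrans
import Cfsg.Agent.Lib.helper24.CharKer

set_option autoImplicit false

/-!
# Multiplicity-freeness of transitive permutation characters of small rank
-/

namespace Cfsg.Agent.Lib.helper23

open Cfsg MulAction Cfsg.Agent.Lib.helper24
open scoped ComplexConjugate

universe u v w

section Rank

variable {G : Type u} [Group G] [Fintype G] {Ω : Type v} [Fintype Ω] [MulAction G Ω]

theorem card_group_eq_card_mul_stab [MulAction.IsPretransitive G Ω] (a : Ω) :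
    Fintype.card G = Fintype.card Ω * Nat.card (MulAction.stabilizer G a) := by
  classical
  rw [← Finset.card_univ (α := G),
    Finset.card_eq_sum_card_fiberwise (f := fun s : G => s • a) (s := Finset.univ)
      (t := Finset.univ) (fun _ _ => Finset.mem_univ _)]
  rw [Finset.sum_congr rfl (fun y _ => card_filter_smul_eq (G := G) a y)]
  rw [Finset.sum_const, Finset.card_univ, smul_eq_mul]

theorem perm_data [MulAction.IsPretransitive G Ω] (a : Ω) [Fintype (IrrCharacter G)] :
    ∃ m : IrrCharacter G → ℕ,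
      (∀ χ : IrrCharacter G,
        classInner (fun g : G => (Nat.card (MulAction.fixedBy Ω g) : ℂ)) χ.1 = m χ) ∧
      m (trivIrr G) = 1 ∧
      Fintype.card Ω = ∑ χ : IrrCharacter G, m χ * charDegree χ.1 ∧
      Nat.card (MulAction.orbitRel.Quotient (MulAction.stabilizer G a) Ω)
        = ∑ χ : IrrCharacter G, m χ ^ 2 := by
  classical
  haveI : Nonempty Ω := ⟨a⟩
  set π : G → ℂ := fun g : G => (Nat.card (MulAction.fixedBy Ω g) : ℂ) with hπdef
  have hπ : IsCharacter G π := permChar_isCharacter Ω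
  have hcf : IsClassFunction G π := isCharacter_conj_class hπ
  choose m hm using fun χ : IrrCharacter G => isCharacter_inner_irr_nat hπ χ
  have hG0 : (Nat.card G : ℂ) ≠ 0 := by exact_mod_cast (Nat.card_pos (α := G)).ne'
  have hT0 := card_stab_ne_zero (G := G) a
  have hΩ0 : (Fintype.card Ω : ℂ) ≠ 0 := by
    have : 0 < Fintype.card Ω := Fintype.card_pos_iff.mpr ⟨a⟩
    exact_mod_cast this.ne'
  refine ⟨m, hm, ?_, ?_, ?_⟩
  · have h1 : classInner π (trivIrr G).1 = 1 := by
      rw [classInner_trivIrr, sum_card_fixedBy, card_orbits_of_pretransitive Ω, Nat.cast_one,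
        one_mul, inv_mul_cancel₀ hG0]
    rw [hm] at h1
    exact_mod_cast h1
  · have h1 := classFunction_expansion_apply hcf 1
    have h2 : π 1 = (Fintype.card Ω : ℂ) := by
      rw [hπdef]
      change ((Nat.card (MulAction.fixedBy Ω (1 : G)) : ℕ) : ℂ) = _
      rw [← Nat.card_eq_fintype_card]
      congr 1
      exact Nat.card_congr (Equiv.subtypeUnivEquiv (fun x => by simp [MulAction.mem_fixedBy]))
    rw [h2] at h1
    have h3 : ((∑ χ : IrrCharacter G, m χ * charDegree χ.1 : ℕ) : ℂ) = (Fintype.card Ω : ℂ) := by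
      rw [h1]
      push_cast
      refine Finset.sum_congr rfl fun χ _ => ?_
      rw [hm, charDegree_cast]
    exact_mod_cast h3.symm
  · have h1 : classInner π π = ∑ χ : IrrCharacter G, ((m χ : ℂ)) ^ 2 := by
      have hexp := classFunction_expansion hcf
      have h2 : classInner π π = classInner π (∑ χ : IrrCharacter G, classInner π χ.1 • χ.1) :=
        congrArg (classInner π) hexp
      rw [h2, classInner_sum_right]
      refine Finset.sum_congr rfl fun χ _ => ?_
      rw [classInner_smul_right, hm, Complex.conj_natCast, sq]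
    have h2 : classInner π π
        = (Nat.card (MulAction.orbitRel.Quotient (MulAction.stabilizer G a) Ω) : ℂ) := by
      unfold classInner
      have h3 : ∀ g : G, π g * conj (π g) = (Nat.card (MulAction.fixedBy Ω g) : ℂ) * π g := by
        intro g
        rw [hπdef]
        simp only [Complex.conj_natCast]
      simp_rw [h3]
      rw [sum_fixed_mul a π (fun g h => hcf g h)]
      have h4 : ∑ g : G, (if g • a = a then π g else 0)
          = ∑ t : MulAction.stabilizer G a, (Nat.card (MulAction.fixedBy Ω t) : ℂ) := by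
        rw [← Finset.sum_filter]
        rw [Finset.sum_subtype (Finset.univ.filter (fun g : G => g • a = a))
          (p := fun g => g ∈ MulAction.stabilizer G a)
          (by intro g; simp [MulAction.mem_stabilizer_iff])]
        rfl
      rw [h4, sum_card_fixedBy (G := MulAction.stabilizer G a) Ω]
      have h5 : (Nat.card G : ℂ) = (Fintype.card Ω : ℂ)
          * (Nat.card (MulAction.stabilizer G a) : ℂ) := by
        rw [Nat.card_eq_fintype_card, card_group_eq_card_mul_stab a]
        push_cast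
        rfl
      rw [h5]
      field_simp
    rw [h1] at h2
    exact_mod_cast h2.symm

omit [Fintype G] in
theorem suborbit_data (a : Ω)
    [Fintype (MulAction.orbitRel.Quotient (MulAction.stabilizer G a) Ω)] :
    ∃ (qa : MulAction.orbitRel.Quotient (MulAction.stabilizer G a) Ω)
      (n : MulAction.orbitRel.Quotient (MulAction.stabilizer G a) Ω → ℕ),
      ∑ q, n q = Fintype.card Ω ∧ n qa = 1 ∧ (∀ q, 0 < n q) ∧
      (∀ q, q ≠ qa → ∃ b, b ≠ a ∧ n q = Nat.card (MulAction.orbit (MulAction.stabilizer G a) b)) ∧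
      (∀ b, b ≠ a → ∃ q, q ≠ qa ∧
        n q = Nat.card (MulAction.orbit (MulAction.stabilizer G a) b)) := by
  classical
  refine ⟨Quotient.mk'' a, fun q => Nat.card q.orbit, ?_, ?_, ?_, ?_, ?_⟩
  · have e := MulAction.selfEquivSigmaOrbits' (MulAction.stabilizer G a) Ω
    rw [← Nat.card_eq_fintype_card (α := Ω), Nat.card_congr e, Nat.card_sigma]
  · change Nat.card (MulAction.orbitRel.Quotient.orbit
      (Quotient.mk'' a : MulAction.orbitRel.Quotient (MulAction.stabilizer G a) Ω)) = 1
    rw [MulAction.orbitRel.Quotient.orbit_mk]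
    have h1 : MulAction.orbit (MulAction.stabilizer G a) a = {a} := by
      ext x
      constructor
      · rintro ⟨t, rfl⟩
        exact t.2
      · intro hx
        rw [Set.mem_singleton_iff] at hx
        rw [hx]
        exact MulAction.mem_orbit_self _
    rw [h1]
    simp
  · intro q
    induction q using Quotient.inductionOn' with
    | h b =>
      change 0 < Nat.card (MulAction.orbitRel.Quotient.orbit
        (Quotient.mk'' b : MulAction.orbitRel.Quotient (MulAction.stabilizer G a) Ω))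
      rw [MulAction.orbitRel.Quotient.orbit_mk]
      haveI : Nonempty (MulAction.orbit (MulAction.stabilizer G a) b) :=
        ⟨⟨b, MulAction.mem_orbit_self _⟩⟩
      exact Nat.card_pos
  · intro q hq
    induction q using Quotient.inductionOn' with
    | h b =>
      refine ⟨b, ?_, ?_⟩
      · rintro rfl
        exact hq rfl
      · change Nat.card (MulAction.orbitRel.Quotient.orbit
          (Quotient.mk'' b : MulAction.orbitRel.Quotient (MulAction.stabilizer G a) Ω)) = _
        rw [MulAction.orbitRel.Quotient.orbit_mk]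
  · intro b hb
    refine ⟨Quotient.mk'' b, ?_, ?_⟩
    · intro h
      have h1 := Quotient.exact' h
      obtain ⟨t, ht⟩ := h1
      have h2 : (t : G) • a = b := ht
      exact hb (h2.symm.trans t.2)
    · change Nat.card (MulAction.orbitRel.Quotient.orbit
        (Quotient.mk'' b : MulAction.orbitRel.Quotient (MulAction.stabilizer G a) Ω)) = _
      rw [MulAction.orbitRel.Quotient.orbit_mk]

theorem perm_mult_free_of_same_degree [MulAction.IsPretransitive G Ω] (a : Ω) (f : ℕ)
    (hf : ∀ χ : G → ℂ, IsIrrCharacter G χ → χ ≠ (fun _ => 1) →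
      classInner (fun g : G => (Nat.card (MulAction.fixedBy Ω g) : ℂ)) χ ≠ 0 → χ 1 = f) :
    (∀ χ : G → ℂ, IsIrrCharacter G χ →
      classInner (fun g : G => (Nat.card (MulAction.fixedBy Ω g) : ℂ)) χ = 0 ∨
      classInner (fun g : G => (Nat.card (MulAction.fixedBy Ω g) : ℂ)) χ = 1) ∧
    ∀ b : Ω, b ≠ a → Nat.card (MulAction.orbit (MulAction.stabilizer G a) b) = f := by
  classical
  haveI : Fintype (IrrCharacter G) := Fintype.ofFinite _
  haveI : Fintype (MulAction.orbitRel.Quotient (MulAction.stabilizer G a) Ω) := Fintype.ofFinite _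
  obtain ⟨m, hm, hm1, hdeg, hrank⟩ := perm_data (G := G) a
  obtain ⟨qa, n, hnsum, hnqa, hnpos, hn1, hn2⟩ := suborbit_data (G := G) a
  have hH : ∀ χ : IrrCharacter G, χ ≠ trivIrr G → m χ ≠ 0 → charDegree χ.1 = f := by
    intro χ hχ hmχ
    have h1 := hf χ.1 χ.2 (fun h => hχ (Subtype.ext h)) (by
      rw [hm]
      exact_mod_cast hmχ)
    rw [← charDegree_cast] at h1
    exact_mod_cast h1
  have hdvd : ∀ b : Ω, b ≠ a → f ∣ Nat.card (MulAction.orbit (MulAction.stabilizer G a) b) := by
    intro b hb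
    exact subdegree_dvd_of_constituent_degrees f
      (fun χ hχ hχ1 hχ0 => ⟨1, by rw [hf χ hχ hχ1 hχ0]; simp⟩) a b hb
  have hle : ∀ q ∈ Finset.univ.erase qa, f ≤ n q := by
    intro q hq
    obtain ⟨b, hb, hnb⟩ := hn1 q (Finset.ne_of_mem_erase hq)
    have h1 := hnpos q
    rw [hnb] at h1 ⊢
    exact Nat.le_of_dvd h1 (hdvd b hb)
  have e1 : ∑ q ∈ Finset.univ.erase qa, n q + 1 = Fintype.card Ω := by
    rw [← hnsum, ← Finset.sum_erase_add _ _ (Finset.mem_univ qa), hnqa]
  have htriv : charDegree (trivIrr G).1 = 1 := by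
    have h1 := charDegree_cast (trivIrr G)
    rw [trivIrr_apply] at h1
    exact_mod_cast h1
  have e2 : f * ∑ χ ∈ Finset.univ.erase (trivIrr G), m χ + 1 = Fintype.card Ω := by
    rw [hdeg, ← Finset.sum_erase_add _ _ (Finset.mem_univ (trivIrr G)), hm1, Finset.mul_sum,
      htriv]
    congr 1
    refine Finset.sum_congr rfl fun χ hχ => ?_
    by_cases h0 : m χ = 0
    · rw [h0, mul_zero, zero_mul]
    · rw [hH χ (Finset.ne_of_mem_erase hχ) h0, mul_comm]
  have e3 : (Finset.univ.erase qa).card + 1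
      = Nat.card (MulAction.orbitRel.Quotient (MulAction.stabilizer G a) Ω) := by
    rw [Finset.card_erase_of_mem (Finset.mem_univ _), Finset.card_univ, Nat.card_eq_fintype_card]
    have : 0 < Fintype.card (MulAction.orbitRel.Quotient (MulAction.stabilizer G a) Ω) :=
      Fintype.card_pos_iff.mpr ⟨qa⟩
    omega
  have e4 : ∑ χ ∈ Finset.univ.erase (trivIrr G), m χ ^ 2 + 1
      = Nat.card (MulAction.orbitRel.Quotient (MulAction.stabilizer G a) Ω) := by
    rw [hrank, ← Finset.sum_erase_add _ _ (Finset.mem_univ (trivIrr G)), hm1, one_pow]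
  have c1 : (Finset.univ.erase qa).card * f ≤ ∑ q ∈ Finset.univ.erase qa, n q := by
    rw [← smul_eq_mul, ← Finset.sum_const]
    exact Finset.sum_le_sum hle
  have hmsq : ∀ χ : IrrCharacter G, m χ ≤ m χ ^ 2 := fun χ => Nat.le_self_pow two_ne_zero _
  have c2 : ∑ χ ∈ Finset.univ.erase (trivIrr G), m χ
      ≤ ∑ χ ∈ Finset.univ.erase (trivIrr G), m χ ^ 2 :=
    Finset.sum_le_sum fun χ _ => hmsq χ
  have c3 : (Finset.univ.erase qa).card = ∑ χ ∈ Finset.univ.erase (trivIrr G), m χ ^ 2 := by
    omega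
  have c4 : ∑ q ∈ Finset.univ.erase qa, n q
      = f * ∑ χ ∈ Finset.univ.erase (trivIrr G), m χ := by
    omega
  have c5 : f * ∑ χ ∈ Finset.univ.erase (trivIrr G), m χ
      ≤ f * ∑ χ ∈ Finset.univ.erase (trivIrr G), m χ ^ 2 := Nat.mul_le_mul_left f c2
  have c6 : ∑ q ∈ Finset.univ.erase qa, f = ∑ q ∈ Finset.univ.erase qa, n q := by
    rw [Finset.sum_const, smul_eq_mul]
    apply le_antisymm c1
    rw [c4, c3]
    linarith [mul_comm (∑ χ ∈ Finset.univ.erase (trivIrr G), m χ ^ 2) f]
  have c7 : ∀ q ∈ Finset.univ.erase qa, n q = f := fun q hq =>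
    ((Finset.sum_eq_sum_iff_of_le hle).mp c6 q hq).symm
  have c8 : f * ∑ χ ∈ Finset.univ.erase (trivIrr G), m χ
      = f * ∑ χ ∈ Finset.univ.erase (trivIrr G), m χ ^ 2 := by
    apply le_antisymm c5
    rw [← c4, ← c6, Finset.sum_const, smul_eq_mul, c3, mul_comm]
  constructor
  · intro χ hχ
    have hmχ : classInner (fun g : G => (Nat.card (MulAction.fixedBy Ω g) : ℂ)) χ
        = m ⟨χ, hχ⟩ := hm ⟨χ, hχ⟩
    by_cases h1 : (⟨χ, hχ⟩ : IrrCharacter G) = trivIrr G
    · right
      rw [hmχ, h1, hm1, Nat.cast_one]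
    · by_cases h0 : m ⟨χ, hχ⟩ = 0
      · left
        rw [hmχ, h0, Nat.cast_zero]
      · right
        have hfpos : 0 < f := by
          rw [← hH _ h1 h0]
          exact charDegree_pos _
        have c9 : ∑ χ ∈ Finset.univ.erase (trivIrr G), m χ
            = ∑ χ ∈ Finset.univ.erase (trivIrr G), m χ ^ 2 :=
          Nat.eq_of_mul_eq_mul_left hfpos c8
        have c10 := (Finset.sum_eq_sum_iff_of_le (fun χ _ => hmsq χ)).mp c9 ⟨χ, hχ⟩
          (Finset.mem_erase.mpr ⟨h1, Finset.mem_univ _⟩)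
        have c11 : m ⟨χ, hχ⟩ = 1 := by
          have h2 : m ⟨χ, hχ⟩ * 1 = m ⟨χ, hχ⟩ * m ⟨χ, hχ⟩ := by
            rw [mul_one, ← sq]
            exact c10
          exact (Nat.eq_of_mul_eq_mul_left (Nat.pos_of_ne_zero h0) h2).symm
        rw [hmχ, c11, Nat.cast_one]
  · intro b hb
    obtain ⟨q, hq, hnq⟩ := hn2 b hb
    rw [← hnq]
    exact c7 q (Finset.mem_erase.mpr ⟨hq, Finset.mem_univ _⟩)

theorem perm_mult_free_of_rank_le_five [MulAction.IsPretransitive G Ω] (a : Ω)
    (h5 : Nat.card (MulAction.orbitRel.Quotient (MulAction.stabilizer G a) Ω) ≤ 5) :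
    ∀ χ : G → ℂ, IsIrrCharacter G χ →
      classInner (fun g : G => (Nat.card (MulAction.fixedBy Ω g) : ℂ)) χ = 0 ∨
      classInner (fun g : G => (Nat.card (MulAction.fixedBy Ω g) : ℂ)) χ = 1 := by
  classical
  haveI : Fintype (IrrCharacter G) := Fintype.ofFinite _
  obtain ⟨m, hm, hm1, hdeg, hrank⟩ := perm_data (G := G) a
  intro χ hχ
  by_contra hcon
  push Not at hcon
  have hmχ : classInner (fun g : G => (Nat.card (MulAction.fixedBy Ω g) : ℂ)) χ
      = m ⟨χ, hχ⟩ := hm ⟨χ, hχ⟩
  have hm0 : 2 ≤ m ⟨χ, hχ⟩ := by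
    have h0 : m ⟨χ, hχ⟩ ≠ 0 := by
      intro h0
      apply hcon.1
      rw [hmχ, h0, Nat.cast_zero]
    have h1 : m ⟨χ, hχ⟩ ≠ 1 := by
      intro h1
      apply hcon.2
      rw [hmχ, h1, Nat.cast_one]
    omega
  have hne : (⟨χ, hχ⟩ : IrrCharacter G) ≠ trivIrr G := by
    intro h
    rw [h, hm1] at hm0
    omega
  have hoth : ∀ ψ : IrrCharacter G, ψ ≠ trivIrr G → ψ ≠ ⟨χ, hχ⟩ → m ψ = 0 := by
    intro ψ h1 h2
    by_contra h0
    have h3 : ∑ θ ∈ ({trivIrr G, ⟨χ, hχ⟩, ψ} : Finset (IrrCharacter G)), m θ ^ 2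
        ≤ ∑ θ : IrrCharacter G, m θ ^ 2 :=
      Finset.sum_le_sum_of_subset (Finset.subset_univ _)
    rw [Finset.sum_insert (by
        rw [Finset.mem_insert, Finset.mem_singleton]
        rintro (h | h)
        · exact hne h.symm
        · exact h1 h.symm),
      Finset.sum_insert (by
        rw [Finset.mem_singleton]
        exact fun h => h2 h.symm), Finset.sum_singleton, hm1] at h3
    have h4 : 4 ≤ m ⟨χ, hχ⟩ ^ 2 := by nlinarith
    have h6 : 1 ≤ m ψ ^ 2 := Nat.one_le_pow _ _ (Nat.pos_of_ne_zero h0)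
    omega
  have hA := perm_mult_free_of_same_degree a (charDegree χ) (by
    intro ψ hψ hψ1 hψ0
    have h1 : (⟨ψ, hψ⟩ : IrrCharacter G) = ⟨χ, hχ⟩ := by
      by_contra hne2
      have h2 := hoth ⟨ψ, hψ⟩ (fun h => hψ1 (congrArg Subtype.val h)) hne2
      apply hψ0
      have h3 : classInner (fun g : G => (Nat.card (MulAction.fixedBy Ω g) : ℂ)) ψ
          = m ⟨ψ, hψ⟩ := hm ⟨ψ, hψ⟩
      rw [h3, h2, Nat.cast_zero]
    have h2 : ψ = χ := congrArg Subtype.val h1
    rw [h2]
    exact (charDegree_cast ⟨χ, hχ⟩).symm)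
  rcases hA.1 χ hχ with h | h
  · exact hcon.1 h
  · exact hcon.2 h

end Rank

end Cfsg.Agent.Lib.helper23
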