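import Mathlib
import Cfsg.Agent.Lib.helper23.Subdegree2
import Cfsg.Agent.Lib.helper23.RealPerm
import Cfsg.Agent.Lib.helper24.CharFS
import Cfsg.Agent.Lib.helper24.CharInd

set_option autoImplicit false

/-!
# Generously transitive groups: multiplicity-free permutation character with real constituents
-/

namespace Cfsg.Agent.Lib.helper23

open Cfsg MulAction Cfsg.Agent.Lib.helper24
open scoped ComplexConjugate Matrix

universe u v w

section Eigen

variable {G : Type u} [Group G] [Fintype G]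

theorem exists_invariant_eigen {W : Type v} [AddCommGroup W] [Module ℂ W]
    [FiniteDimensional ℂ W] (σ : Representation ℂ G W) (T : W →ₗ[ℂ] W)
    (hT : ∀ g : G, T ∘ₗ σ g = σ g ∘ₗ T) (h1 : Module.finrank ℂ σ.invariants = 1) :
    ∃ v : W, v ≠ 0 ∧ v ∈ σ.invariants ∧ T v = LinearMap.trace ℂ W (T ∘ₗ avgOp σ) • v := by
  obtain ⟨⟨v, hv⟩, hv0, hspan⟩ := finrank_eq_one_iff'.mp h1
  have hv0' : v ≠ 0 := fun h => hv0 (Subtype.ext h)
  have hTv : T v ∈ σ.invariants := by
    intro g
    have := congrArg (fun F : W →ₗ[ℂ] W => F v) (hT g)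
    simp only [LinearMap.comp_apply] at this
    rw [← this, hv g]
  obtain ⟨c, hc⟩ := hspan ⟨T v, hTv⟩
  have hc' : c • v = T v := congrArg Subtype.val hc
  have hTP : T ∘ₗ avgOp σ = c • avgOp σ := by
    ext w
    obtain ⟨d, hd⟩ := hspan ⟨avgOp σ w, avgOp_mem_invariants σ w⟩
    have hd' : d • v = avgOp σ w := congrArg Subtype.val hd
    simp only [LinearMap.comp_apply, LinearMap.smul_apply]
    rw [← hd', map_smul, ← hc', smul_smul, smul_smul, mul_comm]
  refine ⟨v, hv0', hv, ?_⟩
  rw [hTP, map_smul, trace_avgOp, h1, Nat.cast_one, smul_eq_mul, mul_one, hc']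

end Eigen

section FS

variable {G : Type u} [Group G] [Fintype G] {Ω : Type v} [Fintype Ω] [MulAction G Ω]

/-- A constituent of multiplicity one of a transitive permutation character does not have
Frobenius–Schur indicator `-1`. -/
theorem fs_ne_neg_one_of_mult_one [MulAction.IsPretransitive G Ω] (a : Ω) (χ : IrrCharacter G)
    (hm : classInner (fun g : G => (Nat.card (MulAction.fixedBy Ω g) : ℂ)) χ.1 = 1) :
    (Nat.card G : ℂ)⁻¹ * ∑ s : G, χ.1 (s * s) ≠ -1 := by
  classical
  intro hν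
  obtain ⟨n, ρ, hirr, hρ⟩ := χ.2
  haveI := hirr
  have hT0 := card_stab_ne_zero (G := G) a
  have hG0 : (Nat.card G : ℂ) ≠ 0 := by exact_mod_cast (Nat.card_pos (α := G)).ne'
  have hΩ0 : (Fintype.card Ω : ℂ) ≠ 0 := by
    have : 0 < Fintype.card Ω := Fintype.card_pos_iff.mpr ⟨a⟩
    exact_mod_cast this.ne'
  have hcardT : ∀ [DecidablePred (fun x : G => x • a = a)],
      (Finset.univ.filter (fun x : G => x • a = a)).card
        = Nat.card (MulAction.stabilizer G a) := by
    intro inst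
    convert card_filter_smul_eq (G := G) a a
  have hfin := fs_finrank χ ρ hρ
  have hreal : χ = irrConj χ := by
    by_contra hne
    rcases frobenius_schur χ with ⟨h0, _⟩ | ⟨_, h1⟩
    · rw [h0] at hν
      norm_num at hν
    · exact hne h1.symm
  rw [if_pos hreal] at hfin
  have hfin1 : Module.finrank ℂ (bilRep ρ).invariants = 1 := by exact_mod_cast hfin
  obtain ⟨B, hB0, hBinv, hBT⟩ := exists_invariant_eigen (bilRep ρ) (transposeL n)
    (transposeL_comp_bilRep ρ) hfin1
  rw [← fs_indicator_eq_trace χ ρ hρ, hν, transposeL_apply, neg_one_smul] at hBT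
  have hinv : ∀ g : G, (LinearMap.toMatrix' (ρ g))ᵀ * B * LinearMap.toMatrix' (ρ g) = B := by
    intro g
    have h1 := hBinv g⁻¹
    rw [bilRep_apply, inv_inv] at h1
    exact h1
  have key : ∀ (M : Matrix (Fin n) (Fin n) ℂ) (x y : Fin n → ℂ),
      (M *ᵥ x) ⬝ᵥ (B *ᵥ (M *ᵥ y)) = x ⬝ᵥ ((Mᵀ * B * M) *ᵥ y) := by
    intro M x y
    rw [← Matrix.mulVec_mulVec, ← Matrix.mulVec_mulVec, Matrix.dotProduct_mulVec x Mᵀ,
      Matrix.vecMul_transpose]
  obtain ⟨β, hβ⟩ : ∃ β : (Fin n → ℂ) →ₗ[ℂ] (Fin n → ℂ) →ₗ[ℂ] ℂ,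
      β = Matrix.toLinearMap₂' ℂ B := ⟨_, rfl⟩
  have hβinv : ∀ (g : G) (x y : Fin n → ℂ), β (ρ g x) (ρ g y) = β x y := by
    intro g x y
    rw [hβ, Matrix.toLinearMap₂'_apply', Matrix.toLinearMap₂'_apply']
    conv_rhs => rw [← hinv g]
    rw [← key, LinearMap.toMatrix'_mulVec, LinearMap.toMatrix'_mulVec]
  have hβalt : ∀ x : Fin n → ℂ, β x x = 0 := by
    intro x
    have h1 : β x x = - β x x := by
      rw [hβ, Matrix.toLinearMap₂'_apply']
      conv_lhs => rw [Matrix.dotProduct_mulVec, ← Matrix.mulVec_transpose, hBT, Matrix.neg_mulVec,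
        neg_dotProduct, dotProduct_comm]
    linear_combination h1 / 2
  -- the projection onto the fixed points of the stabilizer
  obtain ⟨e, he⟩ : ∃ e : Module.End ℂ (Fin n → ℂ),
      e = (Nat.card (MulAction.stabilizer G a) : ℂ)⁻¹ • ∑ g : G, if g • a = a then ρ g else 0 :=
    ⟨_, rfl⟩
  have hsumχ : ∑ g : G, (if g • a = a then ρ.character g else 0)
      = (Nat.card (MulAction.stabilizer G a) : ℂ) := by
    unfold classInner at hm
    rw [sum_fixed_mul a (fun g => conj (χ.1 g))
      (fun g h => by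
        change conj (χ.1 (h * g * h⁻¹)) = conj (χ.1 g)
        rw [isClassFunction_irr χ g h])] at hm
    have h5 : (Nat.card G : ℂ) = (Fintype.card Ω : ℂ)
        * (Nat.card (MulAction.stabilizer G a) : ℂ) := by
      rw [Nat.card_eq_fintype_card, card_group_eq_card_mul_stab a]
      push_cast
      rfl
    rw [h5] at hm
    have h6 : ∑ g : G, (if g • a = a then conj (χ.1 g) else 0)
        = (Nat.card (MulAction.stabilizer G a) : ℂ) := by
      field_simp at hm
      linear_combination hm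
    rw [← h6]
    refine Finset.sum_congr rfl fun g _ => ?_
    have h7 : χ.1 g = conj (χ.1 g) := congrFun (congrArg Subtype.val hreal) g
    rw [hρ, ← h7]
  have htr : LinearMap.trace ℂ _ e = 1 := by
    rw [he, map_smul, map_sum]
    have h2 : ∀ g : G, LinearMap.trace ℂ (Fin n → ℂ) (if g • a = a then ρ g else 0)
        = if g • a = a then ρ.character g else 0 := by
      intro g
      by_cases hg : g • a = a
      · rw [if_pos hg, if_pos hg]
        rfl
      · rw [if_neg hg, if_neg hg, map_zero]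
    simp_rw [h2]
    rw [hsumχ, smul_eq_mul, inv_mul_cancel₀ hT0]
  have hte : ∀ t : G, t • a = a → ρ t * e = e := by
    intro t ht
    rw [he, mul_smul_comm, Finset.mul_sum]
    congr 1
    rw [← Equiv.sum_comp (Equiv.mulLeft t⁻¹)]
    refine Finset.sum_congr rfl fun x _ => ?_
    have hx : ((Equiv.mulLeft t⁻¹) x) • a = a ↔ x • a = a := by
      change (t⁻¹ * x) • a = a ↔ x • a = a
      rw [mul_smul, inv_smul_eq_iff, ht]
    by_cases hx' : x • a = a
    · rw [if_pos hx', if_pos (hx.mpr hx')]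
      change ρ t * ρ (t⁻¹ * x) = ρ x
      rw [← map_mul, mul_inv_cancel_left]
    · rw [if_neg hx', if_neg (fun h => hx' (hx.mp h)), mul_zero]
  have hee : e * e = e := by
    have h1 : e * e = (Nat.card (MulAction.stabilizer G a) : ℂ)⁻¹
        • ∑ g : G, (if g • a = a then ρ g else 0) * e := by
      conv_lhs => rw [he]
      rw [smul_mul_assoc, Finset.sum_mul, ← he]
    have h2 : ∀ g : G, (if g • a = a then ρ g else 0) * e
        = (if g • a = a then (1 : ℂ) else 0) • e := by
      intro g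
      by_cases hg : g • a = a
      · rw [if_pos hg, if_pos hg, one_smul, hte g hg]
      · rw [if_neg hg, if_neg hg, zero_smul, zero_mul]
    simp_rw [h2] at h1
    rw [h1, ← Finset.sum_smul, Finset.sum_boole, hcardT, smul_smul,
      inv_mul_cancel₀ hT0, one_smul]
  have hrange : Module.finrank ℂ (LinearMap.range e) = 1 := by
    have hproj : LinearMap.IsProj (LinearMap.range e) e :=
      (LinearMap.isProj_range_iff_isIdempotentElem e).mpr hee
    have h1 := hproj.trace
    rw [htr] at h1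
    exact_mod_cast h1.symm
  obtain ⟨⟨v, hv⟩, hv0, hspan⟩ := finrank_eq_one_iff'.mp hrange
  have hβe : ∀ u w : Fin n → ℂ, β (e u) w = 0 := by
    intro u w
    have h2 : ∀ t : G, t • a = a → β (e u) (ρ t w) = β (e u) w := by
      intro t ht
      have ht' : t⁻¹ • a = a := by rw [inv_smul_eq_iff, ht]
      have h3 := hβinv t⁻¹ (e u) (ρ t w)
      have h4 : ρ t⁻¹ (e u) = e u := by
        rw [← Module.End.mul_apply, hte t⁻¹ ht']
      have h5 : ρ t⁻¹ (ρ t w) = w := by
        rw [← Module.End.mul_apply, ← map_mul, inv_mul_cancel, map_one, Module.End.one_apply]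
      rw [h4, h5] at h3
      exact h3.symm
    have h1 : β (e u) (e w) = β (e u) w := by
      have hew : e w = (Nat.card (MulAction.stabilizer G a) : ℂ)⁻¹
          • ∑ g : G, (if g • a = a then ρ g else 0) w := by
        rw [he, LinearMap.smul_apply, LinearMap.sum_apply]
      rw [hew, map_smul, map_sum]
      have h6 : ∀ g : G, β (e u) ((if g • a = a then ρ g else 0) w)
          = (if g • a = a then (1 : ℂ) else 0) * β (e u) w := by
        intro g
        by_cases hg : g • a = a
        · rw [if_pos hg, if_pos hg, one_mul, h2 g hg]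
        · rw [if_neg hg, if_neg hg, zero_mul, LinearMap.zero_apply, map_zero]
      simp_rw [h6]
      rw [← Finset.sum_mul, Finset.sum_boole, hcardT, smul_eq_mul, ← mul_assoc,
        inv_mul_cancel₀ hT0, one_mul]
    obtain ⟨c, hc⟩ := hspan ⟨e u, LinearMap.mem_range_self e u⟩
    obtain ⟨d, hd⟩ := hspan ⟨e w, LinearMap.mem_range_self e w⟩
    have hc' : c • v = e u := congrArg Subtype.val hc
    have hd' : d • v = e w := congrArg Subtype.val hd
    rw [← h1, ← hc', ← hd', map_smul, map_smul, LinearMap.smul_apply, hβalt, smul_zero,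
      smul_zero]
  let R : Subrepresentation ρ := ⟨LinearMap.ker β, fun g x hx => by
    rw [LinearMap.mem_ker] at hx ⊢
    refine LinearMap.ext fun y => ?_
    have h3 := hβinv g x (ρ g⁻¹ y)
    have h5 : ρ g (ρ g⁻¹ y) = y := by
      rw [← Module.End.mul_apply, ← map_mul, mul_inv_cancel, map_one, Module.End.one_apply]
    rw [h5, hx] at h3
    rw [h3]
    rfl⟩
  rcases eq_bot_or_eq_top R with h1 | h1
  · have h2 : e = 0 := by
      refine LinearMap.ext fun u => ?_
      have h3 : e u ∈ R.toSubmodule := LinearMap.mem_ker.mpr (LinearMap.ext fun w => hβe u w)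
      rw [h1] at h3
      exact (Submodule.mem_bot ℂ).mp h3
    rw [h2, map_zero] at htr
    exact zero_ne_one htr
  · have h2 : β = 0 := by
      refine LinearMap.ext fun x => ?_
      have h3 : x ∈ R.toSubmodule := by
        rw [h1]
        trivial
      exact LinearMap.mem_ker.mp h3
    apply hB0
    rw [hβ] at h2
    exact (LinearEquiv.map_eq_zero_iff (Matrix.toLinearMap₂' ℂ)).mp h2

end FS

section Count

variable {G : Type u} [Group G] [Fintype G] {Ω : Type v} [Fintype Ω] [MulAction G Ω]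

theorem sum_stab_fixed (a : Ω) [DecidableEq Ω] :
    ∑ g : G, (if g • a = a then (Nat.card (MulAction.fixedBy Ω g) : ℂ) else 0)
      = (Nat.card (MulAction.orbitRel.Quotient (MulAction.stabilizer G a) Ω) : ℂ)
        * (Nat.card (MulAction.stabilizer G a) : ℂ) := by
  classical
  rw [← sum_card_fixedBy (G := MulAction.stabilizer G a) Ω]
  rw [← Finset.sum_filter]
  rw [Finset.sum_subtype (Finset.univ.filter (fun g : G => g • a = a))
    (p := fun g => g ∈ MulAction.stabilizer G a)
    (by intro g; simp [MulAction.mem_stabilizer_iff])]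
  rfl

omit [Fintype Ω] in
theorem swap_card_le (a y : Ω) [DecidableEq Ω] :
    (Finset.univ.filter (fun g : G => g • a = y ∧ g • y = a)).card
      ≤ (Finset.univ.filter (fun g : G => g • a = a ∧ g • y = y)).card ∧
    ((Finset.univ.filter (fun g : G => g • a = y ∧ g • y = a)).card
      = (Finset.univ.filter (fun g : G => g • a = a ∧ g • y = y)).card
        ↔ ∃ g : G, g • a = y ∧ g • y = a) := by
  by_cases h : ∃ g : G, g • a = y ∧ g • y = a
  · obtain ⟨h₀, h1, h2⟩ := h
    have heq : (Finset.univ.filter (fun g : G => g • a = y ∧ g • y = a)).card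
        = (Finset.univ.filter (fun g : G => g • a = a ∧ g • y = y)).card := by
      refine Finset.card_equiv (Equiv.mulLeft h₀⁻¹) ?_
      intro g
      simp only [Finset.mem_filter, Finset.mem_univ, true_and, Equiv.coe_mulLeft, mul_smul]
      rw [inv_smul_eq_iff, inv_smul_eq_iff, h1, h2]
    exact ⟨heq.le, ⟨fun _ => ⟨h₀, h1, h2⟩, fun _ => heq⟩⟩
  · have h0 : (Finset.univ.filter (fun g : G => g • a = y ∧ g • y = a)) = ∅ := by
      rw [Finset.filter_eq_empty_iff]
      intro g _ hg
      exact h ⟨g, hg⟩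
    have h1 : 0 < (Finset.univ.filter (fun g : G => g • a = a ∧ g • y = y)).card :=
      Finset.card_pos.mpr ⟨1, by simp⟩
    rw [h0, Finset.card_empty]
    exact ⟨Nat.zero_le _, ⟨fun h2 => absurd h2 h1.ne, fun h2 => absurd h2 h⟩⟩

theorem sum_swap_card (a : Ω) [DecidableEq Ω] :
    ∑ y : Ω, (Finset.univ.filter (fun g : G => g • a = y ∧ g • y = a)).card
      = (Finset.univ.filter (fun g : G => (g * g) • a = a)).card := by
  rw [Finset.card_eq_sum_card_fiberwise (f := fun g : G => g • a) (t := Finset.univ)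
    (fun _ _ => Finset.mem_univ _)]
  refine Finset.sum_congr rfl fun y _ => ?_
  congr 1
  ext g
  simp only [Finset.mem_filter, Finset.mem_univ, true_and, mul_smul]
  constructor
  · rintro ⟨h1, h2⟩
    exact ⟨by rw [h1, h2], h1⟩
  · rintro ⟨h1, h2⟩
    refine ⟨h2, ?_⟩
    rw [h2] at h1
    exact h1

theorem sum_stab_card (a : Ω) [DecidableEq Ω] :
    ((∑ y : Ω, (Finset.univ.filter (fun g : G => g • a = a ∧ g • y = y)).card : ℕ) : ℂ)
      = (Nat.card (MulAction.orbitRel.Quotient (MulAction.stabilizer G a) Ω) : ℂ)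
        * (Nat.card (MulAction.stabilizer G a) : ℂ) := by
  rw [← sum_stab_fixed a]
  have h1 : ∀ g : G, (Nat.card (MulAction.fixedBy Ω g) : ℂ)
      = ∑ y : Ω, if g • y = y then (1 : ℂ) else 0 := by
    intro g
    rw [Nat.card_eq_fintype_card, Fintype.card_subtype, Finset.card_filter]
    push_cast
    rfl
  simp_rw [h1, Finset.card_filter]
  push_cast
  rw [Finset.sum_comm]
  refine Finset.sum_congr rfl fun g _ => ?_
  by_cases hg : g • a = a
  · rw [if_pos hg]
    refine Finset.sum_congr rfl fun y _ => ?_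
    simp [hg]
  · rw [if_neg hg]
    apply Finset.sum_eq_zero
    intro y _
    simp [hg]

theorem gen_trans_iff_count [MulAction.IsPretransitive G Ω] (a : Ω) [DecidableEq Ω] :
    (∀ x y : Ω, ∃ g : G, g • x = y ∧ g • y = x) ↔
      ((Finset.univ.filter (fun g : G => (g * g) • a = a)).card : ℂ)
        = (Nat.card (MulAction.orbitRel.Quotient (MulAction.stabilizer G a) Ω) : ℂ)
          * (Nat.card (MulAction.stabilizer G a) : ℂ) := by
  rw [← sum_stab_card a, ← sum_swap_card a]
  constructor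
  · intro h
    congr 1
    refine Finset.sum_congr rfl fun y _ => ?_
    exact (swap_card_le a y).2.mpr (h a y)
  · intro h
    have h1 : ∑ y : Ω, (Finset.univ.filter (fun g : G => g • a = y ∧ g • y = a)).card
        = ∑ y : Ω, (Finset.univ.filter (fun g : G => g • a = a ∧ g • y = y)).card := by
      exact_mod_cast h
    have h2 := (Finset.sum_eq_sum_iff_of_le
      (fun y _ => (swap_card_le (G := G) a y).1)).mp h1
    intro x y
    obtain ⟨k, rfl⟩ := MulAction.exists_smul_eq G a x
    obtain ⟨g, hg1, hg2⟩ := (swap_card_le (G := G) a (k⁻¹ • y)).2.mp (h2 _ (Finset.mem_univ _))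
    refine ⟨k * g * k⁻¹, ?_, ?_⟩
    · rw [mul_smul, mul_smul, inv_smul_smul, hg1, smul_inv_smul]
    · rw [mul_smul, mul_smul, hg2]

theorem gen_trans_iff_mult_free_real [MulAction.IsPretransitive G Ω] :
    (∀ a b : Ω, ∃ g : G, g • a = b ∧ g • b = a) ↔
    ∀ χ : G → ℂ, IsIrrCharacter G χ →
      classInner (fun g : G => (Nat.card (MulAction.fixedBy Ω g) : ℂ)) χ ≠ 0 →
      classInner (fun g : G => (Nat.card (MulAction.fixedBy Ω g) : ℂ)) χ = 1
        ∧ ∀ g : G, conj (χ g) = χ g := by
  classical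
  rcases isEmpty_or_nonempty Ω with hemp | ⟨⟨a⟩⟩
  · constructor
    · intro _ χ hχ h0
      exfalso
      apply h0
      unfold classInner
      have h1 : ∀ g : G, (Nat.card (MulAction.fixedBy Ω g) : ℂ) = 0 := by
        intro g
        simp
      simp [h1]
    · intro _ a
      exact (IsEmpty.false a).elim
  haveI : Fintype (IrrCharacter G) := Fintype.ofFinite _
  obtain ⟨m, hm, hm1, hdeg, hrank⟩ := perm_data (G := G) a
  have hT0 := card_stab_ne_zero (G := G) a
  have hcount := gen_trans_iff_count (G := G) a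
  have hfs : ∑ χ : IrrCharacter G, (m χ : ℂ) * ((Nat.card G : ℂ)⁻¹ * ∑ s : G, χ.1 (s * s))
      = (Nat.card (MulAction.stabilizer G a) : ℂ)⁻¹
        * ((Finset.univ.filter (fun g : G => (g * g) • a = a)).card : ℂ) := by
    have h1 := sum_inner_indFun_one_mul_fs (G := G) (MulAction.stabilizer G a)
    rw [← permChar_eq_indFun Ω a] at h1
    simp_rw [hm] at h1
    rw [h1]
    congr 2
  have hkey : (∀ x y : Ω, ∃ g : G, g • x = y ∧ g • y = x) ↔
      ∑ χ : IrrCharacter G, (m χ : ℂ) * ((Nat.card G : ℂ)⁻¹ * ∑ s : G, χ.1 (s * s))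
        = ∑ χ : IrrCharacter G, ((m χ : ℂ)) ^ 2 := by
    rw [hcount, hfs, hrank]
    push_cast
    constructor
    · intro h
      rw [h]
      field_simp
    · intro h
      field_simp at h
      linear_combination h
  rw [hkey]
  have htri : ∀ χ : IrrCharacter G,
      ((Nat.card G : ℂ)⁻¹ * ∑ s : G, χ.1 (s * s)).re ≤ 1 := by
    intro χ
    rcases frobenius_schur χ with ⟨h0, _⟩ | ⟨h1 | h1, _⟩
    · rw [h0]; simp
    · rw [h1]; simp
    · rw [h1]; simp
  constructor
  · intro hsum χ hχ h0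
    have hre := congrArg Complex.re hsum
    rw [Complex.re_sum, Complex.re_sum] at hre
    have hterm : ∀ ψ ∈ (Finset.univ : Finset (IrrCharacter G)),
        ((m ψ : ℂ) * ((Nat.card G : ℂ)⁻¹ * ∑ s : G, ψ.1 (s * s))).re ≤ (((m ψ : ℂ)) ^ 2).re := by
      intro ψ _
      have h1 : ((m ψ : ℂ) * ((Nat.card G : ℂ)⁻¹ * ∑ s : G, ψ.1 (s * s))).re
          = (m ψ : ℝ) * ((Nat.card G : ℂ)⁻¹ * ∑ s : G, ψ.1 (s * s)).re := by
        rw [Complex.mul_re, Complex.natCast_re, Complex.natCast_im, zero_mul, sub_zero]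
      have h2 : (((m ψ : ℂ)) ^ 2).re = (m ψ : ℝ) ^ 2 := by
        rw [← Nat.cast_pow, Complex.natCast_re, Nat.cast_pow]
      rw [h1, h2]
      have h3 := htri ψ
      have h4 : (0 : ℝ) ≤ (m ψ : ℝ) := Nat.cast_nonneg _
      have h5 : (m ψ : ℝ) ≤ (m ψ : ℝ) ^ 2 := by
        exact_mod_cast Nat.le_self_pow two_ne_zero (m ψ)
      nlinarith
    have heq := (Finset.sum_eq_sum_iff_of_le hterm).mp hre ⟨χ, hχ⟩ (Finset.mem_univ _)
    have hmχ : classInner (fun g : G => (Nat.card (MulAction.fixedBy Ω g) : ℂ)) χ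
        = m ⟨χ, hχ⟩ := hm ⟨χ, hχ⟩
    have hm0 : m ⟨χ, hχ⟩ ≠ 0 := by
      intro h
      apply h0
      rw [hmχ, h, Nat.cast_zero]
    have h1 : ((m ⟨χ, hχ⟩ : ℂ) * ((Nat.card G : ℂ)⁻¹
        * ∑ s : G, (⟨χ, hχ⟩ : IrrCharacter G).1 (s * s))).re
        = (m ⟨χ, hχ⟩ : ℝ) * ((Nat.card G : ℂ)⁻¹
          * ∑ s : G, (⟨χ, hχ⟩ : IrrCharacter G).1 (s * s)).re := by
      rw [Complex.mul_re, Complex.natCast_re, Complex.natCast_im, zero_mul, sub_zero]
    have h2 : (((m ⟨χ, hχ⟩ : ℂ)) ^ 2).re = (m ⟨χ, hχ⟩ : ℝ) ^ 2 := by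
      rw [← Nat.cast_pow, Complex.natCast_re, Nat.cast_pow]
    rw [h1, h2] at heq
    have hmpos : (0 : ℝ) < (m ⟨χ, hχ⟩ : ℝ) := by exact_mod_cast Nat.pos_of_ne_zero hm0
    have hνm : ((Nat.card G : ℂ)⁻¹ * ∑ s : G, (⟨χ, hχ⟩ : IrrCharacter G).1 (s * s)).re
        = (m ⟨χ, hχ⟩ : ℝ) := by
      have h3 : (m ⟨χ, hχ⟩ : ℝ) * ((Nat.card G : ℂ)⁻¹
          * ∑ s : G, (⟨χ, hχ⟩ : IrrCharacter G).1 (s * s)).re
          = (m ⟨χ, hχ⟩ : ℝ) * (m ⟨χ, hχ⟩ : ℝ) := by rw [heq, sq]
      exact mul_left_cancel₀ hmpos.ne' h3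
    have hm1' : m ⟨χ, hχ⟩ = 1 := by
      have h3 := htri ⟨χ, hχ⟩
      rw [hνm] at h3
      have h4 : m ⟨χ, hχ⟩ ≤ 1 := by exact_mod_cast h3
      omega
    refine ⟨by rw [hmχ, hm1', Nat.cast_one], ?_⟩
    rw [hm1', Nat.cast_one] at hνm
    rcases frobenius_schur (⟨χ, hχ⟩ : IrrCharacter G) with ⟨h0', _⟩ | ⟨_, hreal⟩
    · rw [h0'] at hνm
      simp at hνm
    · intro g
      have h5 := congrFun (congrArg Subtype.val hreal) g
      rw [irrConj_apply] at h5
      exact h5
  · intro h
    refine Finset.sum_congr rfl fun χ _ => ?_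
    by_cases hm0 : m χ = 0
    · rw [hm0]
      simp
    · have h1 := h χ.1 χ.2 (by
        rw [hm]
        exact_mod_cast hm0)
      have hm1' : m χ = 1 := by
        have h2 := h1.1
        rw [hm] at h2
        exact_mod_cast h2
      have hreal : irrConj χ = χ := by
        apply Subtype.ext
        funext g
        rw [irrConj_apply]
        exact h1.2 g
      rw [hm1', Nat.cast_one, one_mul, one_pow]
      rcases frobenius_schur χ with ⟨_, hne⟩ | ⟨h2 | h2, _⟩
      · exact absurd hreal hne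
      · exact h2
      · exact absurd h2 (fs_ne_neg_one_of_mult_one a χ h1.1)

end Count

end Cfsg.Agent.Lib.helper23
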