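import Mathlib
import Cfsg.Prelude.Def_Transfer
import Cfsg.Agent.Lib.helper23.NilpotentPrincipal

set_option autoImplicit false

/-!
# Normal `p`-complements and nilpotency of the principal block
-/

namespace Cfsg.Agent.Lib.helper23

open Cfsg Cfsg.Agent.Lib.helper24 Cfsg.Agent.Lib.helper5
open scoped ComplexConjugate

universe u

section npc

variable {G : Type u} [Group G] [Finite G] {p : ℕ} [Fact p.Prime]

theorem normal_complement_props (P : Sylow p G) (N : Subgroup G) [hNn : N.Normal]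
    (hNc : N.IsComplement' (P : Subgroup G)) :
    ¬ p ∣ Nat.card N ∧ ∀ x : G, IsPRegular p x → x ∈ N := by
  have hp : p.Prime := Fact.out
  have hNcard : Nat.card N = (P : Subgroup G).index := hNc.index_eq_card.symm
  refine ⟨?_, ?_⟩
  · rw [hNcard]
    exact P.not_dvd_index
  · intro x hx
    have hidx : N.index = Nat.card (P : Subgroup G) := hNc.symm.index_eq_card
    have h1 : orderOf (QuotientGroup.mk' N x) ∣ orderOf x := orderOf_map_dvd _ x
    have h2 : orderOf (QuotientGroup.mk' N x) ∣ Nat.card (G ⧸ N) := orderOf_dvd_natCard _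
    have h3 : Nat.card (G ⧸ N) = Nat.card (P : Subgroup G) := by
      rw [← hidx]; rfl
    rw [h3, Sylow.card_eq_multiplicity] at h2
    obtain ⟨k, -, hk⟩ := (Nat.dvd_prime_pow hp).mp h2
    have hk0 : k = 0 := by
      by_contra hk0
      apply hx
      exact (dvd_pow_self p hk0).trans (hk ▸ h1)
    rw [hk0, pow_zero, orderOf_eq_one_iff] at hk
    exact (QuotientGroup.eq_one_iff x).mp hk

theorem nilpotent_of_normal_p' (M : Ideal AlgInt) (K : Subgroup G) (hKn : K.Normal)
    (hKp : ¬ p ∣ Nat.card K) (hK : ∀ x : G, IsPRegular p x → x ∈ K) :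
    IsNilpotentBlock p M (principalBlock M G) := by
  refine ⟨⟨trivIrr G, rfl⟩, ?_⟩
  intro Q e hpair x hx _ hreg
  have hQ : IsPGroup p Q := hpair.1.1
  have hxK : x ∈ K := hK x hreg
  rw [Subgroup.mem_centralizer_iff]
  intro q hq
  have hc1 : x * q * x⁻¹ * q⁻¹ ∈ K := by
    have h1 : q * x⁻¹ * q⁻¹ ∈ K := hKn.conj_mem _ (inv_mem hxK) q
    have := mul_mem hxK h1
    have e : x * (q * x⁻¹ * q⁻¹) = x * q * x⁻¹ * q⁻¹ := by group
    rwa [e] at this
  have hc2 : x * q * x⁻¹ * q⁻¹ ∈ Q := by
    have h1 : x * q * x⁻¹ ∈ Q := (Subgroup.mem_normalizer_iff.mp hx q).mp hq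
    exact mul_mem h1 (inv_mem hq)
  obtain ⟨k, hk⟩ := (IsPGroup.iff_orderOf.mp hQ) ⟨_, hc2⟩
  rw [Subgroup.orderOf_mk] at hk
  have hdvd : orderOf (x * q * x⁻¹ * q⁻¹) ∣ Nat.card K := by
    have := orderOf_dvd_natCard (⟨_, hc1⟩ : K)
    rwa [Subgroup.orderOf_mk] at this
  have hk0 : k = 0 := by
    by_contra hk0
    apply hKp
    exact (dvd_pow_self p hk0).trans (hk ▸ hdvd)
  rw [hk0, pow_zero, orderOf_eq_one_iff] at hk
  have e : q * x = (x * q * x⁻¹ * q⁻¹)⁻¹ * (x * q) := by group
  rw [e, hk, inv_one, one_mul]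

theorem normal_complement_of_nilpotent [Fintype G] (M : Ideal AlgInt) (hM : IsPModular p M)
    (hnil : IsNilpotentBlock p M (principalBlock M G)) (P : Sylow p G) :
    ∃ N : Subgroup G, N.Normal ∧ N.IsComplement' (P : Subgroup G) := by
  have hp : p.Prime := Fact.out
  have hfrob : ∀ Q : Subgroup G, Q ≤ (P : Subgroup G) →
      ∀ g ∈ Subgroup.normalizer (Q : Set G), Nat.Coprime (orderOf g) p →
        g ∈ Subgroup.centralizer (Q : Set G) := by
    intro Q hQP g hg hcop
    have hQ : IsPGroup p Q := P.2.to_le hQP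
    have hpair : IsBrauerPairOf p M (principalBlock M G) Q
        (principalBlock M (Subgroup.centralizer (Q : Set G))) :=
      (brauerPair_principal p M hM Q hQ _ ⟨trivIrr _, rfl⟩).mpr rfl
    exact hnil.2 Q _ hpair g hg (stabilizes_principalBlock M Q g hg)
      ((Nat.Prime.coprime_iff_not_dvd hp).mp hcop.symm)
  exact (Cfsg.Agent.S0071.result P).mpr hfrob

end npc

/-- a finite group has a normal `p`-complement exactly when its principal block is nilpotent -/
theorem normal_complement_iff_nilpotent {G : Type u} [Group G] [Fintype G] (p : ℕ)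
    [Fact p.Prime] (M : Ideal AlgInt) (hM : IsPModular p M) :
    HasNormalPComplement p G ↔ IsNilpotentBlock p M (principalBlock M G) := by
  constructor
  · rintro ⟨P, N, hNn, hNc⟩
    have := hNn
    obtain ⟨h1, h2⟩ := normal_complement_props P N hNc
    exact nilpotent_of_normal_p' M N hNn h1 h2
  · intro hnil
    obtain ⟨P⟩ : Nonempty (Sylow p G) := inferInstance
    obtain ⟨N, hNn, hNc⟩ := normal_complement_of_nilpotent M hM hnil P
    exact ⟨P, N, hNn, hNc⟩

end Cfsg.Agent.Lib.helper23
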