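import Mathlib
import Cfsg.Agent.Lib.helper23.Subdegree2

set_option autoImplicit false

/-!
# Rank 3 parameters of groups of Wielandt type

The second-moment relation for the orbital eigenvalues of a multiplicity-free transitive
permutation character, and the resulting determination of the subdegrees of a primitive rank 3
group of degree `2m` whose non-principal constituents have degrees `m - 1` and `m`.
-/

namespace Cfsg.Agent.Lib.helper23

open Cfsg MulAction Cfsg.Agent.Lib.helper24
open scoped ComplexConjugate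

universe u v w

section RankOne

variable {V : Type w} [AddCommGroup V] [Module ℂ V] [FiniteDimensional ℂ V]

/-- An endomorphism absorbed on both sides by a rank one idempotent is a multiple of it. -/
theorem eq_trace_smul_of_rank_one (e X : Module.End ℂ V) (hee : e * e = e)
    (hrange : Module.finrank ℂ (LinearMap.range e) = 1) (heX : e * X = X) (hXe : X * e = X) :
    X = LinearMap.trace ℂ V X • e := by
  obtain ⟨⟨v, hv⟩, hv0, hspan⟩ := finrank_eq_one_iff'.mp hrange
  have hev : e v = v := by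
    obtain ⟨w, rfl⟩ := hv
    rw [← Module.End.mul_apply, hee]
  have hXv : X v ∈ LinearMap.range e := by
    rw [← heX, Module.End.mul_apply]
    exact LinearMap.mem_range_self e _
  obtain ⟨c, hc⟩ := hspan ⟨X v, hXv⟩
  have hc' : c • v = X v := congrArg Subtype.val hc
  have hXce : X = c • e := by
    refine LinearMap.ext fun u => ?_
    obtain ⟨d, hd⟩ := hspan ⟨e u, LinearMap.mem_range_self e u⟩
    have hd' : d • v = e u := congrArg Subtype.val hd
    have h1 : X u = X (e u) := by
      rw [← Module.End.mul_apply, hXe]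
    rw [h1, LinearMap.smul_apply, ← hd', map_smul, ← hc', smul_smul, smul_smul, mul_comm]
  have htre : LinearMap.trace ℂ V e = 1 := by
    have hproj : LinearMap.IsProj (LinearMap.range e) e :=
      (LinearMap.isProj_range_iff_isIdempotentElem e).mpr hee
    rw [hproj.trace, hrange, Nat.cast_one]
  have hc2 : LinearMap.trace ℂ V X = c := by
    rw [hXce, map_smul, htre, smul_eq_mul, mul_one]
  rw [hc2]
  exact hXce

end RankOne

section StabProj

variable {G : Type u} [Group G] [Fintype G] {Ω : Type v} [Fintype Ω] [MulAction G Ω]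
  {V : Type w} [AddCommGroup V] [Module ℂ V]

open Classical in
/-- The projection onto the fixed points of a point stabilizer. -/
noncomputable def stabProj (ρ : Representation ℂ G V) (a : Ω) : Module.End ℂ V :=
  (Nat.card (MulAction.stabilizer G a) : ℂ)⁻¹ • ∑ g : G, if g • a = a then ρ g else 0

omit [Fintype Ω] in
theorem rho_mul_stabProj (ρ : Representation ℂ G V) (a : Ω) (t : G) (ht : t • a = a) :
    ρ t * stabProj ρ a = stabProj ρ a := by
  classical
  unfold stabProj
  rw [mul_smul_comm, Finset.mul_sum]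
  congr 1
  rw [← Equiv.sum_comp (Equiv.mulLeft t⁻¹)]
  refine Finset.sum_congr rfl fun x _ => ?_
  have hx : ((Equiv.mulLeft t⁻¹) x) • a = a ↔ x • a = a := by
    change (t⁻¹ * x) • a = a ↔ x • a = a
    rw [mul_smul, inv_smul_eq_iff, ht]
  by_cases hx' : x • a = a
  · rw [if_pos hx', if_pos (hx.mpr hx')]
    change ρ t * ρ (t⁻¹ * x) = ρ x
    rw [← map_mul, mul_inv_cancel_left]
  · rw [if_neg hx', if_neg (fun h => hx' (hx.mp h)), mul_zero]

theorem stabProj_mul_of_forall [MulAction.IsPretransitive G Ω] (ρ : Representation ℂ G V)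
    (a : Ω) (X : Module.End ℂ V) (hX : ∀ t : G, t • a = a → ρ t * X = X) :
    stabProj ρ a * X = X := by
  classical
  have hT0 := card_stab_ne_zero (G := G) a
  unfold stabProj
  rw [smul_mul_assoc, Finset.sum_mul]
  have h2 : ∀ g : G, (if g • a = a then ρ g else 0) * X
      = (if g • a = a then (1 : ℂ) else 0) • X := by
    intro g
    by_cases hg : g • a = a
    · rw [if_pos hg, if_pos hg, one_smul, hX g hg]
    · rw [if_neg hg, if_neg hg, zero_smul, zero_mul]
  simp_rw [h2]
  have hcardT : (Finset.univ.filter (fun x : G => x • a = a)).card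
      = Nat.card (MulAction.stabilizer G a) := by
    convert card_filter_smul_eq (G := G) a a
  rw [← Finset.sum_smul, Finset.sum_boole, hcardT, smul_smul, inv_mul_cancel₀ hT0, one_smul]

theorem mul_stabProj_of_forall [MulAction.IsPretransitive G Ω] (ρ : Representation ℂ G V)
    (a : Ω) (X : Module.End ℂ V) (hX : ∀ t : G, t • a = a → X * ρ t = X) :
    X * stabProj ρ a = X := by
  classical
  have hT0 := card_stab_ne_zero (G := G) a
  unfold stabProj
  rw [mul_smul_comm, Finset.mul_sum]
  have h2 : ∀ g : G, X * (if g • a = a then ρ g else 0)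
      = (if g • a = a then (1 : ℂ) else 0) • X := by
    intro g
    by_cases hg : g • a = a
    · rw [if_pos hg, if_pos hg, one_smul, hX g hg]
    · rw [if_neg hg, if_neg hg, zero_smul, mul_zero]
  simp_rw [h2]
  have hcardT : (Finset.univ.filter (fun x : G => x • a = a)).card
      = Nat.card (MulAction.stabilizer G a) := by
    convert card_filter_smul_eq (G := G) a a
  rw [← Finset.sum_smul, Finset.sum_boole, hcardT, smul_smul, inv_mul_cancel₀ hT0, one_smul]

theorem stabProj_idem [MulAction.IsPretransitive G Ω] (ρ : Representation ℂ G V) (a : Ω) :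
    stabProj ρ a * stabProj ρ a = stabProj ρ a :=
  stabProj_mul_of_forall ρ a _ (fun t ht => rho_mul_stabProj ρ a t ht)

theorem trace_stabProj [MulAction.IsPretransitive G Ω] [FiniteDimensional ℂ V]
    (ρ : Representation ℂ G V) (a : Ω) :
    LinearMap.trace ℂ V (stabProj ρ a)
      = conj (classInner (fun g : G => (Nat.card (MulAction.fixedBy Ω g) : ℂ)) ρ.character) := by
  classical
  have hT0 := card_stab_ne_zero (G := G) a
  have hΩ0 : (Fintype.card Ω : ℂ) ≠ 0 := by
    have : 0 < Fintype.card Ω := Fintype.card_pos_iff.mpr ⟨a⟩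
    exact_mod_cast this.ne'
  unfold classInner
  rw [sum_fixed_mul a (fun g => conj (ρ.character g))
    (fun g h => by
      change conj (ρ.character (h * g * h⁻¹)) = conj (ρ.character g)
      rw [Representation.char_conj])]
  have h5 : (Nat.card G : ℂ) = (Fintype.card Ω : ℂ)
      * (Nat.card (MulAction.stabilizer G a) : ℂ) := by
    rw [Nat.card_eq_fintype_card, card_group_eq_card_mul_stab a]
    push_cast
    rfl
  rw [h5]
  unfold stabProj
  rw [map_smul, map_sum, map_mul, map_inv₀, map_mul, Complex.conj_natCast, Complex.conj_natCast,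
    map_mul, Complex.conj_natCast, map_sum, smul_eq_mul]
  have h2 : ∀ g : G, LinearMap.trace ℂ V (if g • a = a then ρ g else 0)
      = conj (if g • a = a then conj (ρ.character g) else 0) := by
    intro g
    by_cases hg : g • a = a
    · rw [if_pos hg, if_pos hg, Complex.conj_conj]
      rfl
    · rw [if_neg hg, if_neg hg, map_zero, map_zero]
  simp_rw [h2]
  field_simp

end StabProj

section Moment

variable {G : Type u} [Group G] [Fintype G] {Ω : Type v} [Fintype Ω] [MulAction G Ω]
  {V : Type w} [AddCommGroup V] [Module ℂ V]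

omit [Fintype Ω] in
theorem mul_mem_subD_right {a b : Ω} {s t : G} (ht : t • a = a) (hs : s ∈ subD G a b) :
    s * t ∈ subD G a b := by
  rw [mem_subD] at hs ⊢
  rw [mul_smul, ht]
  exact hs

omit [Fintype Ω] in
theorem mul_mem_subD_iff {a b : Ω} {s t : G} (ht : t • a = a) :
    t * s ∈ subD G a b ↔ s ∈ subD G a b := by
  constructor
  · intro h
    have ht' : t⁻¹ • a = a := by rw [inv_smul_eq_iff, ht]
    have h1 := mul_mem_subD ht' h
    rwa [inv_mul_cancel_left] at h1
  · exact mul_mem_subD ht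

omit [Fintype Ω] in
theorem mul_mem_subD_right_iff {a b : Ω} {s t : G} (ht : t • a = a) :
    s * t ∈ subD G a b ↔ s ∈ subD G a b := by
  constructor
  · intro h
    have ht' : t⁻¹ • a = a := by rw [inv_smul_eq_iff, ht]
    have h1 := mul_mem_subD_right ht' h
    rwa [mul_inv_cancel_right] at h1
  · exact mul_mem_subD_right ht

omit [Fintype Ω] in
theorem subD_sum_absorb (ρ : Representation ℂ G V) (a b : Ω) :
    (∀ t : G, t • a = a → ρ t * ∑ s ∈ subD G a b, ρ s⁻¹ = ∑ s ∈ subD G a b, ρ s⁻¹) ∧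
    (∀ t : G, t • a = a → (∑ s ∈ subD G a b, ρ s⁻¹) * ρ t = ∑ s ∈ subD G a b, ρ s⁻¹) ∧
    (∀ t : G, t • a = a → ρ t * ∑ s ∈ subD G a b, ρ s = ∑ s ∈ subD G a b, ρ s) ∧
    (∀ t : G, t • a = a → (∑ s ∈ subD G a b, ρ s) * ρ t = ∑ s ∈ subD G a b, ρ s) := by
  refine ⟨?_, ?_, ?_, ?_⟩
  · intro t ht
    have ht' : t⁻¹ • a = a := by rw [inv_smul_eq_iff, ht]
    rw [Finset.mul_sum]
    refine Finset.sum_equiv (Equiv.mulRight t⁻¹) ?_ ?_
    · intro s
      simp only [Equiv.coe_mulRight]
      exact (mul_mem_subD_right_iff ht').symm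
    · intro s _
      simp only [Equiv.coe_mulRight]
      rw [mul_inv_rev, inv_inv, map_mul]
  · intro t ht
    have ht' : t⁻¹ • a = a := by rw [inv_smul_eq_iff, ht]
    rw [Finset.sum_mul]
    refine Finset.sum_equiv (Equiv.mulLeft t⁻¹) ?_ ?_
    · intro s
      simp only [Equiv.coe_mulLeft]
      exact (mul_mem_subD_iff ht').symm
    · intro s _
      simp only [Equiv.coe_mulLeft]
      rw [mul_inv_rev, inv_inv, map_mul]
  · intro t ht
    rw [Finset.mul_sum]
    refine Finset.sum_equiv (Equiv.mulLeft t) ?_ ?_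
    · intro s
      simp only [Equiv.coe_mulLeft]
      exact (mul_mem_subD_iff ht).symm
    · intro s _
      simp only [Equiv.coe_mulLeft]
      rw [map_mul]
  · intro t ht
    rw [Finset.sum_mul]
    refine Finset.sum_equiv (Equiv.mulRight t) ?_ ?_
    · intro s
      simp only [Equiv.coe_mulRight]
      exact (mul_mem_subD_right_iff ht).symm
    · intro s _
      simp only [Equiv.coe_mulRight]
      rw [map_mul]

theorem subD_trace_mul [MulAction.IsPretransitive G Ω] [FiniteDimensional ℂ V]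
    (ρ : Representation ℂ G V) (a b : Ω)
    (h01 : classInner (fun g : G => (Nat.card (MulAction.fixedBy Ω g) : ℂ)) ρ.character = 0 ∨
      classInner (fun g : G => (Nat.card (MulAction.fixedBy Ω g) : ℂ)) ρ.character = 1) :
    ∑ s ∈ subD G a b, ∑ s' ∈ subD G a b, ρ.character (s⁻¹ * s')
      = (∑ s ∈ subD G a b, ρ.character s⁻¹) * (∑ s' ∈ subD G a b, ρ.character s') := by
  obtain ⟨hA1, hA2, hA3, hA4⟩ := subD_sum_absorb ρ a b
  obtain ⟨Θ, hΘ⟩ : ∃ Θ : Module.End ℂ V, Θ = ∑ s ∈ subD G a b, ρ s⁻¹ := ⟨_, rfl⟩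
  obtain ⟨Θ', hΘ'⟩ : ∃ Θ' : Module.End ℂ V, Θ' = ∑ s ∈ subD G a b, ρ s := ⟨_, rfl⟩
  obtain ⟨e, he⟩ : ∃ e : Module.End ℂ V, e = stabProj ρ a := ⟨_, rfl⟩
  rw [← hΘ] at hA1 hA2
  rw [← hΘ'] at hA3 hA4
  have h1 : e * Θ = Θ := by rw [he]; exact stabProj_mul_of_forall ρ a Θ hA1
  have h2 : Θ * e = Θ := by rw [he]; exact mul_stabProj_of_forall ρ a Θ hA2
  have h3 : e * Θ' = Θ' := by rw [he]; exact stabProj_mul_of_forall ρ a Θ' hA3
  have h4 : Θ' * e = Θ' := by rw [he]; exact mul_stabProj_of_forall ρ a Θ' hA4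
  have hee : e * e = e := by rw [he]; exact stabProj_idem ρ a
  have htr : LinearMap.trace ℂ V e
      = conj (classInner (fun g : G => (Nat.card (MulAction.fixedBy Ω g) : ℂ)) ρ.character) := by
    rw [he]
    exact trace_stabProj ρ a
  have hLHS : ∑ s ∈ subD G a b, ∑ s' ∈ subD G a b, ρ.character (s⁻¹ * s')
      = LinearMap.trace ℂ V (Θ * Θ') := by
    rw [hΘ, hΘ', Finset.sum_mul_sum, map_sum]
    refine Finset.sum_congr rfl fun s _ => ?_
    rw [map_sum]
    refine Finset.sum_congr rfl fun s' _ => ?_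
    rw [← map_mul]
    rfl
  have hT1 : ∑ s ∈ subD G a b, ρ.character s⁻¹ = LinearMap.trace ℂ V Θ := by
    rw [hΘ, map_sum]
    rfl
  have hT2 : ∑ s' ∈ subD G a b, ρ.character s' = LinearMap.trace ℂ V Θ' := by
    rw [hΘ', map_sum]
    rfl
  rw [hLHS, hT1, hT2]
  rcases h01 with h0 | h1'
  · rw [h0, map_zero] at htr
    have he0 : e = 0 := (LinearMap.IsIdempotentElem.trace_eq_zero_iff hee).mp htr
    have hΘ0 : Θ = 0 := by rw [← h1, he0, zero_mul]
    rw [hΘ0, zero_mul, map_zero, zero_mul]
  · rw [h1', map_one] at htr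
    have hrange : Module.finrank ℂ (LinearMap.range e) = 1 := by
      have hproj : LinearMap.IsProj (LinearMap.range e) e :=
        (LinearMap.isProj_range_iff_isIdempotentElem e).mpr hee
      have h5 := hproj.trace
      rw [htr] at h5
      exact_mod_cast h5.symm
    have e1 := eq_trace_smul_of_rank_one e Θ hee hrange h1 h2
    have e2 := eq_trace_smul_of_rank_one e Θ' hee hrange h3 h4
    conv_lhs => rw [e1, e2]
    rw [smul_mul_smul_comm, hee, map_smul, htr, smul_eq_mul, mul_one]

omit [Fintype Ω] [MulAction G Ω] in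
theorem sum_degree_Q [Fintype (IrrCharacter G)] (S : Finset G) :
    ∑ χ : IrrCharacter G, χ.1 1 * ∑ s ∈ S, ∑ s' ∈ S, χ.1 (s⁻¹ * s')
      = (Nat.card G : ℂ) * S.card := by
  classical
  simp_rw [Finset.mul_sum]
  rw [Finset.sum_comm]
  have h1 : ∀ s ∈ S, ∑ χ : IrrCharacter G, ∑ s' ∈ S, χ.1 1 * χ.1 (s⁻¹ * s')
      = (Nat.card G : ℂ) := by
    intro s hs
    rw [Finset.sum_comm]
    have h2 : ∀ s' ∈ S, ∑ χ : IrrCharacter G, χ.1 1 * χ.1 (s⁻¹ * s')
        = if s' = s then (Nat.card G : ℂ) else 0 := by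
      intro s' _
      by_cases hss : s' = s
      · rw [if_pos hss, hss, inv_mul_cancel, sum_degree_mul_one]
      · rw [if_neg hss]
        apply sum_degree_mul_of_ne_one
        intro h
        apply hss
        rw [inv_mul_eq_one] at h
        exact h.symm
    rw [Finset.sum_congr rfl h2, Finset.sum_ite_eq' S s, if_pos hs]
  rw [Finset.sum_congr rfl h1, Finset.sum_const, nsmul_eq_mul, mul_comm]

omit [Fintype Ω] in
theorem sum_degree_J [Fintype (IrrCharacter G)] (a b : Ω) (hab : b ≠ a) :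
    ∑ χ : IrrCharacter G, χ.1 1 * ∑ s ∈ subD G a b, conj (χ.1 s) = 0 := by
  simp_rw [Finset.mul_sum]
  rw [Finset.sum_comm]
  refine Finset.sum_eq_zero fun s hs => ?_
  refine second_orth_of_not_isConj (g := 1) (h := s) ?_
  rw [isConj_one_right]
  rintro rfl
  exact one_not_mem_subD hab hs

theorem wielandt_moments [MulAction.IsPretransitive G Ω] [Fintype (IrrCharacter G)] (a b : Ω)
    (hmf : ∀ χ : IrrCharacter G,
      classInner (fun g : G => (Nat.card (MulAction.fixedBy Ω g) : ℂ)) χ.1 = 0 ∨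
      classInner (fun g : G => (Nat.card (MulAction.fixedBy Ω g) : ℂ)) χ.1 = 1) :
    ∑ χ : IrrCharacter G, χ.1 1 * ((∑ s ∈ subD G a b, conj (χ.1 s))
        * (∑ s ∈ subD G a b, χ.1 s))
      = (Nat.card G : ℂ) * (subD G a b).card := by
  rw [← sum_degree_Q (G := G) (subD G a b)]
  refine Finset.sum_congr rfl fun χ _ => ?_
  congr 1
  obtain ⟨n, ρ, hirr, hρ⟩ := χ.2
  have h1 := subD_trace_mul ρ a b (by rw [hρ]; exact hmf χ)
  rw [hρ] at h1
  rw [h1]
  congr 1
  refine Finset.sum_congr rfl fun s _ => ?_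
  rw [← hρ, char_inv_eq_conj]

end Moment

section Wielandt


theorem wielandt_arith (k l m t : ℤ) (hk : 2 ≤ k) (hl : 2 ≤ l) (hkl : k + l = 2 * m - 1)
    (hE : 2 * k ^ 2 - 4 * k * (m - 1) * t + (m - 1) * (2 * m - 1) * t ^ 2 = 2 * k) :
    ∃ a : ℕ, 0 < a ∧ m = 2 * (a : ℤ) ^ 2 + 2 * a + 1 ∧
      (k = a * (2 * a + 1) ∨ k = (a + 1) * (2 * a + 1)) := by
  have hm : 3 ≤ m := by linarith
  have h0 : (2 * k - 1 - 2 * (m - 1) * t) ^ 2 = 1 - 2 * (m - 1) * (t * (t - 2)) := by
    linear_combination 2 * hE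
  have h1 : 2 * (m - 1) * (t * (t - 2)) ≤ 1 := by
    nlinarith [sq_nonneg (2 * k - 1 - 2 * (m - 1) * t)]
  have ht0 : 0 ≤ t := by
    by_contra h
    push Not at h
    have h2 : 3 ≤ t * (t - 2) := by nlinarith
    nlinarith
  have ht2 : t ≤ 2 := by
    by_contra h
    push Not at h
    have h2 : 3 ≤ t * (t - 2) := by nlinarith
    nlinarith
  interval_cases t
  · exfalso
    nlinarith
  · have hsq : (2 * k - 2 * m + 1) ^ 2 = 2 * m - 1 := by linear_combination 2 * hE
    obtain ⟨c, hc⟩ : ∃ c : ℕ, (c : ℤ) = |2 * k - 2 * m + 1| := ⟨(2 * k - 2 * m + 1).natAbs, by simp⟩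
    have hc2 : (c : ℤ) ^ 2 = 2 * m - 1 := by rw [hc, sq_abs, hsq]
    rcases Nat.even_or_odd' c with ⟨a, rfl | rfl⟩
    · exfalso
      push_cast at hc2
      have : (4 : ℤ) * (a : ℤ) ^ 2 = 2 * m - 1 := by linarith
      omega
    · push_cast at hc2 hc
      have hma : m = 2 * (a : ℤ) ^ 2 + 2 * a + 1 := by linarith
      have ha : 0 < a := by
        rcases Nat.eq_zero_or_pos a with h | h
        · subst h
          simp at hma
          omega
        · exact h
      refine ⟨a, ha, hma, ?_⟩
      rcases abs_cases (2 * k - 2 * m + 1) with ⟨h3, _⟩ | ⟨h3, _⟩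
      · right
        rw [h3] at hc
        have : 2 * k = 2 * ((a : ℤ) + 1) * (2 * a + 1) := by
          rw [hma] at hc
          linarith
        linarith
      · left
        rw [h3] at hc
        have : 2 * k = 2 * ((a : ℤ) * (2 * a + 1)) := by
          rw [hma] at hc
          linarith
        linarith
  · exfalso
    have h3 : 2 * ((k - (2 * m - 1)) * (k - (2 * m - 2))) = 0 := by linear_combination hE
    rcases mul_eq_zero.mp h3 with h | h
    · norm_num at h
    · rcases mul_eq_zero.mp h with h' | h'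
      · linarith
      · linarith

variable {G : Type u} [Group G] [Fintype G] {Ω : Type v} [Fintype Ω] [MulAction G Ω]

theorem suborbit_card_ne_one_of_preprimitive (hprim : MulAction.IsPreprimitive G Ω) {m : ℕ}
    (hm : Fintype.card Ω = 2 * m) (a₀ : Ω)
    (hrank : Nat.card (MulAction.orbitRel.Quotient (MulAction.stabilizer G a₀) Ω) = 3)
    (b : Ω) (hb : b ≠ a₀) :
    Nat.card (MulAction.orbit (MulAction.stabilizer G a₀) b) ≠ 1 := by
  classical
  haveI : MulAction.IsPretransitive G Ω := hprim.toIsPretransitive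
  haveI : Fintype (MulAction.orbitRel.Quotient (MulAction.stabilizer G a₀) Ω) :=
    Fintype.ofFinite _
  intro h1
  have hfix : ∀ t : G, t • a₀ = a₀ → t • b = b := by
    intro t ht
    have hsub : Subsingleton (MulAction.orbit (MulAction.stabilizer G a₀) b) :=
      (Nat.card_eq_one_iff_unique.mp h1).1
    have h2 := Subsingleton.elim
      (⟨t • b, ⟨⟨t, ht⟩, rfl⟩⟩ : MulAction.orbit (MulAction.stabilizer G a₀) b)
      ⟨b, MulAction.mem_orbit_self b⟩
    exact congrArg Subtype.val h2
  haveI : Nontrivial Ω := ⟨⟨b, a₀, hb⟩⟩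
  have hco : IsCoatom (MulAction.stabilizer G a₀) :=
    haveI := hprim
    MulAction.IsPreprimitive.isCoatom_stabilizer_of_isPreprimitive G a₀
  have hle : MulAction.stabilizer G a₀ ≤ MulAction.stabilizer G b := fun t ht => hfix t ht
  have hGb : MulAction.stabilizer G b = MulAction.stabilizer G a₀ := by
    rcases hco.le_iff.mp hle with h | h
    · exfalso
      obtain ⟨g, hg⟩ := MulAction.exists_smul_eq G b a₀
      have h3 : g ∈ MulAction.stabilizer G b := by
        rw [h]
        trivial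
      rw [MulAction.mem_stabilizer_iff] at h3
      exact hb (by rw [← h3, hg])
    · exact h
  have hB : MulAction.IsBlock G {x : Ω | MulAction.stabilizer G x = MulAction.stabilizer G a₀} := by
    rw [MulAction.isBlock_iff_smul_eq_of_mem]
    intro g y hy hgy
    have hy' : MulAction.stabilizer G y = MulAction.stabilizer G a₀ := hy
    have hgy' : MulAction.stabilizer G (g • y) = MulAction.stabilizer G a₀ := hgy
    have hT : (MulAction.stabilizer G a₀).map (MulAut.conj g).toMonoidHom
        = MulAction.stabilizer G a₀ := by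
      have h3 := MulAction.stabilizer_smul_eq_stabilizer_map_conj g y
      rw [hgy', hy'] at h3
      exact h3.symm
    have key : ∀ x : Ω, MulAction.stabilizer G (g • x) = MulAction.stabilizer G a₀
        ↔ MulAction.stabilizer G x = MulAction.stabilizer G a₀ := by
      intro x
      rw [MulAction.stabilizer_smul_eq_stabilizer_map_conj]
      constructor
      · intro h
        have h4 : (MulAction.stabilizer G x).map (MulAut.conj g).toMonoidHom
            = (MulAction.stabilizer G a₀).map (MulAut.conj g).toMonoidHom := by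
          rw [h, hT]
        exact Subgroup.map_injective (MulAut.conj g).injective h4
      · intro h
        rw [h, hT]
    ext z
    rw [Set.mem_smul_set_iff_inv_smul_mem]
    change MulAction.stabilizer G (g⁻¹ • z) = MulAction.stabilizer G a₀
      ↔ MulAction.stabilizer G z = MulAction.stabilizer G a₀
    rw [← key (g⁻¹ • z), smul_inv_smul]
  rcases hprim.isTrivialBlock_of_isBlock hB with hsub | huniv
  · exact hb (hsub (show b ∈ {x : Ω | MulAction.stabilizer G x = MulAction.stabilizer G a₀}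
      from hGb) (show a₀ ∈ {x : Ω | MulAction.stabilizer G x = MulAction.stabilizer G a₀}
      from rfl))
  · have hall : ∀ x : Ω, ∀ t : G, t • a₀ = a₀ → t • x = x := by
      intro x t ht
      have hx : x ∈ {x : Ω | MulAction.stabilizer G x = MulAction.stabilizer G a₀} := by
        rw [huniv]
        trivial
      have hx' : MulAction.stabilizer G x = MulAction.stabilizer G a₀ := hx
      have h5 : t ∈ MulAction.stabilizer G x := by
        rw [hx']
        exact ht
      exact h5
    obtain ⟨qa, n, hnsum, hnqa, hnpos, hn1, hn2⟩ := suborbit_data (G := G) a₀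
    have hn : ∀ q, n q = 1 := by
      intro q
      by_cases hq : q = qa
      · rw [hq, hnqa]
      · obtain ⟨c, hc, hnc⟩ := hn1 q hq
        rw [hnc]
        have h6 : MulAction.orbit (MulAction.stabilizer G a₀) c = {c} := by
          ext x
          constructor
          · rintro ⟨t, rfl⟩
            exact hall c t t.2
          · intro hx
            rw [Set.mem_singleton_iff] at hx
            rw [hx]
            exact MulAction.mem_orbit_self _
        rw [h6]
        simp
    have h7 : Fintype.card Ω = 3 := by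
      rw [← hnsum, Finset.sum_congr rfl (fun q _ => hn q), Finset.sum_const, Finset.card_univ,
        smul_eq_mul, mul_one, ← Nat.card_eq_fintype_card, hrank]
    omega

theorem wielandt_rank3 (hprim : MulAction.IsPreprimitive G Ω) {m : ℕ}
    (hm : Fintype.card Ω = 2 * m) (a₀ : Ω)
    (hrank : Nat.card (MulAction.orbitRel.Quotient (MulAction.stabilizer G a₀) Ω) = 3)
    (χ₁ χ₂ : G → ℂ) (h₁ : IsIrrCharacter G χ₁) (h₂ : IsIrrCharacter G χ₂)
    (hπ : (fun g : G => (Nat.card (MulAction.fixedBy Ω g) : ℂ)) = fun g => 1 + χ₁ g + χ₂ g)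
    (hd₁ : χ₁ 1 = (m : ℂ) - 1) (hd₂ : χ₂ 1 = m) :
    ∃ a : ℕ, 0 < a ∧ m = 2 * a ^ 2 + 2 * a + 1 ∧ ∀ b : Ω, b ≠ a₀ →
      Nat.card (MulAction.orbit (MulAction.stabilizer G a₀) b) = a * (2 * a + 1) ∨
      Nat.card (MulAction.orbit (MulAction.stabilizer G a₀) b) = (a + 1) * (2 * a + 1) := by
  classical
  haveI : MulAction.IsPretransitive G Ω := hprim.toIsPretransitive
  haveI : Fintype (IrrCharacter G) := Fintype.ofFinite _
  haveI : Fintype (MulAction.orbitRel.Quotient (MulAction.stabilizer G a₀) Ω) :=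
    Fintype.ofFinite _
  obtain ⟨X₁, hX₁⟩ : ∃ X₁ : IrrCharacter G, X₁ = ⟨χ₁, h₁⟩ := ⟨_, rfl⟩
  obtain ⟨X₂, hX₂⟩ : ∃ X₂ : IrrCharacter G, X₂ = ⟨χ₂, h₂⟩ := ⟨_, rfl⟩
  have hX₁v : X₁.1 = χ₁ := by rw [hX₁]
  have hX₂v : X₂.1 = χ₂ := by rw [hX₂]
  have hinner : ∀ ψ : IrrCharacter G,
      classInner (fun g : G => (Nat.card (MulAction.fixedBy Ω g) : ℂ)) ψ.1
        = (if trivIrr G = ψ then (1 : ℂ) else 0) + (if X₁ = ψ then 1 else 0)
          + (if X₂ = ψ then 1 else 0) := by
    intro ψ
    rw [hπ]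
    have h3 : (fun g => 1 + χ₁ g + χ₂ g) = (trivIrr G).1 + X₁.1 + X₂.1 := by
      funext g
      rw [hX₁v, hX₂v]
      rfl
    rw [h3, classInner_add_left, classInner_add_left, irr_orthonormal, irr_orthonormal,
      irr_orthonormal]
  obtain ⟨mm, hmm, hmm1, hdeg, hrk⟩ := perm_data (G := G) a₀
  have hX1 : X₁ ≠ trivIrr G ∧ X₂ ≠ trivIrr G := by
    have h := hinner (trivIrr G)
    rw [hmm, hmm1, if_pos rfl] at h
    constructor
    · intro h'
      rw [if_pos h'] at h
      split_ifs at h <;> norm_num at h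
    · intro h'
      rw [if_pos h'] at h
      split_ifs at h <;> norm_num at h
  have hm1 : 1 ≤ m := by
    have : 0 < Fintype.card Ω := Fintype.card_pos_iff.mpr ⟨a₀⟩
    omega
  have hX12 : X₁ ≠ X₂ := by
    intro h
    have h3 : χ₁ 1 = χ₂ 1 := by rw [← hX₁v, ← hX₂v, h]
    rw [hd₁, hd₂] at h3
    have h4 : (1 : ℂ) = 0 := by linear_combination -h3
    exact one_ne_zero h4
  have hzero : ∀ ψ : IrrCharacter G, ψ ≠ trivIrr G → ψ ≠ X₁ → ψ ≠ X₂ →
      classInner (fun g : G => (Nat.card (MulAction.fixedBy Ω g) : ℂ)) ψ.1 = 0 := by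
    intro ψ e0 e1 e2
    rw [hinner, if_neg (fun h => e0 h.symm), if_neg (fun h => e1 h.symm),
      if_neg (fun h => e2 h.symm)]
    norm_num
  have hmf : ∀ ψ : IrrCharacter G,
      classInner (fun g : G => (Nat.card (MulAction.fixedBy Ω g) : ℂ)) ψ.1 = 0 ∨
      classInner (fun g : G => (Nat.card (MulAction.fixedBy Ω g) : ℂ)) ψ.1 = 1 := by
    intro ψ
    by_cases e0 : ψ = trivIrr G
    · right
      rw [e0, hmm, hmm1, Nat.cast_one]
    · by_cases e1 : ψ = X₁
      · right
        rw [hinner, if_neg (fun h => e0 h.symm), if_pos e1.symm,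
          if_neg (fun h => hX12 (e1.symm.trans h.symm))]
        norm_num
      · by_cases e2 : ψ = X₂
        · right
          rw [hinner, if_neg (fun h => e0 h.symm), if_neg (fun h => e1 h.symm), if_pos e2.symm]
          norm_num
        · left
          exact hzero ψ e0 e1 e2
  have hT0 := card_stab_ne_zero (G := G) a₀
  have hGcard : (Nat.card G : ℂ) = 2 * (m : ℂ) * (Nat.card (MulAction.stabilizer G a₀) : ℂ) := by
    rw [Nat.card_eq_fintype_card, card_group_eq_card_mul_stab a₀, hm]
    push_cast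
    ring
  obtain ⟨qa, n, hnsum, hnqa, hnpos, hn1, hn2⟩ := suborbit_data (G := G) a₀
  have hne1 := suborbit_card_ne_one_of_preprimitive hprim hm a₀ hrank
  have hQ3 : Fintype.card (MulAction.orbitRel.Quotient (MulAction.stabilizer G a₀) Ω) = 3 := by
    rw [← Nat.card_eq_fintype_card, hrank]
  have hsplit : ∀ f : IrrCharacter G → ℂ,
      (∀ ψ : IrrCharacter G, ψ ≠ trivIrr G → ψ ≠ X₁ → ψ ≠ X₂ → f ψ = 0) →
      ∑ ψ : IrrCharacter G, f ψ = f (trivIrr G) + f X₁ + f X₂ := by
    intro f hf
    rw [← Finset.sum_subset (Finset.subset_univ ({trivIrr G, X₁, X₂} : Finset (IrrCharacter G)))]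
    · rw [Finset.sum_insert, Finset.sum_insert, Finset.sum_singleton, add_assoc]
      · rw [Finset.mem_singleton]
        exact hX12
      · rw [Finset.mem_insert, Finset.mem_singleton]
        rintro (h | h)
        · exact hX1.1 h.symm
        · exact hX1.2 h.symm
    · intro ψ _ hψ
      simp only [Finset.mem_insert, Finset.mem_singleton, not_or] at hψ
      exact hf ψ hψ.1 hψ.2.1 hψ.2.2
  have key : ∀ b : Ω, b ≠ a₀ → ∃ a : ℕ, 0 < a ∧ m = 2 * a ^ 2 + 2 * a + 1 ∧
      (Nat.card (MulAction.orbit (MulAction.stabilizer G a₀) b) = a * (2 * a + 1) ∨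
      Nat.card (MulAction.orbit (MulAction.stabilizer G a₀) b) = (a + 1) * (2 * a + 1)) := by
    intro b hb
    obtain ⟨k, hk⟩ : ∃ k : ℕ, k = Nat.card (MulAction.orbit (MulAction.stabilizer G a₀) b) :=
      ⟨_, rfl⟩
    rw [← hk]
    have hD : ((subD G a₀ b).card : ℂ) = (Nat.card (MulAction.stabilizer G a₀) : ℂ) * k := by
      rw [card_subD, hk]
      push_cast
      rfl
    obtain ⟨J, hJ⟩ : ∃ J : IrrCharacter G → ℂ,
        J = fun ψ => ∑ s ∈ subD G a₀ b, conj (ψ.1 s) := ⟨_, rfl⟩
    have hJ' : ∀ ψ : IrrCharacter G, ∑ s ∈ subD G a₀ b, conj (ψ.1 s) = J ψ := by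
      intro ψ
      rw [hJ]
    have hJ0 : ∀ ψ : IrrCharacter G, ψ ≠ trivIrr G → ψ ≠ X₁ → ψ ≠ X₂ → J ψ = 0 := by
      intro ψ e0 e1 e2
      obtain ⟨n', ρ, hirr, hρ⟩ := ψ.2
      have h3 := subD_character_eq_zero ρ a₀ b (by rw [hρ]; exact hzero ψ e0 e1 e2)
      rw [← hJ', ← h3]
      refine Finset.sum_congr rfl fun s _ => ?_
      rw [← hρ, char_inv_eq_conj]
    have hJint : ∀ ψ : IrrCharacter G,
        IsIntegral ℤ ((Nat.card (MulAction.stabilizer G a₀) : ℂ)⁻¹ * J ψ) := by
      intro ψ
      obtain ⟨n', ρ, hirr, hρ⟩ := ψ.2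
      have h3 := isIntegral_subD_character ρ a₀ b
      have h4 : ∑ s ∈ subD G a₀ b, ρ.character s⁻¹ = J ψ := by
        rw [← hJ']
        refine Finset.sum_congr rfl fun s _ => ?_
        rw [← hρ, char_inv_eq_conj]
      rw [h4] at h3
      exact h3
    have hJtriv : J (trivIrr G) = (Nat.card (MulAction.stabilizer G a₀) : ℂ) * k := by
      rw [← hJ']
      simp only [trivIrr_apply, map_one, Finset.sum_const, nsmul_eq_mul, mul_one]
      exact hD
    have hconjJ : ∀ ψ : IrrCharacter G, ∑ s ∈ subD G a₀ b, ψ.1 s = conj (J ψ) := by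
      intro ψ
      rw [← hJ', map_sum]
      refine Finset.sum_congr rfl fun s _ => ?_
      rw [Complex.conj_conj]
    have hA := sum_degree_J (G := G) a₀ b hb
    simp_rw [hJ'] at hA
    rw [hsplit _ (fun ψ e0 e1 e2 => by rw [hJ0 ψ e0 e1 e2, mul_zero])] at hA
    have hBm := wielandt_moments (G := G) a₀ b hmf
    simp_rw [hJ', hconjJ] at hBm
    rw [hsplit _ (fun ψ e0 e1 e2 => by rw [hJ0 ψ e0 e1 e2, zero_mul, mul_zero])] at hBm
    rw [trivIrr_apply, hJtriv, hX₁v, hX₂v, hd₁, hd₂] at hA
    rw [trivIrr_apply, hJtriv, hX₁v, hX₂v, hd₁, hd₂, hGcard, hD] at hBm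
    obtain ⟨r, hr⟩ : ∃ r : ℂ, r = (Nat.card (MulAction.stabilizer G a₀) : ℂ)⁻¹ * J X₁ :=
      ⟨_, rfl⟩
    obtain ⟨s, hs⟩ : ∃ s : ℂ, s = (Nat.card (MulAction.stabilizer G a₀) : ℂ)⁻¹ * J X₂ :=
      ⟨_, rfl⟩
    have hr_int : IsIntegral ℤ r := by rw [hr]; exact hJint X₁
    have hs_int : IsIntegral ℤ s := by rw [hs]; exact hJint X₂
    have hJ1 : J X₁ = (Nat.card (MulAction.stabilizer G a₀) : ℂ) * r := by
      rw [hr, ← mul_assoc, mul_inv_cancel₀ hT0, one_mul]
    have hJ2 : J X₂ = (Nat.card (MulAction.stabilizer G a₀) : ℂ) * s := by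
      rw [hs, ← mul_assoc, mul_inv_cancel₀ hT0, one_mul]
    rw [hJ1, hJ2] at hA hBm
    have hlin : (k : ℂ) + ((m : ℂ) - 1) * r + m * s = 0 := by
      have h3 : (Nat.card (MulAction.stabilizer G a₀) : ℂ)
          * ((k : ℂ) + ((m : ℂ) - 1) * r + m * s) = 0 := by
        linear_combination hA
      rcases mul_eq_zero.mp h3 with h | h
      · exact absurd h hT0
      · exact h
    have hquad : (k : ℂ) ^ 2 + ((m : ℂ) - 1) * (r * conj r) + m * (s * conj s)
        = 2 * m * k := by
      have h3 : (Nat.card (MulAction.stabilizer G a₀) : ℂ) ^ 2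
          * ((k : ℂ) ^ 2 + ((m : ℂ) - 1) * (r * conj r) + m * (s * conj s) - 2 * m * k) = 0 := by
        simp only [map_mul, Complex.conj_natCast] at hBm
        linear_combination hBm
      rcases mul_eq_zero.mp h3 with h | h
      · exact absurd ((pow_eq_zero_iff two_ne_zero).mp h) hT0
      · linear_combination h
    -- the rational sum
    have hc : (Nat.card (MulAction.stabilizer G a₀) : ℂ)⁻¹
        * ∑ x ∈ subD G a₀ b, (Nat.card (MulAction.fixedBy Ω x) : ℂ) = k + r + s := by
      have h3 : ∀ g : G, (Nat.card (MulAction.fixedBy Ω g) : ℂ)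
          = 1 + conj (χ₁ g) + conj (χ₂ g) := by
        intro g
        have h := congrFun hπ g
        have h2 : conj ((Nat.card (MulAction.fixedBy Ω g) : ℂ))
            = (Nat.card (MulAction.fixedBy Ω g) : ℂ) := Complex.conj_natCast _
        rw [← h2, h, map_add, map_add, map_one]
      simp_rw [h3, Finset.sum_add_distrib]
      have h4 : ∑ x ∈ subD G a₀ b, conj (χ₁ x) = J X₁ := by rw [← hJ', hX₁v]
      have h5 : ∑ x ∈ subD G a₀ b, conj (χ₂ x) = J X₂ := by rw [← hJ', hX₂v]
      rw [h4, h5, Finset.sum_const, nsmul_eq_mul, mul_one, hD, hJ1, hJ2]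
      field_simp
    obtain ⟨N, hN⟩ : ∃ N : ℕ,
        ∑ x ∈ subD G a₀ b, (Nat.card (MulAction.fixedBy Ω x) : ℂ) = (N : ℂ) :=
      ⟨∑ x ∈ subD G a₀ b, Nat.card (MulAction.fixedBy Ω x), by push_cast; rfl⟩
    have hcint : IsIntegral ℤ ((N : ℂ) / (Nat.card (MulAction.stabilizer G a₀) : ℂ)) := by
      rw [div_eq_inv_mul, ← hN, hc]
      exact ((isIntegral_natCast k).add hr_int).add hs_int
    obtain ⟨q, hq⟩ := dvd_of_isIntegral_div N (Nat.card (MulAction.stabilizer G a₀))
      Nat.card_pos.ne' hcint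
    have hrs' : r + s = -(((k : ℤ) - (q : ℤ) : ℤ) : ℂ) := by
      have h3 : (k : ℂ) + r + s = q := by
        rw [← hc, hN, hq]
        push_cast
        field_simp
      push_cast
      linear_combination h3
    obtain ⟨t, ht⟩ : ∃ t : ℤ, t = (k : ℤ) - (q : ℤ) := ⟨_, rfl⟩
    rw [← ht] at hrs'
    have hrv : r = (k : ℂ) - m * t := by
      linear_combination (-1 : ℂ) * hlin + (m : ℂ) * hrs'
    have hsv : s = -(k : ℂ) + ((m : ℂ) - 1) * t := by
      linear_combination hrs' - hrv
    have hcr : conj r = r := by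
      rw [hrv, map_sub, map_mul, Complex.conj_natCast, Complex.conj_natCast, map_intCast]
    have hcs : conj s = s := by
      rw [hsv, map_add, map_neg, map_mul, map_sub, map_one, Complex.conj_natCast,
        Complex.conj_natCast, map_intCast]
    rw [hcr, hcs, hrv, hsv] at hquad
    have hE0 : ((k : ℤ) ^ 2 + ((m : ℤ) - 1) * (((k : ℤ) - m * t) * ((k : ℤ) - m * t))
        + m * ((-(k : ℤ) + ((m : ℤ) - 1) * t) * (-(k : ℤ) + ((m : ℤ) - 1) * t)) : ℤ)
        = 2 * m * k := by
      exact_mod_cast hquad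
    have hm0 : (m : ℤ) ≠ 0 := by
      have : m ≠ 0 := by omega
      exact_mod_cast this
    have hE : 2 * (k : ℤ) ^ 2 - 4 * k * ((m : ℤ) - 1) * t
        + ((m : ℤ) - 1) * (2 * m - 1) * t ^ 2 = 2 * k := by
      apply mul_left_cancel₀ hm0
      linear_combination hE0
    -- the subdegrees are at least 2
    obtain ⟨qb, hqb, hnqb⟩ := hn2 b hb
    rw [← hk] at hnqb
    have hk2 : 2 ≤ k := by
      have h3 := hnpos qb
      have h4 := hne1 b hb
      rw [← hk] at h4
      omega
    have hR : ((Finset.univ.erase qa).erase qb).card = 1 := by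
      rw [Finset.card_erase_of_mem (Finset.mem_erase.mpr ⟨hqb, Finset.mem_univ _⟩),
        Finset.card_erase_of_mem (Finset.mem_univ _), Finset.card_univ, hQ3]
    obtain ⟨q', hq'⟩ := Finset.card_eq_one.mp hR
    have hq'mem : q' ∈ (Finset.univ.erase qa).erase qb := by
      rw [hq']
      exact Finset.mem_singleton_self _
    have hq'a : q' ≠ qa := (Finset.mem_erase.mp (Finset.mem_erase.mp hq'mem).2).1
    have hsum3 : n qa + (n qb + n q') = 2 * m := by
      rw [← hm, ← hnsum, ← Finset.add_sum_erase _ _ (Finset.mem_univ qa),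
        ← Finset.add_sum_erase _ _ (Finset.mem_erase.mpr ⟨hqb, Finset.mem_univ _⟩), hq',
        Finset.sum_singleton]
    obtain ⟨c, hc', hnc⟩ := hn1 q' hq'a
    have hl2 : 2 ≤ n q' := by
      have h3 := hnpos q'
      have h4 := hne1 c hc'
      rw [← hnc] at h4
      omega
    rw [hnqa, hnqb] at hsum3
    obtain ⟨a, ha, hma, hka⟩ := wielandt_arith (k : ℤ) (n q' : ℤ) (m : ℤ) t
      (by exact_mod_cast hk2) (by exact_mod_cast hl2) (by omega) hE
    refine ⟨a, ha, by exact_mod_cast hma, ?_⟩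
    rcases hka with h | h
    · left
      exact_mod_cast h
    · right
      exact_mod_cast h
  obtain ⟨q₀, hq₀⟩ := Fintype.exists_ne_of_one_lt_card (by rw [hQ3]; norm_num) qa
  obtain ⟨b₀, hb₀, -⟩ := hn1 q₀ hq₀
  obtain ⟨a, ha, hma, -⟩ := key b₀ hb₀
  refine ⟨a, ha, hma, fun b hb => ?_⟩
  obtain ⟨a', ha', hma', hk'⟩ := key b hb
  have haa : a' = a := by
    apply Nat.le_antisymm
    · by_contra h
      push Not at h
      nlinarith
    · by_contra h
      push Not at h
      nlinarith
  rw [haa] at hk'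
  exact hk'

end Wielandt

end Cfsg.Agent.Lib.helper23
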