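import Mathlib
import Cfsg.Agent.Lib.helper23.PRegChar
import Cfsg.Agent.Lib.helper24.CharComplete

set_option autoImplicit false

namespace Cfsg.Agent.Lib.helper23

open Cfsg Cfsg.Agent.Lib.helper24
open scoped ComplexConjugate

universe u

variable {G : Type u} [Group G]

theorem card_real_odd_le [Finite G] {M : Ideal AlgInt} (hM : IsPModular 2 M) :
    Nat.card {χ : IrrCharacter G // (∀ g : G, (χ.1 g).im = 0) ∧ Odd (charDegree χ.1)}
      ≤ 2 ^ (2 * (Nat.card G).factorization 2) := by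
  classical
  haveI := Fintype.ofFinite G
  haveI := Fintype.ofFinite (IrrCharacter G)
  have : Fact (Nat.Prime 2) := ⟨Nat.prime_two⟩
  obtain ⟨a, ha⟩ : ∃ a : ℕ, a = (Nat.card G).factorization 2 := ⟨_, rfl⟩
  rw [← ha]
  obtain ⟨θ, hθdef⟩ : ∃ θ : G → ℂ, θ = fun x => if 2 ∣ orderOf x then 0 else ((2 ^ a : ℕ) : ℂ) :=
    ⟨_, rfl⟩
  have hθ : IsGeneralizedCharacter G θ := by
    rw [hθdef, ha]; exact genChar_pRegular 2
  have hθc : IsClassFunction G θ := by
    intro g h
    have : orderOf (h * g * h⁻¹) = orderOf g :=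
      orderOf_injective (MulAut.conj h).toMonoidHom (MulAut.conj h).injective g
    rw [hθdef]
    simp only [this]
  have hint : ∀ χ : IrrCharacter G, ∃ z : ℤ, classInner θ χ.1 = z := by
    intro χ
    obtain ⟨α, β, hα, hβ, hαβ⟩ := hθ
    obtain ⟨m, hm⟩ := isCharacter_inner_irr_nat hα χ
    obtain ⟨n, hn⟩ := isCharacter_inner_irr_nat hβ χ
    refine ⟨(m : ℤ) - n, ?_⟩
    rw [hαβ, classInner_sub_left, hm, hn]
    push_cast
    rfl
  choose z hz using hint
  have hpars : classInner θ θ = ∑ χ : IrrCharacter G, ((z χ : ℂ)) ^ 2 := by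
    have hexp := classFunction_expansion hθc
    have h1 : classInner θ θ = classInner θ (∑ χ : IrrCharacter G, classInner θ χ.1 • χ.1) :=
      congrArg (classInner θ) hexp
    rw [h1, classInner_sum_right]
    apply Finset.sum_congr rfl
    intro χ _
    rw [classInner_smul_right, hz χ]
    simp [pow_two]
  have hcardpos : (0 : ℝ) < (Nat.card G : ℝ) := by exact_mod_cast Nat.card_pos
  have hbound : (∑ χ : IrrCharacter G, ((z χ : ℝ)) ^ 2) ≤ ((2 : ℝ) ^ a) ^ 2 := by
    have h1 : classInner θ θ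
        = (((Nat.card G : ℝ)⁻¹ * ∑ g : G, (if 2 ∣ orderOf g then (0 : ℝ) else ((2 : ℝ) ^ a) ^ 2) : ℝ) : ℂ) := by
      unfold classInner
      push_cast
      congr 1
      apply Finset.sum_congr rfl
      intro g _
      rw [hθdef]
      by_cases hg : 2 ∣ orderOf g
      · simp [hg]
      · simp [hg, pow_two, Complex.conj_ofNat]
    have h2 : ((∑ χ : IrrCharacter G, ((z χ : ℝ)) ^ 2 : ℝ) : ℂ)
        = (((Nat.card G : ℝ)⁻¹ * ∑ g : G, (if 2 ∣ orderOf g then (0 : ℝ) else ((2 : ℝ) ^ a) ^ 2) : ℝ) : ℂ) := by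
      rw [← h1, hpars]
      push_cast
      rfl
    have h3 := Complex.ofReal_injective h2
    rw [h3]
    have h4 : ∑ g : G, (if 2 ∣ orderOf g then (0 : ℝ) else ((2 : ℝ) ^ a) ^ 2)
        ≤ ∑ _g : G, ((2 : ℝ) ^ a) ^ 2 := by
      apply Finset.sum_le_sum
      intro g _
      split_ifs
      · positivity
      · exact le_refl _
    rw [Finset.sum_const, Finset.card_univ, nsmul_eq_mul, ← Nat.card_eq_fintype_card] at h4
    rw [inv_mul_le_iff₀ hcardpos]
    exact h4
  have hz0 : ∀ χ : IrrCharacter G, (∀ g : G, (χ.1 g).im = 0) → Odd (charDegree χ.1) → z χ ≠ 0 := by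
    intro χ hreal hodd h0
    have hne := sum_regular_ne_zero hM χ hreal hodd
    apply hne
    have h1 := hz χ
    rw [h0, Int.cast_zero] at h1
    unfold classInner at h1
    have hcn : (Nat.card G : ℂ) ≠ 0 := NeZero.ne _
    have h2 : ∑ g : G, θ g * conj (χ.1 g) = 0 := by
      rcases mul_eq_zero.mp h1 with h | h
      · exact absurd (inv_eq_zero.mp h) hcn
      · exact h
    have h3 : ∑ g : G, θ g * conj (χ.1 g)
        = ((2 ^ a : ℕ) : ℂ) * ∑ g : G, if ¬ 2 ∣ orderOf g then χ.1 g else 0 := by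
      rw [Finset.mul_sum]
      apply Finset.sum_congr rfl
      intro g _
      have hc : conj (χ.1 g) = χ.1 g := Complex.conj_eq_iff_im.mpr (hreal g)
      rw [hθdef, hc]
      by_cases hg : 2 ∣ orderOf g
      · simp [hg]
      · simp [hg]
    rw [h3] at h2
    rcases mul_eq_zero.mp h2 with h | h
    · exfalso
      have : ((2 ^ a : ℕ) : ℂ) ≠ 0 := by
        exact_mod_cast (pow_pos (by norm_num : 0 < 2) a).ne'
      exact this h
    · exact h
  have hboundZ : (∑ χ : IrrCharacter G, (z χ) ^ 2) ≤ ((2 : ℤ) ^ a) ^ 2 := by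
    have : ((∑ χ : IrrCharacter G, (z χ) ^ 2 : ℤ) : ℝ) ≤ (((2 : ℤ) ^ a) ^ 2 : ℤ) := by
      push_cast
      exact hbound
    exact_mod_cast this
  rw [Nat.card_eq_fintype_card, Fintype.card_subtype]
  have hcount : ((Finset.univ.filter (fun χ : IrrCharacter G =>
      (∀ g : G, (χ.1 g).im = 0) ∧ Odd (charDegree χ.1))).card : ℤ)
      ≤ ∑ χ : IrrCharacter G, (z χ) ^ 2 := by
    rw [Finset.card_eq_sum_ones, Nat.cast_sum]
    calc (∑ χ ∈ Finset.univ.filter (fun χ : IrrCharacter G =>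
            (∀ g : G, (χ.1 g).im = 0) ∧ Odd (charDegree χ.1)), ((1 : ℕ) : ℤ))
        ≤ ∑ χ ∈ Finset.univ.filter (fun χ : IrrCharacter G =>
            (∀ g : G, (χ.1 g).im = 0) ∧ Odd (charDegree χ.1)), (z χ) ^ 2 := by
          apply Finset.sum_le_sum
          intro χ hχ
          rw [Finset.mem_filter] at hχ
          have h1 := hz0 χ hχ.2.1 hχ.2.2
          have h2 : 0 < (z χ) ^ 2 := by positivity
          push_cast
          linarith
      _ ≤ ∑ χ : IrrCharacter G, (z χ) ^ 2 := by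
          apply Finset.sum_le_sum_of_subset_of_nonneg (Finset.filter_subset _ _)
          intro χ _ _
          positivity
  have hfin := hcount.trans hboundZ
  have h5 : ((2 : ℤ) ^ a) ^ 2 = ((2 ^ (2 * a) : ℕ) : ℤ) := by
    push_cast
    ring
  rw [h5] at hfin
  exact_mod_cast hfin

end Cfsg.Agent.Lib.helper23
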