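import Mathlib

set_option autoImplicit false

/-!
# A normal subgroup of order `p ^ 3` of a `p`-group: commutator chain or central commutators
(piece X1 of the backup route for S1454, part (3b))
-/

namespace Cfsg.Agent.Lib.helper23.S1454X1

open scoped commutatorElement

variable {G : Type*} [Group G] [Finite G]

/-- `⁅X, R⁆ ≤ X` when `R` normalizes `X`. -/
theorem comm_le (R X : Subgroup G) (hRX : R ≤ Subgroup.normalizer (X : Set G)) : ⁅X, R⁆ ≤ X := by
  rw [Subgroup.commutator_le]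
  intro x hx r hr
  have h1 : r * x⁻¹ * r⁻¹ ∈ X :=
    (Subgroup.mem_normalizer_iff.1 (hRX hr) x⁻¹).1 (X.inv_mem hx)
  have h2 : ⁅x, r⁆ = x * (r * x⁻¹ * r⁻¹) := by rw [commutatorElement_def]; group
  rw [h2]
  exact X.mul_mem hx h1

/-- In a `p`-group `R`, a nontrivial subgroup `X ≤ R` normalized by `R` has `⁅X, R⁆ ≠ X`. -/
theorem comm_ne (p : ℕ) [Fact p.Prime] (R X : Subgroup G) (hR : IsPGroup p R) (hXR : X ≤ R)
    (hX : X ≠ ⊥) : ⁅X, R⁆ ≠ X := by
  intro heq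
  haveI : Group.IsNilpotent R := hR.isNilpotent
  obtain ⟨k, hk⟩ := (Subgroup.isNilpotent_iff_lowerCentralSeries R).mp inferInstance
  have hind : ∀ j, X ≤ R.lowerCentralSeries j := by
    intro j
    induction j with
    | zero => simpa using hXR
    | succ j ihj =>
      rw [Subgroup.lowerCentralSeries_succ]
      calc X = ⁅X, R⁆ := heq.symm
        _ ≤ ⁅R.lowerCentralSeries j, R⁆ := Subgroup.commutator_mono ihj le_rfl
  have := hind k
  rw [hk, le_bot_iff] at this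
  exact hX this

/-- `g` normalizing `A` and `B` normalizes `⁅A, B⁆`. -/
theorem normalizer_comm (A B : Subgroup G) (g : G) (hA : g ∈ Subgroup.normalizer (A : Set G))
    (hB : g ∈ Subgroup.normalizer (B : Set G)) : g ∈ Subgroup.normalizer ((⁅A, B⁆ : Subgroup G) : Set G) := by
  rw [Subgroup.mem_normalizer_iff_map_conj_eq] at hA hB ⊢
  rw [Subgroup.map_commutator, hA, hB]

/-- If `⁅X, R⁆ = ⊥` and `T ≤ R` then `X` centralizes `T`. -/
theorem le_centralizer_of_comm_bot (R T X : Subgroup G) (hTR : T ≤ R) (h : ⁅X, R⁆ = ⊥) :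
    X ≤ Subgroup.centralizer (T : Set G) := by
  have h1 : X ≤ Subgroup.centralizer (R : Set G) := Subgroup.commutator_eq_bot_iff_le_centralizer.1 h
  exact h1.trans (Subgroup.centralizer_le (by exact_mod_cast hTR))

theorem card_lt (X Y : Subgroup G) (hle : X ≤ Y) (hne : X ≠ Y) : Nat.card X < Nat.card Y := by
  by_contra h
  exact hne (Subgroup.eq_of_le_of_card_ge hle (not_lt.mp h))

theorem chain_or_central (p : ℕ) [Fact p.Prime] (R T : Subgroup G) (hR : IsPGroup p R)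
    (hTR : T ≤ R) (hRT : R ≤ Subgroup.normalizer (T : Set G)) (hT3 : Nat.card T = p ^ 3) :
    (∀ r ∈ R, ∀ t ∈ T, r * t * r⁻¹ * t⁻¹ ∈ T ⊓ Subgroup.centralizer (T : Set G)) ∨
    ∃ L M : Subgroup G, M ≤ L ∧ L ≤ T ∧ Nat.card M = p ∧ Nat.card L = p ^ 2 ∧
      R ≤ Subgroup.normalizer (L : Set G) ∧ R ≤ Subgroup.normalizer (M : Set G) ∧
      ∀ g ∈ Subgroup.normalizer (R : Set G), g ∈ Subgroup.normalizer (T : Set G) →
        g ∈ Subgroup.normalizer (L : Set G) ∧ g ∈ Subgroup.normalizer (M : Set G) := by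
  have hp : p.Prime := Fact.out
  have hRR : R ≤ Subgroup.normalizer (R : Set G) := Subgroup.le_normalizer
  have hTbot : T ≠ ⊥ := by
    intro h
    rw [h, Subgroup.card_bot] at hT3
    have : 1 < p ^ 3 := Nat.one_lt_pow (by norm_num) hp.one_lt
    omega
  -- L := ⁅T, R⁆
  have hLT : ⁅T, R⁆ ≤ T := comm_le R T hRT
  have hLne : ⁅T, R⁆ ≠ T := comm_ne p R T hR hTR hTbot
  have hLlt := card_lt _ _ hLT hLne
  have hRL : R ≤ Subgroup.normalizer ((⁅T, R⁆ : Subgroup G) : Set G) :=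
    fun r hr => normalizer_comm T R r (hRT hr) (hRR hr)
  have hLR : ⁅T, R⁆ ≤ R := hLT.trans hTR
  -- the left alternative follows once `⁅T, R⁆` centralizes `T`
  have left_of : ⁅T, R⁆ ≤ Subgroup.centralizer (T : Set G) →
      ∀ r ∈ R, ∀ t ∈ T, r * t * r⁻¹ * t⁻¹ ∈ T ⊓ Subgroup.centralizer (T : Set G) := by
    intro hc r hr t ht
    have h1 : r * t * r⁻¹ * t⁻¹ ∈ ⁅T, R⁆ := by
      have h2 : ⁅t, r⁆ ∈ ⁅T, R⁆ := Subgroup.commutator_mem_commutator ht hr
      have h3 : r * t * r⁻¹ * t⁻¹ = (⁅t, r⁆)⁻¹ := by rw [commutatorElement_def]; group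
      rw [h3]
      exact Subgroup.inv_mem _ h2
    exact ⟨hLT h1, hc h1⟩
  obtain ⟨m, hm3, hm⟩ := (Nat.dvd_prime_pow hp).1
    (hT3 ▸ Subgroup.card_dvd_of_le hLT : Nat.card ↥(⁅T, R⁆) ∣ p ^ 3)
  have hm2 : m ≤ 2 := by
    by_contra hcon
    have : m = 3 := by omega
    rw [this, ← hT3] at hm
    omega
  -- M := ⁅⁅T, R⁆, R⁆
  have hML : ⁅⁅T, R⁆, R⁆ ≤ ⁅T, R⁆ := comm_le R _ hRL
  by_cases hLbot : ⁅T, R⁆ = ⊥
  · left
    apply left_of
    rw [hLbot]
    exact bot_le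
  have hMne : ⁅⁅T, R⁆, R⁆ ≠ ⁅T, R⁆ := comm_ne p R _ hR hLR hLbot
  have hMlt := card_lt _ _ hML hMne
  obtain ⟨n, hnm, hn⟩ := (Nat.dvd_prime_pow hp).1
    (hm ▸ Subgroup.card_dvd_of_le hML : Nat.card ↥(⁅⁅T, R⁆, R⁆) ∣ p ^ m)
  have hnlt : n < m := by
    by_contra hcon
    have : n = m := by omega
    rw [this, ← hm] at hn
    omega
  by_cases hn0 : n = 0
  · -- M trivial: R centralizes L
    left
    apply left_of
    apply le_centralizer_of_comm_bot R T _ hTR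
    rw [hn0, pow_zero] at hn
    exact (Subgroup.card_eq_one).1 hn
  · -- n = 1, m = 2
    have hn1 : n = 1 := by omega
    have hm2' : m = 2 := by omega
    right
    refine ⟨⁅T, R⁆, ⁅⁅T, R⁆, R⁆, hML, hLT, ?_, ?_, hRL, ?_, ?_⟩
    · rw [hn, hn1, pow_one]
    · rw [hm, hm2']
    · exact fun r hr => normalizer_comm _ R r (hRL hr) (hRR hr)
    · intro g hgR hgT
      have hgL := normalizer_comm T R g hgT hgR
      exact ⟨hgL, normalizer_comm _ R g hgL hgR⟩

end Cfsg.Agent.Lib.helper23.S1454X1
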