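import Cfsg.Agent.Lib.helper23.SRG22

set_option autoImplicit false

namespace Cfsg.Agent.Lib.helper23

open Finset Cfsg.Agent.Lib.helper2

theorem ncard_eq_sum_ite {Z : Type*} [Fintype Z] (T : Set Z) [DecidablePred (· ∈ T)] :
    T.ncard = ∑ z, if z ∈ T then 1 else 0 := by
  rw [← Finset.card_filter, ← Set.ncard_coe_finset]
  congr 1
  ext z
  simp

theorem ncard_option_sum {X Y : Type*} [Fintype X] [Fintype Y] (S : Set (Option (X ⊕ Y))) :
    S.ncard = {u : Unit | none ∈ S}.ncard + {a : X | some (Sum.inl a) ∈ S}.ncard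
      + {b : Y | some (Sum.inr b) ∈ S}.ncard := by
  classical
  rw [ncard_eq_sum_ite S, ncard_eq_sum_ite {a : X | some (Sum.inl a) ∈ S},
    ncard_eq_sum_ite {b : Y | some (Sum.inr b) ∈ S}, ncard_eq_sum_ite {u : Unit | none ∈ S},
    Fintype.sum_option, Fintype.sum_sum_type]
  simp only [Set.mem_setOf_eq, Finset.univ_unique, Finset.sum_singleton]
  rw [add_assoc]

section

variable {α : Type*} {B : Set (Finset α)}

/-- adjacency to the extra vertex. -/
def pbInf : Option (α ⊕ B) → Prop
  | none => False
  | some (Sum.inl _) => True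
  | some (Sum.inr _) => False

/-- adjacency to a point. -/
def pbPt : Option (α ⊕ B) → α → Prop
  | none, _ => True
  | some (Sum.inl _), _ => False
  | some (Sum.inr b), a => a ∈ (b : Finset α)

/-- adjacency to a block. -/
def pbBlk : Option (α ⊕ B) → Finset α → Prop
  | none, _ => False
  | some (Sum.inl a), c => a ∈ c
  | some (Sum.inr b), c => Disjoint (b : Finset α) c

theorem pb_adj_none (v : Option (α ⊕ B)) : (Cfsg.pointBlockGraph B).Adj v none ↔ pbInf v := by
  rcases v with _ | a | b <;>
    simp [Cfsg.pointBlockGraph, Cfsg.pointBlockRel, pbInf, SimpleGraph.fromRel_adj]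

theorem pb_adj_pt (v : Option (α ⊕ B)) (a : α) :
    (Cfsg.pointBlockGraph B).Adj v (some (Sum.inl a)) ↔ pbPt v a := by
  rcases v with _ | a' | b <;>
    simp [Cfsg.pointBlockGraph, Cfsg.pointBlockRel, pbPt, SimpleGraph.fromRel_adj]

theorem pb_adj_blk (hB : Cfsg.IsSteinerSystem 3 6 B) (v : Option (α ⊕ B)) (c : B) :
    (Cfsg.pointBlockGraph B).Adj v (some (Sum.inr c)) ↔ pbBlk v (c : Finset α) := by
  rcases v with _ | a' | b
  · simp [Cfsg.pointBlockGraph, Cfsg.pointBlockRel, pbBlk, SimpleGraph.fromRel_adj]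
  · simp [Cfsg.pointBlockGraph, Cfsg.pointBlockRel, pbBlk, SimpleGraph.fromRel_adj]
  · simp only [Cfsg.pointBlockGraph, Cfsg.pointBlockRel, pbBlk, SimpleGraph.fromRel_adj]
    constructor
    · rintro ⟨-, h | h⟩
      · exact h
      · exact h.symm
    · intro h
      refine ⟨?_, Or.inl h⟩
      intro heq
      have hbc : b = c := by simpa using heq
      subst hbc
      have h0 : (b : Finset α) = ∅ := by simpa using h
      have h6 := hB.1 b b.2
      rw [h0] at h6
      simp at h6

end

section

variable {α : Type*} [Fintype α] [DecidableEq α] {B : Set (Finset α)}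

theorem pb_neighbor_ncard [Fintype B] (hB : Cfsg.IsSteinerSystem 3 6 B) (v : Option (α ⊕ B)) :
    ((Cfsg.pointBlockGraph B).neighborSet v).ncard
      = {u : Unit | pbInf v}.ncard + {a : α | pbPt v a}.ncard
        + {c : B | pbBlk v (c : Finset α)}.ncard := by
  rw [ncard_option_sum]
  simp only [SimpleGraph.mem_neighborSet, pb_adj_none, pb_adj_pt, pb_adj_blk hB]

theorem pb_common_ncard [Fintype B] (hB : Cfsg.IsSteinerSystem 3 6 B) (v w : Option (α ⊕ B)) :
    ((Cfsg.pointBlockGraph B).commonNeighbors v w).ncard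
      = {u : Unit | pbInf v ∧ pbInf w}.ncard + {a : α | pbPt v a ∧ pbPt w a}.ncard
        + {c : B | pbBlk v (c : Finset α) ∧ pbBlk w (c : Finset α)}.ncard := by
  rw [ncard_option_sum]
  simp only [SimpleGraph.mem_commonNeighbors, pb_adj_none, pb_adj_pt, pb_adj_blk hB]

theorem ncard_unit_true : {u : Unit | True}.ncard = 1 := by
  rw [Set.setOf_true, Set.ncard_univ]; simp

theorem ncard_set_false (X : Type*) : {x : X | False}.ncard = 0 := by
  rw [Set.setOf_false, Set.ncard_empty]

theorem ncard_set_true_fin (X : Type*) [Fintype X] : {x : X | True}.ncard = Fintype.card X := by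
  rw [Set.setOf_true, Set.ncard_univ, Nat.card_eq_fintype_card]

theorem ncard_set_mem (b : Finset α) : {a : α | a ∈ b}.ncard = b.card := by
  rw [← Set.ncard_coe_finset]; rfl

theorem ncard_set_mem_inter (b c : Finset α) : {a : α | a ∈ b ∧ a ∈ c}.ncard = (b ∩ c).card := by
  rw [← Set.ncard_coe_finset]
  congr 1
  ext a
  simp

theorem s22_through_one (hα : Fintype.card α = 22) (hB : Cfsg.IsSteinerSystem 3 6 B) (a : α) :
    ((Steiner.Bf B).filter (fun c => a ∈ c)).card = 21 := by
  have h := Steiner.card_blocks_through hB ({a} : Finset α) (by simp)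
  rw [hα] at h
  simp only [card_singleton, singleton_subset_iff] at h
  norm_num [Nat.choose] at h
  omega

theorem s22_through_two (hα : Fintype.card α = 22) (hB : Cfsg.IsSteinerSystem 3 6 B) (a a' : α)
    (hne : a ≠ a') : ((Steiner.Bf B).filter (fun c => a ∈ c ∧ a' ∈ c)).card = 5 := by
  have hc : ({a, a'} : Finset α).card = 2 := Finset.card_pair hne
  have h := Steiner.card_blocks_through hB ({a, a'} : Finset α) (by rw [hc]; norm_num)
  rw [hα, hc] at h
  simp only [Finset.insert_subset_iff, singleton_subset_iff] at h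
  norm_num [Nat.choose] at h
  omega

/-- through a point outside `b` there are exactly six blocks disjoint from `b`. -/
theorem s22_through_one_disj (hα : Fintype.card α = 22) (hB : Cfsg.IsSteinerSystem 3 6 B)
    {b : Finset α} (hb : b ∈ B) (a : α) (ha : a ∉ b) :
    ((Steiner.Bf B).filter (fun d => a ∈ d ∧ Disjoint b d)).card = 6 := by
  obtain ⟨T, hT⟩ : ∃ T, T = (Steiner.Bf B).filter (fun d => a ∈ d) := ⟨_, rfl⟩
  have hT21 : T.card = 21 := by rw [hT]; exact s22_through_one hα hB a
  have hx : ∀ x ∈ b, (T.filter (fun d => x ∈ d)).card = 5 := by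
    intro x hx
    rw [hT, Finset.filter_filter]
    exact s22_through_two hα hB a x (fun h => ha (h ▸ hx))
  have hsum : ∑ d ∈ T, (b ∩ d).card = 30 := by
    rw [sum_card_inter_eq, Finset.sum_congr rfl hx, sum_const, hB.1 b hb]
    rfl
  have hd : ∀ d ∈ T, (b ∩ d).card = if Disjoint b d then 0 else 2 := by
    intro d hdT
    rw [hT, mem_filter, Steiner.mem_Bf] at hdT
    have hne : b ≠ d := by
      rintro rfl
      exact ha hdT.2
    rcases s22_inter hα hB hb hdT.1 hne with h | h
    · have : Disjoint b d := by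
        rw [disjoint_iff_inter_eq_empty]; exact card_eq_zero.mp h
      rw [if_pos this, h]
    · have : ¬ Disjoint b d := by
        rw [disjoint_iff_inter_eq_empty]
        intro h0
        rw [h0] at h
        simp at h
      rw [if_neg this, h]
  rw [Finset.sum_congr rfl hd] at hsum
  have h1 : ∑ d ∈ T, (if Disjoint b d then 0 else 2)
      = 2 * (T.filter (fun d => ¬ Disjoint b d)).card := by
    rw [Finset.card_filter, Finset.mul_sum]
    apply Finset.sum_congr rfl
    intro d _
    by_cases h : Disjoint b d <;> simp [h]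
  have h2 := Finset.card_filter_add_card_filter_not (s := T) (fun d => Disjoint b d)
  have h3 : (Steiner.Bf B).filter (fun d => a ∈ d ∧ Disjoint b d)
      = T.filter (fun d => Disjoint b d) := by
    rw [hT, Finset.filter_filter]
  rw [h3]
  omega

end

end Cfsg.Agent.Lib.helper23
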