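import Cfsg.Agent.Lib.helper23.SRG100

set_option autoImplicit false

namespace Cfsg.Agent.Lib.helper23

open Finset Cfsg.Agent.Lib.helper2

set_option maxHeartbeats 1000000 in
/-- the point-block graph of `S(3, 6, 22)` is strongly regular `(100, 22, 0, 6)`. -/
theorem hs_graph_srg_main {α : Type*} [Fintype α] (hα : Fintype.card α = 22)
    {B : Set (Finset α)} (hB : Cfsg.IsSteinerSystem 3 6 B) [Fintype B]
    [DecidableRel (Cfsg.pointBlockGraph B).Adj] :
    (Cfsg.pointBlockGraph B).IsSRGWith 100 22 0 6 := by
  classical
  have hBcard : Fintype.card B = 77 := by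
    rw [← Nat.card_eq_fintype_card, Nat.card_coe_set_eq, Steiner.ncard_eq]
    exact s22_blocks_card hα hB
  have hempty : ∀ (a : α) (c : B), a ∈ (c : Finset α) →
      {d : B | a ∈ (d : Finset α) ∧ Disjoint (c : Finset α) (d : Finset α)}.ncard = 0 := by
    intro a c hac
    rw [Set.ncard_eq_zero]
    ext d
    simp only [Set.mem_setOf_eq, Set.mem_empty_iff_false, iff_false, not_and]
    intro h1 h2
    exact Finset.disjoint_left.mp h2 hac h1
  have hempty' : ∀ (a : α) (c : B), a ∈ (c : Finset α) →
      {d : B | Disjoint (c : Finset α) (d : Finset α) ∧ a ∈ (d : Finset α)}.ncard = 0 := by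
    intro a c hac
    rw [Set.ncard_eq_zero]
    ext d
    simp only [Set.mem_setOf_eq, Set.mem_empty_iff_false, iff_false, not_and]
    intro h2 h1
    exact Finset.disjoint_left.mp h2 hac h1
  apply isSRGWith_of_ncard
  · rw [Nat.card_eq_fintype_card, Fintype.card_option, Fintype.card_sum, hα, hBcard]
  · intro v
    rw [pb_neighbor_ncard hB]
    rcases v with _ | a | b
    · simp only [pbInf, pbPt, pbBlk]
      rw [ncard_set_false, ncard_set_true_fin, ncard_set_false, hα]
    · simp only [pbInf, pbPt, pbBlk]
      rw [ncard_unit_true, ncard_set_false, ncard_subtype_eq B (fun c => a ∈ c),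
        s22_through_one hα hB a]
    · simp only [pbInf, pbPt, pbBlk]
      rw [ncard_set_false, ncard_set_mem, ncard_subtype_eq B (fun c => Disjoint (b : Finset α) c),
        s22_disj_card hα hB b.2, hB.1 b b.2]
  · intro v w hvw
    rw [pb_common_ncard hB]
    rcases v with _ | a | b <;> rcases w with _ | a' | c
    · exact absurd hvw (SimpleGraph.irrefl _)
    · simp only [pbInf, pbPt, pbBlk, and_true, true_and, and_false, false_and, and_self]
      rw [ncard_set_false, ncard_set_false, ncard_set_false]
    · exact absurd ((pb_adj_blk hB _ c).mp hvw) id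
    · simp only [pbInf, pbPt, pbBlk, and_true, true_and, and_false, false_and, and_self]
      rw [ncard_set_false, ncard_set_false, ncard_set_false]
    · exact absurd ((pb_adj_pt _ a').mp hvw) id
    · have hac : a ∈ (c : Finset α) := (pb_adj_blk hB _ c).mp hvw
      simp only [pbInf, pbPt, pbBlk, and_true, true_and, and_false, false_and, and_self]
      rw [ncard_set_false, ncard_set_false, hempty a c hac]
    · exact absurd ((pb_adj_none _).mp hvw) id
    · have hac : a' ∈ (b : Finset α) := (pb_adj_pt _ a').mp hvw
      simp only [pbInf, pbPt, pbBlk, and_true, true_and, and_false, false_and, and_self]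
      rw [ncard_set_false, ncard_set_false, hempty' a' b hac]
    · have hbc : Disjoint (b : Finset α) (c : Finset α) := (pb_adj_blk hB _ c).mp hvw
      simp only [pbInf, pbPt, pbBlk, and_true, true_and, and_false, false_and, and_self]
      rw [ncard_set_false, ncard_set_mem_inter, ncard_subtype_eq B
        (fun d => Disjoint (b : Finset α) d ∧ Disjoint (c : Finset α) d)]
      have h1 : ((b : Finset α) ∩ (c : Finset α)).card = 0 := by
        rw [Finset.card_eq_zero, ← Finset.disjoint_iff_inter_eq_empty]; exact hbc
      have h2 := s22_lambda hα hB b.2 c.2 hbc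
      rw [s22CN] at h2
      rw [h1, h2]
  · intro v w hne hvw
    rw [pb_common_ncard hB]
    rcases v with _ | a | b <;> rcases w with _ | a' | c
    · exact absurd rfl hne
    · exact absurd ((pb_adj_pt (none : Option (α ⊕ B)) a').mpr trivial) hvw
    · simp only [pbInf, pbPt, pbBlk, and_true, true_and, and_false, false_and, and_self]
      rw [ncard_set_false, ncard_set_mem, ncard_set_false, hB.1 c c.2]
    · exact absurd ((pb_adj_none (some (Sum.inl a) : Option (α ⊕ B))).mpr trivial) hvw
    · have haa : a ≠ a' := fun h => hne (by rw [h])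
      simp only [pbInf, pbPt, pbBlk, and_true, true_and, and_false, false_and, and_self]
      rw [ncard_unit_true, ncard_set_false, ncard_subtype_eq B (fun d => a ∈ d ∧ a' ∈ d),
        s22_through_two hα hB a a' haa]
    · have hac : a ∉ (c : Finset α) := fun h => hvw ((pb_adj_blk hB _ c).mpr h)
      simp only [pbInf, pbPt, pbBlk, and_true, true_and, and_false, false_and, and_self]
      rw [ncard_set_false, ncard_set_false, ncard_subtype_eq B
        (fun d => a ∈ d ∧ Disjoint (c : Finset α) d), s22_through_one_disj hα hB c.2 a hac]
    · simp only [pbInf, pbPt, pbBlk, and_true, true_and, and_false, false_and, and_self]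
      rw [ncard_set_false, ncard_set_mem, ncard_set_false, hB.1 b b.2]
    · have hac : a' ∉ (b : Finset α) := fun h => hvw ((pb_adj_pt _ a').mpr h)
      simp only [pbInf, pbPt, pbBlk, and_true, true_and, and_false, false_and, and_self]
      have h1 : {d : B | Disjoint (b : Finset α) (d : Finset α) ∧ a' ∈ (d : Finset α)}
          = {d : B | a' ∈ (d : Finset α) ∧ Disjoint (b : Finset α) (d : Finset α)} := by
        ext d; simp only [Set.mem_setOf_eq]; tauto
      rw [ncard_set_false, ncard_set_false, h1, ncard_subtype_eq B
        (fun d => a' ∈ d ∧ Disjoint (b : Finset α) d), s22_through_one_disj hα hB b.2 a' hac]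
    · have hbc : ¬ Disjoint (b : Finset α) (c : Finset α) :=
        fun h => hvw ((pb_adj_blk hB _ c).mpr h)
      have hne' : (b : Finset α) ≠ (c : Finset α) := fun h => hne (by rw [Subtype.ext h])
      simp only [pbInf, pbPt, pbBlk, and_true, true_and, and_false, false_and, and_self]
      rw [ncard_set_false, ncard_set_mem_inter, ncard_subtype_eq B
        (fun d => Disjoint (b : Finset α) d ∧ Disjoint (c : Finset α) d)]
      have h1 : ((b : Finset α) ∩ (c : Finset α)).card = 2 := by
        rcases s22_inter hα hB b.2 c.2 hne' with h | h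
        · exact absurd (by rw [Finset.disjoint_iff_inter_eq_empty]; exact Finset.card_eq_zero.mp h)
            hbc
        · exact h
      have h2 := s22_mu hα hB b.2 c.2 hne' hbc
      rw [s22CN] at h2
      rw [h1, h2]

end Cfsg.Agent.Lib.helper23
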