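import Cfsg.Agent.Lib.helper23.Steiner22

set_option autoImplicit false

namespace Cfsg.Agent.Lib.helper23

open Finset Cfsg.Agent.Lib.helper2

theorem isSRGWith_of_ncard {V : Type*} [Fintype V] (G : SimpleGraph V) [DecidableRel G.Adj]
    (n k l m : ℕ) (h1 : Nat.card V = n) (h2 : ∀ v, (G.neighborSet v).ncard = k)
    (h3 : ∀ v w, G.Adj v w → (G.commonNeighbors v w).ncard = l)
    (h4 : ∀ v w, v ≠ w → ¬ G.Adj v w → (G.commonNeighbors v w).ncard = m) :
    G.IsSRGWith n k l m where
  card := by rw [← Nat.card_eq_fintype_card]; exact h1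
  regular := by
    intro v
    rw [← SimpleGraph.card_neighborSet_eq_degree, ← Nat.card_eq_fintype_card,
      Nat.card_coe_set_eq]
    exact h2 v
  of_adj := by
    intro v w h
    rw [← Nat.card_eq_fintype_card, Nat.card_coe_set_eq]; exact h3 v w h
  of_not_adj := by
    intro v w hne h
    rw [← Nat.card_eq_fintype_card, Nat.card_coe_set_eq]; exact h4 v w hne h

section

variable {α : Type*} [Fintype α] [DecidableEq α] {B : Set (Finset α)}

theorem blockGraph_adj_iff (hB : Cfsg.IsSteinerSystem 3 6 B) (v w : B) :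
    (Cfsg.blockGraph B).Adj v w ↔ Disjoint (v : Finset α) (w : Finset α) := by
  rw [Cfsg.blockGraph, SimpleGraph.fromRel_adj]
  constructor
  · rintro ⟨-, h | h⟩
    · exact h
    · exact h.symm
  · intro h
    refine ⟨?_, Or.inl h⟩
    rintro rfl
    have h0 : (v : Finset α) = ∅ := by simpa using h
    have h6 := hB.1 v v.2
    rw [h0] at h6
    simp at h6

theorem ncard_subtype_eq (B : Set (Finset α)) (P : Finset α → Prop) [DecidablePred P] :
    {w : B | P (w : Finset α)}.ncard = ((Steiner.Bf B).filter P).card := by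
  rw [← Set.ncard_image_of_injective _ Subtype.val_injective, ← Set.ncard_coe_finset]
  congr 1
  ext c
  simp only [Set.mem_image, Set.mem_setOf_eq, Subtype.exists, exists_and_right, exists_eq_right,
    coe_filter, Steiner.mem_Bf]
  constructor
  · rintro ⟨hc, hP⟩; exact ⟨hc, hP⟩
  · rintro ⟨hc, hP⟩; exact ⟨hc, hP⟩

end

/-- the block graph of `S(3, 6, 22)` is strongly regular `(77, 16, 0, 4)`. -/
theorem m22_graph_srg_main {α : Type*} [Fintype α] (hα : Fintype.card α = 22)
    {B : Set (Finset α)} (hB : Cfsg.IsSteinerSystem 3 6 B) [Fintype B]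
    [DecidableRel (Cfsg.blockGraph B).Adj] : (Cfsg.blockGraph B).IsSRGWith 77 16 0 4 := by
  classical
  apply isSRGWith_of_ncard
  · rw [Nat.card_coe_set_eq, Steiner.ncard_eq]
    exact s22_blocks_card hα hB
  · intro v
    have h1 : (Cfsg.blockGraph B).neighborSet v
        = {w : B | Disjoint (v : Finset α) (w : Finset α)} := by
      ext w
      rw [SimpleGraph.mem_neighborSet, blockGraph_adj_iff hB]
      rfl
    rw [h1, ncard_subtype_eq]
    exact s22_disj_card hα hB v.2
  · intro v w hvw
    have h1 : (Cfsg.blockGraph B).commonNeighbors v w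
        = {u : B | Disjoint (v : Finset α) (u : Finset α) ∧
            Disjoint (w : Finset α) (u : Finset α)} := by
      ext u
      rw [SimpleGraph.mem_commonNeighbors, blockGraph_adj_iff hB, blockGraph_adj_iff hB]
      rfl
    rw [h1, ncard_subtype_eq B
      (fun u => Disjoint (v : Finset α) u ∧ Disjoint (w : Finset α) u)]
    exact s22_lambda hα hB v.2 w.2 ((blockGraph_adj_iff hB v w).mp hvw)
  · intro v w hne hvw
    have h1 : (Cfsg.blockGraph B).commonNeighbors v w
        = {u : B | Disjoint (v : Finset α) (u : Finset α) ∧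
            Disjoint (w : Finset α) (u : Finset α)} := by
      ext u
      rw [SimpleGraph.mem_commonNeighbors, blockGraph_adj_iff hB, blockGraph_adj_iff hB]
      rfl
    rw [h1, ncard_subtype_eq B
      (fun u => Disjoint (v : Finset α) u ∧ Disjoint (w : Finset α) u)]
    exact s22_mu hα hB v.2 w.2 (fun h => hne (Subtype.ext h))
      (fun h => hvw ((blockGraph_adj_iff hB v w).mpr h))

end Cfsg.Agent.Lib.helper23
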