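import Mathlib
import Cfsg.Agent.Lib.helper23.GaloisChar
import Cfsg.Agent.Lib.helper24.CharOps
import Cfsg.Agent.Lib.helper24.CharMisc

set_option autoImplicit false

/-!
# Schur's bound for the Sylow subgroups of a group with a faithful `p`-rational character
-/

namespace Cfsg.Agent.Lib.helper23

open Cfsg Cfsg.Agent.Lib.helper24
open scoped ComplexConjugate

universe u

/-- an algebra map out of the algebraic closure fixing `ζ` fixes `ℚ(ζ)` -/
theorem algHom_fixes_adjoin (φ : algebraicClosure ℚ ℂ →ₐ[ℚ] ℂ) (ζ : algebraicClosure ℚ ℂ)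
    (hζ : φ ζ = (ζ : ℂ)) (x : ℂ)
    (hx : x ∈ IntermediateField.adjoin ℚ ({(ζ : ℂ)} : Set ℂ)) :
    ∃ hx' : x ∈ algebraicClosure ℚ ℂ, φ ⟨x, hx'⟩ = x := by
  induction hx using IntermediateField.adjoin_induction with
  | mem y hy =>
    rw [Set.mem_singleton_iff] at hy
    subst hy
    exact ⟨ζ.2, hζ⟩
  | algebraMap q =>
    refine ⟨(algebraMap ℚ (algebraicClosure ℚ ℂ) q).2, ?_⟩
    exact φ.commutes q
  | add a b _ _ ha hb =>
    obtain ⟨ha', ha⟩ := ha
    obtain ⟨hb', hb⟩ := hb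
    refine ⟨add_mem ha' hb', ?_⟩
    have h : (⟨a + b, add_mem ha' hb'⟩ : algebraicClosure ℚ ℂ) = ⟨a, ha'⟩ + ⟨b, hb'⟩ := rfl
    rw [h, map_add, ha, hb]
  | inv a _ ha =>
    obtain ⟨ha', ha⟩ := ha
    refine ⟨inv_mem ha', ?_⟩
    have h : (⟨a⁻¹, inv_mem ha'⟩ : algebraicClosure ℚ ℂ) = (⟨a, ha'⟩)⁻¹ := rfl
    rw [h, map_inv₀, ha]
  | mul a b _ _ ha hb =>
    obtain ⟨ha', ha⟩ := ha
    obtain ⟨hb', hb⟩ := hb
    refine ⟨mul_mem ha' hb', ?_⟩
    have h : (⟨a * b, mul_mem ha' hb'⟩ : algebraicClosure ℚ ℂ) = ⟨a, ha'⟩ * ⟨b, hb'⟩ := rfl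
    rw [h, map_mul, ha, hb]

section schur

variable {G : Type u} [Group G] [Finite G]

/-- a `p`-rational character is constant on the generators of a cyclic `p`-subgroup and
integer valued there -/
theorem prat_char_pelement (p : ℕ) [hp : Fact p.Prime] (n : ℕ)
    (ρ : Representation ℂ G (Fin n → ℂ)) (r : ℕ) (hr0 : 0 < r) (hpr : ¬ p ∣ r)
    (hrat : ∀ g : G, ρ.character g ∈ IntermediateField.adjoin ℚ
      ({Complex.exp (2 * Real.pi * Complex.I / r)} : Set ℂ))
    (x : G) (k : ℕ) (hx : x ^ p ^ k = 1) :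
    (∀ j : ℕ, ¬ p ∣ j → ρ.character (x ^ j) = ρ.character x) ∧
      ∃ z : ℤ, ρ.character x = z := by
  have hpp := hp.out
  have hG0 : Nat.card G ≠ 0 := Nat.card_pos.ne'
  obtain ⟨N, hN⟩ : ∃ N : ℕ, N = Nat.card G * r := ⟨_, rfl⟩
  have hN0 : N ≠ 0 := by
    rw [hN]
    exact mul_ne_zero hG0 hr0.ne'
  obtain ⟨A, c, hc, hNc⟩ := Nat.exists_eq_pow_mul_and_not_dvd hN0 p hpp.ne_one
  have hcop : Nat.Coprime (p ^ A) c :=
    Nat.Coprime.pow_left _ ((Nat.Prime.coprime_iff_not_dvd hpp).mpr hc)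
  -- the order of x divides p ^ A
  have hxA : x ^ p ^ A = 1 := by
    obtain ⟨e, -, he⟩ := (Nat.dvd_prime_pow hpp).mp (orderOf_dvd_of_pow_eq_one hx)
    have h1 : orderOf x ∣ N := by
      rw [hN]
      exact (orderOf_dvd_natCard x).trans (dvd_mul_right _ _)
    rw [he, hNc] at h1
    have h2 : p ^ e ∣ p ^ A :=
      (Nat.Coprime.pow_left _ ((Nat.Prime.coprime_iff_not_dvd hpp).mpr hc)).dvd_of_dvd_mul_right h1
    apply orderOf_dvd_iff_pow_eq_one.mp
    rw [he]
    exact h2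
  have hrc : r ∣ c := by
    have h1 : r ∣ p ^ A * c := by
      rw [← hNc, hN]
      exact dvd_mul_left _ _
    exact (Nat.Coprime.pow_right _
      ((Nat.Prime.coprime_iff_not_dvd hpp).mpr hpr).symm).dvd_of_dvd_mul_left h1
  obtain ⟨ζ, hζ⟩ : ∃ ζ : ℂ, ζ = Complex.exp (2 * Real.pi * Complex.I / r) := ⟨_, rfl⟩
  have hζK : ζ ∈ algebraicClosure ℚ ℂ := by
    rw [hζ]
    exact exp_mem_algClosure r hr0.ne'
  have hζr : ζ ^ r = 1 := by
    rw [hζ]
    exact (Complex.isPrimitiveRoot_exp r hr0.ne').pow_eq_one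
  have hζN : ζ ^ N = 1 := by
    rw [hN, mul_comm, pow_mul, hζr, one_pow]
  have hcardN : ∀ μ : algebraicClosure ℚ ℂ, (μ : ℂ) ^ Nat.card G = 1 → (μ : ℂ) ^ N = 1 := by
    intro μ hμ
    rw [hN, pow_mul, hμ, one_pow]
  -- invariance
  have hinv : ∀ j : ℕ, ¬ p ∣ j → ρ.character (x ^ j) = ρ.character x := by
    intro j hj
    by_cases hA : A = 0
    · subst hA
      have hx1 : x = 1 := by simpa using hxA
      rw [hx1, one_pow]
    obtain ⟨m₂, hm₂a, hm₂c⟩ := Nat.chineseRemainder hcop j 1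
    have hm₂N : m₂.Coprime N := by
      rw [hNc]
      apply Nat.Coprime.mul_right
      · apply Nat.Coprime.pow_right
        rw [Nat.coprime_comm, Nat.Prime.coprime_iff_not_dvd hpp]
        intro hdvd
        have h3 : m₂ ≡ j [MOD p] := hm₂a.of_dvd (dvd_pow_self p hA)
        exact hj ((Nat.ModEq.dvd_iff h3 (dvd_refl p)).mp hdvd)
      · have h4 := hm₂c.gcd_eq
        rw [Nat.Coprime, h4]
        simp
    obtain ⟨φ, hφ⟩ := exists_algHom_root_of_unity_pow N hN0 m₂ hm₂N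
    have hφζ : φ ⟨ζ, hζK⟩ = ζ := by
      rw [hφ ⟨ζ, hζK⟩ hζN]
      show ζ ^ m₂ = ζ
      have h5 : m₂ ≡ 1 [MOD r] := hm₂c.of_dvd hrc
      rw [pow_eq_pow_mod m₂ hζr, h5, ← pow_eq_pow_mod 1 hζr, pow_one]
    have hmem : ρ.character x ∈ IntermediateField.adjoin ℚ ({ζ} : Set ℂ) := by
      rw [hζ]
      exact hrat x
    obtain ⟨h', hfix⟩ := algHom_fixes_adjoin φ ⟨ζ, hζK⟩ hφζ (ρ.character x) hmem
    have h6 := algHom_char φ m₂ (fun μ hμ => hφ μ (hcardN μ hμ)) ρ x
    have h7 : x ^ m₂ = x ^ j := by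
      rw [pow_eq_pow_iff_modEq]
      exact hm₂a.of_dvd (orderOf_dvd_of_pow_eq_one hxA)
    rw [← h7, ← h6]
    exact hfix
  refine ⟨hinv, ?_⟩
  -- integrality
  have hint : IsIntegral ℤ (ρ.character x) := rep_char_isIntegral n ρ x (isOfFinOrder_of_finite x)
  have hfixall : ∀ φ : algebraicClosure ℚ ℂ →ₐ[ℚ] ℂ,
      φ ⟨ρ.character x, char_mem_algClosure ρ x⟩ = ρ.character x := by
    intro φ
    obtain ⟨m, hm, hφ⟩ := algHom_root_of_unity_pow (Nat.card G * p) (mul_ne_zero hG0 hpp.ne_zero) φ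
    have h6 := algHom_char φ m (fun μ hμ => hφ μ (by rw [pow_mul, hμ, one_pow])) ρ x
    rw [h6]
    apply hinv
    intro hdvd
    have h8 : Nat.Coprime m p := Nat.Coprime.coprime_mul_left_right hm
    rw [Nat.coprime_comm, Nat.Prime.coprime_iff_not_dvd hpp] at h8
    exact h8 hdvd
  exact int_of_fixed ⟨ρ.character x, char_mem_algClosure ρ x⟩ hint hfixall

theorem multiset_sum_finset_comm (R : Multiset ℂ) (s : Finset ℕ) (f : ℕ → ℂ → ℂ) :
    ∑ j ∈ s, (R.map (f j)).sum = (R.map (fun μ => ∑ j ∈ s, f j μ)).sum := by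
  induction R using Multiset.induction_on with
  | empty => simp
  | cons a R ih =>
    simp only [Multiset.map_cons, Multiset.sum_cons, Finset.sum_add_distrib, ih]

theorem multiset_sum_re_nonneg (R : Multiset ℂ) (h : ∀ μ ∈ R, 0 ≤ μ.re) : 0 ≤ R.sum.re := by
  induction R using Multiset.induction_on with
  | empty => simp
  | cons a R ih =>
    rw [Multiset.sum_cons, Complex.add_re]
    exact add_nonneg (h a (Multiset.mem_cons_self a R))
      (ih (fun μ hμ => h μ (Multiset.mem_cons_of_mem hμ)))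

theorem geom_sum_re_nonneg (μ : ℂ) (q : ℕ) (hμ : μ ^ q = 1) :
    0 ≤ (∑ j ∈ Finset.range q, μ ^ j).re := by
  by_cases h1 : μ = 1
  · subst h1
    simp
  · rw [geom_sum_eq h1, hμ, sub_self, zero_div]
    simp

theorem card_filter_dvd_range (p q' : ℕ) (hp : 0 < p) :
    ((Finset.range (p * q')).filter (fun j => p ∣ j)).card = q' := by
  have h : (Finset.range (p * q')).filter (fun j => p ∣ j)
      = (Finset.range q').image (fun i => p * i) := by
    ext j
    simp only [Finset.mem_filter, Finset.mem_range, Finset.mem_image]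
    constructor
    · rintro ⟨hj, i, rfl⟩
      exact ⟨i, lt_of_mul_lt_mul_left hj (Nat.zero_le p), rfl⟩
    · rintro ⟨i, hi, rfl⟩
      exact ⟨Nat.mul_lt_mul_of_pos_left hi hp, dvd_mul_right p i⟩
  rw [h, Finset.card_image_of_injective _ (fun a b hab => Nat.eq_of_mul_eq_mul_left hp hab),
    Finset.card_range]

/-- the values of a `p`-rational character on a nontrivial `p`-element -/
theorem prat_char_value (p : ℕ) [hp : Fact p.Prime] (n : ℕ)
    (ρ : Representation ℂ G (Fin n → ℂ)) (x : G) (k : ℕ) (hx : x ^ p ^ k = 1) (hx1 : x ≠ 1)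
    (z : ℤ) (hz : ρ.character x = z)
    (hinv : ∀ j : ℕ, ¬ p ∣ j → ρ.character (x ^ j) = ρ.character x) :
    (p : ℤ) ∣ (n : ℤ) - z ∧ z ≤ n ∧ -(n : ℤ) ≤ ((p : ℤ) - 1) * z := by
  have hpp := hp.out
  obtain ⟨R, hR, hsum⟩ := genrep_power_sums ρ x
  obtain ⟨q, hq⟩ : ∃ q : ℕ, q = orderOf x := ⟨_, rfl⟩
  rw [← hq] at hR
  have hq0 : q ≠ 0 := by
    rw [hq]
    exact (orderOf_pos x).ne'
  have hcard : (Multiset.card R : ℂ) = n := by
    have h0 := hsum 0
    rw [pow_zero, rep_char_one] at h0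
    rw [h0]
    simp
  have hcardR : (Multiset.card R : ℝ) = n := by exact_mod_cast hcard
  have hre : ∀ j : ℕ, (ρ.character (x ^ j)).re ≤ n := by
    intro j
    rw [hsum j, ← hcardR]
    have h1 := (multiset_re_sum_le (R.map (fun μ => μ ^ j)) (fun ν hν => by
      obtain ⟨μ, hμ, rfl⟩ := Multiset.mem_map.mp hν
      have h2 : ‖μ ^ j‖ = 1 := by
        rw [norm_pow, Complex.norm_eq_one_of_pow_eq_one (hR μ hμ) hq0, one_pow]
      exact (Complex.re_le_norm _).trans h2.le)).1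
    rwa [Multiset.card_map] at h1
  refine ⟨?_, ?_, ?_⟩
  · obtain ⟨M, hM⟩ := exists_isPModular p hpp
    obtain ⟨a, ha, haM⟩ := rep_char_modEq_degree hM n ρ x k hx
    have h1 : a = ((z - n : ℤ) : AlgInt) := by
      apply Subtype.ext
      rw [ha, hz]
      push_cast
      rfl
    rw [h1] at haM
    have h2 := (intCast_mem_iff hM (z - n)).mp haM
    have h3 : (n : ℤ) - z = -(z - n) := by ring
    rw [h3]
    exact (dvd_neg).mpr h2
  · have h1 := hre 1
    rw [pow_one, hz] at h1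
    have h2 : ((z : ℂ)).re = (z : ℝ) := by simp
    rw [h2] at h1
    exact_mod_cast h1
  · -- the sum over the cyclic group
    obtain ⟨e, -, he⟩ := (Nat.dvd_prime_pow hpp).mp (orderOf_dvd_of_pow_eq_one hx)
    have he0 : e ≠ 0 := by
      rintro rfl
      rw [pow_zero, orderOf_eq_one_iff] at he
      exact hx1 he
    obtain ⟨q', hq'⟩ : ∃ q' : ℕ, q = p * q' := by
      refine ⟨p ^ (e - 1), ?_⟩
      rw [hq, he, ← pow_succ', Nat.sub_add_cancel (Nat.pos_of_ne_zero he0)]
    have hq'0 : 0 < q' := by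
      rcases Nat.eq_zero_or_pos q' with h | h
      · rw [h, mul_zero] at hq'
        exact absurd hq' hq0
      · exact h
    have hS : 0 ≤ (∑ j ∈ Finset.range q, ρ.character (x ^ j)).re := by
      rw [Finset.sum_congr rfl (fun j _ => hsum j),
        multiset_sum_finset_comm R (Finset.range q) (fun j μ => μ ^ j)]
      apply multiset_sum_re_nonneg
      intro ν hν
      obtain ⟨μ, hμ, rfl⟩ := Multiset.mem_map.mp hν
      exact geom_sum_re_nonneg μ q (hR μ hμ)
    rw [← Finset.sum_filter_add_sum_filter_not (Finset.range q) (fun j => p ∣ j),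
      Complex.add_re] at hS
    have h1 : (∑ j ∈ (Finset.range q).filter (fun j => p ∣ j), ρ.character (x ^ j)).re
        ≤ (q' : ℝ) * n := by
      rw [Complex.re_sum]
      have h2 : ∑ j ∈ (Finset.range q).filter (fun j => p ∣ j), (ρ.character (x ^ j)).re
          ≤ ∑ _j ∈ (Finset.range q).filter (fun j => p ∣ j), (n : ℝ) :=
        Finset.sum_le_sum (fun j _ => hre j)
      rw [Finset.sum_const, hq', card_filter_dvd_range p q' hpp.pos, nsmul_eq_mul] at h2
      rw [hq']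
      exact h2
    have hN2 : ((Finset.range q).filter (fun j => ¬ p ∣ j)).card = (p - 1) * q' := by
      have h3 := Finset.card_filter_add_card_filter_not (s := Finset.range q) (fun j => p ∣ j)
      rw [Finset.card_range] at h3
      have h4 : ((Finset.range q).filter (fun j => p ∣ j)).card = q' := by
        rw [hq']
        exact card_filter_dvd_range p q' hpp.pos
      rw [h4] at h3
      have h5 : p * q' = q' + (p - 1) * q' := by
        have : p = 1 + (p - 1) := by have := hpp.pos; omega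
        nth_rewrite 1 [this]
        ring
      omega
    have h6 : (∑ j ∈ (Finset.range q).filter (fun j => ¬ p ∣ j), ρ.character (x ^ j)).re
        = ((p - 1 : ℕ) : ℝ) * q' * z := by
      rw [Finset.sum_congr rfl (fun j hj => hinv j (Finset.mem_filter.mp hj).2),
        Finset.sum_const, hN2, hz, nsmul_eq_mul]
      push_cast
      simp
    rw [h6] at hS
    have h7 : (0 : ℝ) ≤ (q' : ℝ) * ((n : ℝ) + ((p - 1 : ℕ) : ℝ) * z) := by
      have : (q' : ℝ) * ((n : ℝ) + ((p - 1 : ℕ) : ℝ) * z)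
          = (q' : ℝ) * n + ((p - 1 : ℕ) : ℝ) * q' * z := by ring
      rw [this]
      linarith
    have h8 : (0 : ℝ) ≤ (n : ℝ) + ((p - 1 : ℕ) : ℝ) * z :=
      le_of_mul_le_mul_left (by rw [mul_zero]; exact h7) (by exact_mod_cast hq'0)
    have h9 : ((p - 1 : ℕ) : ℝ) = (p : ℝ) - 1 := by
      rw [Nat.cast_sub hpp.pos]
      simp
    rw [h9] at h8
    have h10 : (0 : ℝ) ≤ (((n : ℤ) + ((p : ℤ) - 1) * z : ℤ) : ℝ) := by
      push_cast
      exact h8
    have h11 : (0 : ℤ) ≤ (n : ℤ) + ((p : ℤ) - 1) * z := by exact_mod_cast h10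
    linarith

theorem isCharacter_pow' {χ : G → ℂ} (hχ : IsCharacter G χ) (j : ℕ) : IsCharacter G (χ ^ j) := by
  induction j with
  | zero =>
    rw [pow_zero]
    exact isCharacter_trivial
  | succ j ih =>
    rw [pow_succ]
    exact isCharacter_mul ih hχ

/-- **Schur's bound** -/
theorem schur_bound (p : ℕ) [hp : Fact p.Prime] (χ : G → ℂ) (hχ : IsCharacter G χ)
    (hfaith : ∀ g : G, χ g = χ 1 → g = 1)
    (hrat : ∃ r : ℕ, 0 < r ∧ ¬ p ∣ r ∧ ∀ g : G, χ g ∈ IntermediateField.adjoin ℚ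
      ({Complex.exp (2 * Real.pi * Complex.I / r)} : Set ℂ))
    (n : ℕ) (hn : charDegree χ = n) :
    (Nat.card G).factorization p ≤ ∑ i ∈ Finset.range (n + 1), n / ((p - 1) * p ^ i) := by
  classical
  have hpp := hp.out
  obtain ⟨n', ρ, rfl⟩ := hχ
  have hnn : n' = n := by rw [← hn, charDegree_rep]
  subst hnn
  obtain ⟨r, hr0, hpr, hrat⟩ := hrat
  obtain ⟨P⟩ : Nonempty (Sylow p G) := inferInstance
  haveI : Fintype (P : Subgroup G) := Fintype.ofFinite _
  obtain ⟨a, ha⟩ : ∃ a, a = (Nat.card G).factorization p := ⟨_, rfl⟩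
  rw [← ha]
  have hPcard : Nat.card (P : Subgroup G) = p ^ a := by
    rw [ha]
    exact P.card_eq_multiplicity
  have hpel : ∀ x : (P : Subgroup G), ∃ k : ℕ, (x : G) ^ p ^ k = 1 := by
    intro x
    obtain ⟨k, hk⟩ := P.isPGroup' x
    exact ⟨k, by rw [← Subgroup.coe_pow, hk]; rfl⟩
  have hz : ∀ x : (P : Subgroup G), ∃ z : ℤ, ρ.character (x : G) = z := by
    intro x
    obtain ⟨k, hk⟩ := hpel x
    exact (prat_char_pelement p n' ρ r hr0 hpr hrat x k hk).2
  choose z hz using hz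
  obtain ⟨s, hs⟩ : ∃ s : ℕ, s = n' / (p - 1) := ⟨_, rfl⟩
  have hp1 : 0 < p - 1 := by have := hpp.two_le; omega
  have hval : ∀ x : (P : Subgroup G), x ≠ 1 →
      ∃ t ∈ Finset.Icc 1 s, z x = (n' : ℤ) - p * (t : ℤ) := by
    intro x hx1
    obtain ⟨k, hk⟩ := hpel x
    have hx1' : (x : G) ≠ 1 := fun h => hx1 (Subtype.ext h)
    obtain ⟨hinv, -⟩ := prat_char_pelement p n' ρ r hr0 hpr hrat x k hk
    obtain ⟨⟨t', ht'⟩, hle, hlow⟩ := prat_char_value p n' ρ x k hk hx1' (z x) (hz x) hinv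
    have hne : z x ≠ n' := by
      intro h
      apply hx1'
      apply hfaith
      rw [hz x, h, rep_char_one]
      simp
    have ht'pos : 0 < t' := by
      by_contra hcon
      push Not at hcon
      have : (p : ℤ) * t' ≤ 0 :=
        mul_nonpos_of_nonneg_of_nonpos (by exact_mod_cast hpp.pos.le) hcon
      omega
    have ht'le : ((p : ℤ) - 1) * t' ≤ n' := by
      have h1 : (p : ℤ) * (((p : ℤ) - 1) * t') ≤ (p : ℤ) * n' := by nlinarith [ht', hlow]
      exact le_of_mul_le_mul_left h1 (by exact_mod_cast hpp.pos)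
    refine ⟨t'.toNat, ?_, ?_⟩
    · rw [Finset.mem_Icc]
      constructor
      · omega
      · rw [hs, Nat.le_div_iff_mul_le hp1]
        have h2 : ((t'.toNat * (p - 1) : ℕ) : ℤ) ≤ (n' : ℤ) := by
          push_cast
          rw [Int.toNat_of_nonneg ht'pos.le, Nat.cast_sub hpp.pos]
          push_cast
          linarith
        exact_mod_cast h2
    · rw [Int.toNat_of_nonneg ht'pos.le]
      linarith
  obtain ⟨f, hf⟩ : ∃ f : Polynomial ℤ, f = ∏ t ∈ Finset.Icc 1 s,
      (Polynomial.X - Polynomial.C ((n' : ℤ) - p * (t : ℤ))) := ⟨_, rfl⟩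
  have hfeval : ∀ w : ℤ, f.eval w = ∏ t ∈ Finset.Icc 1 s, (w - ((n' : ℤ) - p * (t : ℤ))) := by
    intro w
    rw [hf, Polynomial.eval_prod]
    simp
  have hf0 : ∀ x : (P : Subgroup G), x ≠ 1 → f.eval (z x) = 0 := by
    intro x hx1
    obtain ⟨t, ht, hzt⟩ := hval x hx1
    rw [hfeval]
    exact Finset.prod_eq_zero ht (by rw [hzt]; ring)
  have hz1 : z 1 = n' := by
    have h1 := hz 1
    rw [show ((1 : (P : Subgroup G)) : G) = 1 from rfl, rep_char_one] at h1
    exact_mod_cast h1.symm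
  have hfn : f.eval (n' : ℤ) = (p : ℤ) ^ s * (s.factorial : ℤ) := by
    rw [hfeval]
    have h1 : ∀ t ∈ Finset.Icc 1 s, ((n' : ℤ) - ((n' : ℤ) - p * (t : ℤ))) = (p : ℤ) * (t : ℤ) :=
      fun t _ => by ring
    rw [Finset.prod_congr rfl h1, Finset.prod_mul_distrib, Finset.prod_const, Nat.card_Icc,
      ← Nat.cast_prod, ← Finset.Ico_add_one_right_eq_Icc, Finset.prod_Ico_id_eq_factorial]
    simp
  have hsumf : ∑ x : (P : Subgroup G), f.eval (z x) = (p : ℤ) ^ s * (s.factorial : ℤ) := by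
    rw [Finset.sum_eq_single (1 : (P : Subgroup G)) (fun x _ hx => hf0 x hx)
      (fun h => absurd (Finset.mem_univ _) h), hz1, hfn]
  have hpow : ∀ j : ℕ, ((p ^ a : ℕ) : ℤ) ∣ ∑ x : (P : Subgroup G), z x ^ j := by
    intro j
    obtain ⟨m, hm⟩ := isCharacter_inner_nat
      (Cfsg.Agent.Lib.helper24.isCharacter_restrict (P : Subgroup G)
        (isCharacter_pow' ⟨n', ρ, rfl⟩ j))
      (isCharacter_trivial (G := (P : Subgroup G)))
    refine ⟨(m : ℤ), ?_⟩
    have h1 : ∑ x : (P : Subgroup G), (ρ.character ^ j) (x : G) = ((p ^ a : ℕ) : ℂ) * m := by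
      rw [← hm, ← hPcard]
      unfold classInner
      rw [← mul_assoc, mul_inv_cancel₀ (by exact_mod_cast Nat.card_pos.ne'), one_mul]
      simp only [map_one, mul_one]
    have h2 : ((∑ x : (P : Subgroup G), z x ^ j : ℤ) : ℂ)
        = ((((p ^ a : ℕ) : ℤ) * (m : ℤ) : ℤ) : ℂ) := by
      push_cast
      have h3 := h1
      push_cast at h3
      rw [← h3]
      apply Finset.sum_congr rfl
      intro x _
      rw [Pi.pow_apply, hz x]
    exact_mod_cast h2
  have hdvd : ((p ^ a : ℕ) : ℤ) ∣ (p : ℤ) ^ s * (s.factorial : ℤ) := by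
    rw [← hsumf]
    have h1 : ∀ x : (P : Subgroup G), f.eval (z x)
        = ∑ j ∈ Finset.range (f.natDegree + 1), f.coeff j * z x ^ j :=
      fun x => Polynomial.eval_eq_sum_range (z x)
    rw [Finset.sum_congr rfl (fun x _ => h1 x), Finset.sum_comm]
    apply Finset.dvd_sum
    intro j _
    rw [← Finset.mul_sum]
    exact Dvd.dvd.mul_left (hpow j) _
  have hdvdN : p ^ a ∣ p ^ s * s.factorial := by exact_mod_cast hdvd
  have h1 : a ≤ (p ^ s * s.factorial).factorization p :=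
    (hpp.pow_dvd_iff_le_factorization
      (mul_ne_zero (pow_ne_zero _ hpp.ne_zero) (Nat.factorial_ne_zero s))).mp hdvdN
  rw [Nat.factorization_mul (pow_ne_zero _ hpp.ne_zero) (Nat.factorial_ne_zero s),
    Finsupp.add_apply, Nat.factorization_pow, Finsupp.smul_apply, hpp.factorization_self,
    smul_eq_mul, mul_one, Nat.factorization_def _ hpp,
    padicValNat_factorial (b := n' + 1) (lt_of_le_of_lt (Nat.log_le_self p s)
      (by rw [hs]; exact Nat.lt_succ_of_le (Nat.div_le_self _ _)))] at h1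
  have h2 : ∑ i ∈ Finset.range (n' + 1), n' / ((p - 1) * p ^ i)
      = s + ∑ i ∈ Finset.Ico 1 (n' + 1), s / p ^ i := by
    rw [Finset.range_eq_Ico, Finset.sum_eq_sum_Ico_succ_bot (Nat.succ_pos n')]
    rw [pow_zero, mul_one, ← hs]
    congr 1
    apply Finset.sum_congr rfl
    intro i _
    rw [hs, Nat.div_div_eq_div_mul]
  rw [h2]
  exact h1

end schur

end Cfsg.Agent.Lib.helper23
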