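import Cfsg.Agent.Lib.helper2.Steiner

set_option autoImplicit false

namespace Cfsg.Agent.Lib.helper23

open Finset Cfsg.Agent.Lib.helper2

variable {α : Type*} [Fintype α] [DecidableEq α]

/-- number of blocks meeting `b` exactly in `s`. -/
noncomputable def exactInter (B : Set (Finset α)) (b s : Finset α) : ℕ :=
  ((Steiner.Bf B).filter (fun c => b ∩ c = s)).card

theorem ncard_exact (B : Set (Finset α)) (b s : Finset α) :
    {c : Finset α | c ∈ B ∧ b ∩ c = s}.ncard = exactInter B b s := by
  rw [exactInter, ← Set.ncard_coe_finset]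
  congr 1
  ext c
  simp [Steiner.mem_Bf]

/-- blocks through `s ⊆ b`, sorted by their intersection with `b`. -/
theorem through_eq_sum_exact (B : Set (Finset α)) (b s : Finset α) (hs : s ⊆ b) :
    ((Steiner.Bf B).filter (fun c => s ⊆ c)).card
      = ∑ j ∈ range ((b \ s).card + 1), ∑ r ∈ powersetCard j (b \ s),
          exactInter B b (s ∪ r) := by
  rw [← Finset.sum_powerset]
  rw [Finset.card_eq_sum_card_fiberwise (f := fun c => (b ∩ c) \ s) (t := powerset (b \ s))]
  · apply Finset.sum_congr rfl
    intro r hr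
    rw [mem_powerset] at hr
    rw [exactInter]
    congr 1
    ext c
    simp only [mem_filter]
    constructor
    · rintro ⟨⟨hcB, hsc⟩, hr'⟩
      refine ⟨hcB, ?_⟩
      rw [← hr']
      exact (Finset.union_sdiff_of_subset (subset_inter hs hsc)).symm
    · rintro ⟨hcB, hbc⟩
      refine ⟨⟨hcB, ?_⟩, ?_⟩
      · exact (subset_union_left.trans hbc.symm.subset).trans inter_subset_right
      · rw [hbc, union_sdiff_left]
        exact sdiff_eq_self_of_disjoint (disjoint_of_subset_left hr sdiff_disjoint)
  · intro c _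
    simp only [coe_powerset, Set.mem_preimage, Set.mem_powerset_iff, coe_subset]
    exact sdiff_subset_sdiff inter_subset_left le_rfl

theorem sum_exact_const (B : Set (Finset α)) (b s : Finset α) (hs : s ⊆ b) (j e : ℕ)
    (h : ∀ s', s' ⊆ b → s'.card = s.card + j → exactInter B b s' = e) :
    ∑ r ∈ powersetCard j (b \ s), exactInter B b (s ∪ r) = Nat.choose (b \ s).card j * e := by
  have h' : ∀ r ∈ powersetCard j (b \ s), exactInter B b (s ∪ r) = e := by
    intro r hr
    rw [mem_powersetCard] at hr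
    apply h
    · exact union_subset hs (hr.1.trans sdiff_subset)
    · rw [card_union_of_disjoint (disjoint_of_subset_right hr.1 disjoint_sdiff), hr.2]
  rw [Finset.sum_congr rfl h', sum_const, card_powersetCard, smul_eq_mul]

theorem sum_exact_zero (B : Set (Finset α)) (b s : Finset α) :
    ∑ r ∈ powersetCard 0 (b \ s), exactInter B b (s ∪ r) = exactInter B b s := by
  rw [powersetCard_zero, sum_singleton, union_empty]

variable {B : Set (Finset α)}

theorem exact_six (hB : Cfsg.IsSteinerSystem 5 6 B) {b : Finset α} (hb : b ∈ B) :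
    ∀ s', s' ⊆ b → s'.card = 6 → exactInter B b s' = 1 := by
  intro s' hs' hc
  have hsb : s' = b := Finset.eq_of_subset_of_card_le hs' (by rw [hB.1 b hb, hc])
  subst hsb
  rw [exactInter, Finset.card_eq_one]
  refine ⟨s', ?_⟩
  ext c
  simp only [mem_filter, mem_singleton, Steiner.mem_Bf]
  constructor
  · rintro ⟨hcB, hbc⟩
    have hsub : s' ⊆ c := inter_eq_left.mp hbc
    exact (Finset.eq_of_subset_of_card_le hsub (by rw [hB.1 c hcB, hB.1 s' hb])).symm
  · rintro rfl
    exact ⟨hb, inter_self _⟩

theorem exact_five (hB : Cfsg.IsSteinerSystem 5 6 B) {b : Finset α} (hb : b ∈ B) :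
    ∀ s', s' ⊆ b → s'.card = 5 → exactInter B b s' = 0 := by
  intro s' _ hc
  rw [exactInter, Finset.card_eq_zero, Finset.filter_eq_empty_iff]
  intro c hcB hbc
  rw [Steiner.mem_Bf] at hcB
  by_cases hcb : b = c
  · subst hcb
    rw [inter_self] at hbc
    rw [← hbc, hB.1 b hb] at hc
    omega
  · have := Steiner.inter_lt hB hb hcB hcb
    rw [hbc, hc] at this
    omega

theorem exact_four (hα : Fintype.card α = 12) (hB : Cfsg.IsSteinerSystem 5 6 B) {b : Finset α}
    (hb : b ∈ B) : ∀ s', s' ⊆ b → s'.card = 4 → exactInter B b s' = 3 := by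
  intro s hs hc
  have hN := Steiner.card_blocks_through hB s (by rw [hc]; norm_num)
  rw [hα, hc] at hN
  have h := through_eq_sum_exact B b s hs
  have hbs : (b \ s).card = 2 := by rw [card_sdiff_of_subset hs, hB.1 b hb, hc]
  rw [hbs] at h
  simp only [Finset.sum_range_succ, Finset.sum_range_zero, zero_add] at h
  rw [sum_exact_zero, sum_exact_const B b s hs 1 0 (fun s' h1 h2 => exact_five hB hb s' h1
      (by rw [h2, hc])),
    sum_exact_const B b s hs 2 1 (fun s' h1 h2 => exact_six hB hb s' h1 (by rw [h2, hc])),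
    hbs] at h
  norm_num [Nat.choose] at h hN
  omega

theorem exact_three (hα : Fintype.card α = 12) (hB : Cfsg.IsSteinerSystem 5 6 B) {b : Finset α}
    (hb : b ∈ B) : ∀ s', s' ⊆ b → s'.card = 3 → exactInter B b s' = 2 := by
  intro s hs hc
  have hN := Steiner.card_blocks_through hB s (by rw [hc]; norm_num)
  rw [hα, hc] at hN
  have h := through_eq_sum_exact B b s hs
  have hbs : (b \ s).card = 3 := by rw [card_sdiff_of_subset hs, hB.1 b hb, hc]
  rw [hbs] at h
  simp only [Finset.sum_range_succ, Finset.sum_range_zero, zero_add] at h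
  rw [sum_exact_zero, sum_exact_const B b s hs 1 3 (fun s' h1 h2 => exact_four hα hB hb s' h1
      (by rw [h2, hc])),
    sum_exact_const B b s hs 2 0 (fun s' h1 h2 => exact_five hB hb s' h1 (by rw [h2, hc])),
    sum_exact_const B b s hs 3 1 (fun s' h1 h2 => exact_six hB hb s' h1 (by rw [h2, hc])),
    hbs] at h
  norm_num [Nat.choose] at h hN
  omega

theorem exact_two (hα : Fintype.card α = 12) (hB : Cfsg.IsSteinerSystem 5 6 B) {b : Finset α}
    (hb : b ∈ B) : ∀ s', s' ⊆ b → s'.card = 2 → exactInter B b s' = 3 := by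
  intro s hs hc
  have hN := Steiner.card_blocks_through hB s (by rw [hc]; norm_num)
  rw [hα, hc] at hN
  have h := through_eq_sum_exact B b s hs
  have hbs : (b \ s).card = 4 := by rw [card_sdiff_of_subset hs, hB.1 b hb, hc]
  rw [hbs] at h
  simp only [Finset.sum_range_succ, Finset.sum_range_zero, zero_add] at h
  rw [sum_exact_zero, sum_exact_const B b s hs 1 2 (fun s' h1 h2 => exact_three hα hB hb s' h1
      (by rw [h2, hc])),
    sum_exact_const B b s hs 2 3 (fun s' h1 h2 => exact_four hα hB hb s' h1 (by rw [h2, hc])),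
    sum_exact_const B b s hs 3 0 (fun s' h1 h2 => exact_five hB hb s' h1 (by rw [h2, hc])),
    sum_exact_const B b s hs 4 1 (fun s' h1 h2 => exact_six hB hb s' h1 (by rw [h2, hc])),
    hbs] at h
  norm_num [Nat.choose] at h hN
  omega

/-- the Leech triangle of `S(5, 6, 12)`. -/
theorem steiner_5_6_12_triangle (hα : Fintype.card α = 12) (hB : Cfsg.IsSteinerSystem 5 6 B)
    (b : Finset α) (hb : b ∈ B) :
    (∀ c ∈ B, c ≠ b → (b ∩ c).card = 0 ∨ (b ∩ c).card = 2 ∨ (b ∩ c).card = 3 ∨
        (b ∩ c).card = 4) ∧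
      ∀ s ⊆ b, (s.card = 2 → {c : Finset α | c ∈ B ∧ b ∩ c = s}.ncard = 3) ∧
        (s.card = 3 → {c : Finset α | c ∈ B ∧ b ∩ c = s}.ncard = 2) ∧
        (s.card = 4 → {c : Finset α | c ∈ B ∧ b ∩ c = s}.ncard = 3) := by
  constructor
  · intro c hc hcb
    obtain ⟨-, h1, -⟩ := Steiner.nInter_5_6_12 hα hB hb
    have h2 := Steiner.nInter_eq_zero h1 hc (Ne.symm hcb)
    have h3 := Steiner.inter_lt hB hb hc (Ne.symm hcb)
    omega
  · intro s hs
    refine ⟨fun h => ?_, fun h => ?_, fun h => ?_⟩
    · rw [ncard_exact]; exact exact_two hα hB hb s hs h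
    · rw [ncard_exact]; exact exact_three hα hB hb s hs h
    · rw [ncard_exact]; exact exact_four hα hB hb s hs h

end Cfsg.Agent.Lib.helper23
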