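import Cfsg.Agent.Lib.helper2.Steiner

set_option autoImplicit false

namespace Cfsg.Agent.Lib.helper23

open Finset Cfsg.Agent.Lib.helper2

variable {α : Type*} [Fintype α] [DecidableEq α] {B : Set (Finset α)}

/-- double counting incidences between a family of blocks and the points of `b`. -/
theorem sum_card_inter_eq (T : Finset (Finset α)) (b : Finset α) :
    ∑ d ∈ T, (b ∩ d).card = ∑ x ∈ b, (T.filter (fun d => x ∈ d)).card := by
  have h1 : ∀ d : Finset α, (b ∩ d).card = ∑ x ∈ b, (if x ∈ d then 1 else 0) := by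
    intro d
    rw [← Finset.card_filter, Finset.filter_mem_eq_inter]
  rw [Finset.sum_congr rfl (fun d _ => h1 d), Finset.sum_comm]
  apply Finset.sum_congr rfl
  intro x _
  rw [Finset.card_filter]

/-- double counting pairs. -/
theorem sum_choose_two_eq (S : Finset (Finset α)) (c : Finset α) :
    ∑ d ∈ S, Nat.choose (c ∩ d).card 2 =
      ∑ P ∈ powersetCard 2 c, (S.filter (fun d => P ⊆ d)).card := by
  have h1 : ∀ d : Finset α, Nat.choose (c ∩ d).card 2
      = ∑ P ∈ powersetCard 2 c, (if P ⊆ d then 1 else 0) := by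
    intro d
    rw [← card_powersetCard, ← Finset.card_filter]
    congr 1
    ext P
    simp only [mem_powersetCard, mem_filter, subset_inter_iff]
    tauto
  rw [Finset.sum_congr rfl (fun d _ => h1 d), Finset.sum_comm]
  apply Finset.sum_congr rfl
  intro P _
  rw [Finset.card_filter]

theorem s22_blocks_card (hα : Fintype.card α = 22) (hB : Cfsg.IsSteinerSystem 3 6 B) :
    (Steiner.Bf B).card = 77 := by
  have h := Steiner.card_blocks_through hB (∅ : Finset α) (by simp)
  rw [hα] at h
  simp only [card_empty, Nat.sub_zero, empty_subset, filter_true] at h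
  norm_num [Nat.choose] at h
  omega

theorem s22_inter (hα : Fintype.card α = 22) (hB : Cfsg.IsSteinerSystem 3 6 B)
    {b c : Finset α} (hb : b ∈ B) (hc : c ∈ B) (hne : b ≠ c) :
    (b ∩ c).card = 0 ∨ (b ∩ c).card = 2 := by
  obtain ⟨-, h1, -⟩ := Steiner.nInter_3_6_22 hα hB hb
  have h2 := Steiner.nInter_eq_zero h1 hc hne
  have h3 := Steiner.inter_lt hB hb hc hne
  omega

theorem s22_disj_card (hα : Fintype.card α = 22) (hB : Cfsg.IsSteinerSystem 3 6 B)
    {b : Finset α} (hb : b ∈ B) :
    ((Steiner.Bf B).filter (fun c => Disjoint b c)).card = 16 := by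
  obtain ⟨h0, -, -⟩ := Steiner.nInter_3_6_22 hα hB hb
  rw [← h0, Steiner.nInter]
  congr 1
  ext c
  simp only [mem_filter, mem_erase, Steiner.mem_Bf, card_eq_zero, ← disjoint_iff_inter_eq_empty]
  constructor
  · rintro ⟨hc, hd⟩
    refine ⟨⟨?_, hc⟩, hd⟩
    rintro rfl
    have : c = ∅ := by simpa using hd
    have h6 := hB.1 c hc
    rw [this] at h6
    simp at h6
  · rintro ⟨⟨-, hc⟩, hd⟩
    exact ⟨hc, hd⟩

/-- through two points outside `b` there are exactly two blocks disjoint from `b`. -/
theorem s22_through_pair_disj (hα : Fintype.card α = 22) (hB : Cfsg.IsSteinerSystem 3 6 B)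
    {b : Finset α} (hb : b ∈ B) (p q : α) (hpq : p ≠ q) (hp : p ∉ b) (hq : q ∉ b) :
    ((Steiner.Bf B).filter (fun d => ({p, q} : Finset α) ⊆ d ∧ Disjoint b d)).card = 2 := by
  obtain ⟨T, hT⟩ : ∃ T, T = (Steiner.Bf B).filter (fun d => ({p, q} : Finset α) ⊆ d) := ⟨_, rfl⟩
  have hpqc : ({p, q} : Finset α).card = 2 := Finset.card_pair hpq
  have hT5 : T.card = 5 := by
    have h := Steiner.card_blocks_through hB ({p, q} : Finset α) (by rw [hpqc]; norm_num)
    rw [hα, hpqc, ← hT] at h
    norm_num [Nat.choose] at h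
    omega
  have hx : ∀ x ∈ b, (T.filter (fun d => x ∈ d)).card = 1 := by
    intro x hx
    have hxc : (insert x ({p, q} : Finset α)).card = 3 := by
      rw [Finset.card_insert_of_notMem, hpqc]
      simp only [mem_insert, mem_singleton, not_or]
      exact ⟨fun h => hp (h ▸ hx), fun h => hq (h ▸ hx)⟩
    have h := Steiner.card_blocks_through hB (insert x ({p, q} : Finset α))
      (by rw [hxc])
    rw [hα, hxc] at h
    norm_num [Nat.choose] at h
    rw [← h, hT, Finset.filter_filter]
    congr 1
    ext d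
    simp only [mem_filter, Finset.insert_subset_iff]
    tauto
  have hsum : ∑ d ∈ T, (b ∩ d).card = 6 := by
    rw [sum_card_inter_eq, Finset.sum_congr rfl hx, sum_const, hB.1 b hb]
    rfl
  have hd : ∀ d ∈ T, (b ∩ d).card = if Disjoint b d then 0 else 2 := by
    intro d hdT
    rw [hT, mem_filter, Steiner.mem_Bf] at hdT
    have hne : b ≠ d := by
      rintro rfl
      exact hp (hdT.2 (by simp))
    rcases s22_inter hα hB hb hdT.1 hne with h | h
    · have : Disjoint b d := by
        rw [disjoint_iff_inter_eq_empty]; exact card_eq_zero.mp h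
      rw [if_pos this, h]
    · have : ¬ Disjoint b d := by
        rw [disjoint_iff_inter_eq_empty]
        intro h0
        rw [h0] at h
        simp at h
      rw [if_neg this, h]
  rw [Finset.sum_congr rfl hd] at hsum
  have h1 : ∑ d ∈ T, (if Disjoint b d then 0 else 2) = 2 * (T.filter (fun d => ¬ Disjoint b d)).card := by
    rw [Finset.card_filter, Finset.mul_sum]
    apply Finset.sum_congr rfl
    intro d _
    by_cases h : Disjoint b d <;> simp [h]
  have h2 := Finset.card_filter_add_card_filter_not (s := T) (fun d => Disjoint b d)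
  have h3 : (Steiner.Bf B).filter (fun d => ({p, q} : Finset α) ⊆ d ∧ Disjoint b d)
      = T.filter (fun d => Disjoint b d) := by
    rw [hT, Finset.filter_filter]
  rw [h3]
  omega

/-- the pair count for the blocks disjoint from `b`. -/
theorem s22_sum_disj_pairs (hα : Fintype.card α = 22) (hB : Cfsg.IsSteinerSystem 3 6 B)
    {b : Finset α} (hb : b ∈ B) (c : Finset α) :
    ∑ d ∈ (Steiner.Bf B).filter (fun d => Disjoint b d), Nat.choose (c ∩ d).card 2
      = 2 * Nat.choose (c \ b).card 2 := by
  rw [sum_choose_two_eq]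
  have h1 : ∀ P ∈ powersetCard 2 c,
      (((Steiner.Bf B).filter (fun d => Disjoint b d)).filter (fun d => P ⊆ d)).card
        = if P ⊆ c \ b then 2 else 0 := by
    intro P hP
    rw [mem_powersetCard] at hP
    obtain ⟨p, q, hpq, rfl⟩ := Finset.card_eq_two.mp hP.2
    by_cases hsub : ({p, q} : Finset α) ⊆ c \ b
    · rw [if_pos hsub]
      have hp : p ∉ b := (mem_sdiff.mp (hsub (by simp))).2
      have hq : q ∉ b := (mem_sdiff.mp (hsub (by simp))).2
      rw [← s22_through_pair_disj hα hB hb p q hpq hp hq, Finset.filter_filter]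
      congr 1
      ext d
      simp only [mem_filter]
      tauto
    · rw [if_neg hsub, Finset.card_eq_zero, Finset.filter_eq_empty_iff]
      intro d hd hPd
      rw [mem_filter] at hd
      apply hsub
      intro x hx
      rw [mem_sdiff]
      refine ⟨hP.1 hx, fun hxb => ?_⟩
      exact Finset.disjoint_left.mp hd.2 hxb (hPd hx)
  rw [Finset.sum_congr rfl h1, ← Finset.sum_filter, sum_const, smul_eq_mul, mul_comm]
  congr 1
  rw [← card_powersetCard]
  congr 1
  ext P
  simp only [mem_filter, mem_powersetCard]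
  constructor
  · rintro ⟨⟨-, h2⟩, h3⟩
    exact ⟨h3, h2⟩
  · rintro ⟨h3, h2⟩
    exact ⟨⟨h3.trans sdiff_subset, h2⟩, h3⟩

/-- the number of blocks disjoint from both `b` and `c`. -/
noncomputable def s22CN (B : Set (Finset α)) (b c : Finset α) : ℕ :=
  ((Steiner.Bf B).filter (fun d => Disjoint b d ∧ Disjoint c d)).card

theorem s22_choose_two_ite (hα : Fintype.card α = 22) (hB : Cfsg.IsSteinerSystem 3 6 B)
    {c d : Finset α} (hc : c ∈ B) (hd : d ∈ B) (hne : c ≠ d) :
    Nat.choose (c ∩ d).card 2 = if Disjoint c d then 0 else 1 := by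
  rcases s22_inter hα hB hc hd hne with h | h
  · have : Disjoint c d := by
      rw [disjoint_iff_inter_eq_empty]; exact card_eq_zero.mp h
    rw [if_pos this, h]
    rfl
  · have : ¬ Disjoint c d := by
      rw [disjoint_iff_inter_eq_empty]
      intro h0
      rw [h0] at h
      simp at h
    rw [if_neg this, h]
    rfl

/-- `λ = 0`. -/
theorem s22_lambda (hα : Fintype.card α = 22) (hB : Cfsg.IsSteinerSystem 3 6 B)
    {b c : Finset α} (hb : b ∈ B) (hc : c ∈ B) (hbc : Disjoint b c) : s22CN B b c = 0 := by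
  obtain ⟨S, hS⟩ : ∃ S, S = (Steiner.Bf B).filter (fun d => Disjoint b d) := ⟨_, rfl⟩
  have hcS : c ∈ S := by rw [hS, mem_filter, Steiner.mem_Bf]; exact ⟨hc, hbc⟩
  have hS16 : S.card = 16 := by rw [hS]; exact s22_disj_card hα hB hb
  have hsum := s22_sum_disj_pairs hα hB hb c
  rw [← hS] at hsum
  have hcb : (c \ b).card = 6 := by
    rw [sdiff_eq_self_of_disjoint hbc.symm, hB.1 c hc]
  rw [hcb, ← Finset.add_sum_erase S _ hcS, inter_self, hB.1 c hc] at hsum
  have h1 : ∀ d ∈ S.erase c, Nat.choose (c ∩ d).card 2 = if Disjoint c d then 0 else 1 := by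
    intro d hd
    rw [mem_erase, hS, mem_filter, Steiner.mem_Bf] at hd
    exact s22_choose_two_ite hα hB hc hd.2.1 (Ne.symm hd.1)
  rw [Finset.sum_congr rfl h1] at hsum
  have h2 : ∑ d ∈ S.erase c, (if Disjoint c d then 0 else 1)
      = ((S.erase c).filter (fun d => ¬ Disjoint c d)).card := by
    rw [Finset.card_filter]
    apply Finset.sum_congr rfl
    intro d _
    by_cases h : Disjoint c d <;> simp [h]
  have h3 := Finset.card_filter_add_card_filter_not (s := S.erase c) (fun d => Disjoint c d)
  have h4 : (S.erase c).card = 15 := by rw [Finset.card_erase_of_mem hcS, hS16]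
  have h5 : s22CN B b c = ((S.erase c).filter (fun d => Disjoint c d)).card := by
    rw [s22CN, hS]
    congr 1
    ext d
    simp only [mem_filter, mem_erase, Steiner.mem_Bf]
    constructor
    · rintro ⟨hd, h1, h2⟩
      refine ⟨⟨?_, hd, h1⟩, h2⟩
      rintro rfl
      have : d = ∅ := by simpa using h2
      have h6 := hB.1 d hd
      rw [this] at h6
      simp at h6
    · rintro ⟨⟨-, hd, h1⟩, h2⟩
      exact ⟨hd, h1, h2⟩
  rw [h2] at hsum
  norm_num [Nat.choose] at hsum
  omega

/-- `μ = 4`. -/
theorem s22_mu (hα : Fintype.card α = 22) (hB : Cfsg.IsSteinerSystem 3 6 B)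
    {b c : Finset α} (hb : b ∈ B) (hc : c ∈ B) (hne : b ≠ c) (hbc : ¬ Disjoint b c) :
    s22CN B b c = 4 := by
  obtain ⟨S, hS⟩ : ∃ S, S = (Steiner.Bf B).filter (fun d => Disjoint b d) := ⟨_, rfl⟩
  have hS16 : S.card = 16 := by rw [hS]; exact s22_disj_card hα hB hb
  have hsum := s22_sum_disj_pairs hα hB hb c
  rw [← hS] at hsum
  have hbc2 : (b ∩ c).card = 2 := by
    rcases s22_inter hα hB hb hc hne with h | h
    · exact absurd (by rw [disjoint_iff_inter_eq_empty]; exact card_eq_zero.mp h) hbc
    · exact h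
  have hcb : (c \ b).card = 4 := by
    have := Finset.card_sdiff_add_card_inter c b
    rw [hB.1 c hc, inter_comm, hbc2] at this
    omega
  rw [hcb] at hsum
  have h1 : ∀ d ∈ S, Nat.choose (c ∩ d).card 2 = if Disjoint c d then 0 else 1 := by
    intro d hd
    rw [hS, mem_filter, Steiner.mem_Bf] at hd
    refine s22_choose_two_ite hα hB hc hd.1 ?_
    rintro rfl
    exact hbc hd.2
  rw [Finset.sum_congr rfl h1] at hsum
  have h2 : ∑ d ∈ S, (if Disjoint c d then 0 else 1)
      = (S.filter (fun d => ¬ Disjoint c d)).card := by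
    rw [Finset.card_filter]
    apply Finset.sum_congr rfl
    intro d _
    by_cases h : Disjoint c d <;> simp [h]
  have h3 := Finset.card_filter_add_card_filter_not (s := S) (fun d => Disjoint c d)
  have h5 : s22CN B b c = (S.filter (fun d => Disjoint c d)).card := by
    rw [s22CN, hS, Finset.filter_filter]
  rw [h2] at hsum
  norm_num [Nat.choose] at hsum
  omega

end Cfsg.Agent.Lib.helper23
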